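import Cfsg.Agent.Spor.Witt24
import Cfsg.Agent.Spor.GolayM24
import Cfsg.Agent.S0358

/-!
A self-dual binary code of length 24 and minimum weight at least 8 is the Golay code.
-/

set_option autoImplicit false

namespace Cfsg.Lib.Spor.AbsGolay

open Finset

section General

variable {α : Type*} [Fintype α] [DecidableEq α]

/-- The binary word with a given support. -/
def ind (s : Finset α) : α → ZMod 2 := fun i => if i ∈ s then 1 else 0

theorem support_ind (s : Finset α) : support₂ (ind s) = s := by
  ext i
  by_cases h : i ∈ s <;> simp [support₂, ind, h]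

theorem ind_support (w : α → ZMod 2) : ind (support₂ w) = w :=
  support₂_injective (support_ind _)

theorem support_add (v w : α → ZMod 2) :
    support₂ (v + w) = symmDiff (support₂ v) (support₂ w) := by
  ext p
  simp only [support₂, mem_filter, mem_univ, true_and, mem_symmDiff, Pi.add_apply]
  generalize w p = x
  generalize v p = y
  revert x y
  decide

omit [Fintype α] [DecidableEq α] in
theorem sub_eq_add' (v w : α → ZMod 2) : v - w = v + w := by
  funext p
  simp only [Pi.sub_apply, Pi.add_apply]
  generalize w p = x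
  generalize v p = y
  revert x y
  decide

omit [Fintype α] [DecidableEq α] in
theorem add_self' (v : α → ZMod 2) : v + v = 0 := by
  rw [← sub_eq_add', sub_self]

theorem dot_eq (v w : α → ZMod 2) :
    ∑ i, v i * w i = (((support₂ v ∩ support₂ w).card : ℕ) : ZMod 2) := by
  rw [card_eq_sum_ones, Nat.cast_sum, ← sum_subset (subset_univ (support₂ v ∩ support₂ w))]
  · refine sum_congr rfl fun i hi => ?_
    simp only [support₂, mem_inter, mem_filter, mem_univ, true_and] at hi
    revert hi
    generalize w i = x
    generalize v i = y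
    revert x y
    decide
  · intro i _ hi
    simp only [support₂, mem_inter, mem_filter, mem_univ, true_and] at hi
    revert hi
    generalize w i = x
    generalize v i = y
    revert x y
    decide

omit [Fintype α] in
theorem card_symmDiff' (s t : Finset α) :
    (symmDiff s t).card + 2 * (s ∩ t).card = s.card + t.card := by
  have h1 := card_sdiff_add_card_inter s t
  have h2 := card_sdiff_add_card_inter t s
  have h3 : (symmDiff s t).card = (s \ t).card + (t \ s).card := by
    rw [symmDiff_def, sup_eq_union, card_union_of_disjoint disjoint_sdiff_sdiff]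
  rw [inter_comm] at h2
  omega

theorem support_comp_equiv {β : Type*} [Fintype β] [DecidableEq β] (e : α ≃ β) (w : β → ZMod 2) :
    (support₂ fun i => w (e i)).image e = support₂ w := by
  ext y
  obtain ⟨x, rfl⟩ := e.surjective y
  rw [e.injective.mem_finset_image]
  simp [support₂]

end General

/-- An abstract extended binary Golay code. -/
structure IsAbs (C : Submodule (ZMod 2) (Fin 24 → ZMod 2)) : Prop where
  dim : Module.finrank (ZMod 2) C = 12
  orth : ∀ v ∈ C, ∀ w ∈ C, ∑ i, v i * w i = 0
  min : ∀ w ∈ C, w ≠ 0 → 8 ≤ hammingNorm w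

variable {C : Submodule (ZMod 2) (Fin 24 → ZMod 2)}

theorem IsAbs.card (h : IsAbs C) : Nat.card C = 4096 := by
  rw [Module.natCard_eq_pow_finrank (K := ZMod 2) (V := C), h.dim, Nat.card_zmod]
  norm_num

theorem IsAbs.even_inter (h : IsAbs C) {v w : Fin 24 → ZMod 2} (hv : v ∈ C) (hw : w ∈ C) :
    Even (support₂ v ∩ support₂ w).card := by
  have := h.orth v hv w hw
  rw [dot_eq, ZMod.natCast_eq_zero_iff] at this
  exact even_iff_two_dvd.2 this

theorem IsAbs.even_card (h : IsAbs C) {v : Fin 24 → ZMod 2} (hv : v ∈ C) :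
    Even (support₂ v).card := by
  simpa using h.even_inter hv hv

theorem IsAbs.eq_of_lt (h : IsAbs C) {v w : Fin 24 → ZMod 2} (hvw : v + w ∈ C)
    (hlt : (support₂ v).card + (support₂ w).card < 8 + 2 * (support₂ v ∩ support₂ w).card) :
    v = w := by
  by_contra hne
  have h1 := h.min _ hvw (fun h0 => hne (by rwa [← sub_eq_add', sub_eq_zero] at h0))
  rw [hammingNorm_eq_card_support, support_add] at h1
  have := card_symmDiff' (support₂ v) (support₂ w)
  omega

theorem card_small (p : Fin 24) :
    (univ.filter fun s : Finset (Fin 24) => s.card ≤ 3 ∨ (s.card = 4 ∧ p ∈ s)).card = 4096 := by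
  have h1 : (univ.filter fun s : Finset (Fin 24) => s.card ≤ 3 ∨ (s.card = 4 ∧ p ∈ s)) =
      ((range 4).biUnion fun i => powersetCard i univ) ∪
        (powersetCard 4 univ).filter (fun T => {p} ⊆ T) := by
    ext s
    simp only [mem_filter, mem_univ, true_and, mem_union, mem_biUnion, mem_range,
      mem_powersetCard, subset_univ, singleton_subset_iff]
    constructor
    · rintro (h | h)
      · exact Or.inl ⟨_, by omega, rfl⟩
      · exact Or.inr h
    · rintro (⟨i, hi, rfl⟩ | h)
      · exact Or.inl (by omega)
      · exact Or.inr h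
  rw [h1, card_union_of_disjoint, card_biUnion, card_between _ _ (subset_univ _) (by simp)]
  · simp only [card_powersetCard, card_univ, Fintype.card_fin, card_singleton]
    decide +kernel
  · intro i _ j _ hij
    exact pairwise_disjoint_powersetCard _ hij
  · rw [disjoint_left]
    intro s h2 h3
    simp only [mem_biUnion, mem_range, mem_powersetCard, mem_filter] at h2 h3
    obtain ⟨i, hi, -, h4⟩ := h2
    omega

/-- Every coset has a representative of weight at most 3 or of weight 4 through a given point. -/
theorem IsAbs.exists_small (h : IsAbs C) (p : Fin 24) (w : Fin 24 → ZMod 2) :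
    ∃ u, u + w ∈ C ∧ ((support₂ u).card ≤ 3 ∨ ((support₂ u).card = 4 ∧ p ∈ support₂ u)) := by
  let R := univ.filter fun s : Finset (Fin 24) => s.card ≤ 3 ∨ (s.card = 4 ∧ p ∈ s)
  let f : R × C → (Fin 24 → ZMod 2) := fun x => ind x.1.1 + x.2.1
  have hinj : Function.Injective f := by
    rintro ⟨⟨s, hs⟩, c⟩ ⟨⟨t, ht⟩, d⟩ hf
    simp only [f] at hf
    have h1 : ind s + ind t = c.1 + d.1 := by
      rw [← sub_eq_add', add_comm c.1, ← sub_eq_add' d.1, sub_eq_sub_iff_add_eq_add, hf, add_comm]
    have h2 : ind s = ind t := by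
      refine h.eq_of_lt (h1 ▸ C.add_mem c.2 d.2) ?_
      rw [support_ind, support_ind]
      simp only [R, mem_filter, mem_univ, true_and] at hs ht
      rcases hs with hs | hs <;> rcases ht with ht | ht
      · omega
      · omega
      · omega
      · have : 0 < (s ∩ t).card := card_pos.2 ⟨p, mem_inter.2 ⟨hs.2, ht.2⟩⟩
        omega
    have h3 : s = t := by rw [← support_ind s, h2, support_ind]
    subst h3
    rw [add_right_inj] at hf
    rw [Subtype.ext hf]
  have hbij : Function.Bijective f := by
    refine hinj.bijective_of_nat_card_le ?_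
    rw [Nat.card_prod, h.card, Nat.card_eq_fintype_card (α := R), Fintype.card_coe, card_small,
      Nat.card_fun, Nat.card_zmod]
    simp
  obtain ⟨⟨⟨s, hs⟩, c⟩, rfl⟩ := hbij.2 w
  refine ⟨ind s, ?_, ?_⟩
  · simp only [f]
    rw [← add_assoc, add_self', zero_add]
    exact c.2
  · rw [support_ind]
    simpa [R] using hs

theorem IsAbs.steiner (h : IsAbs C) :
    IsSteinerSystem 5 8 (wordsOfWeight (C : Set (Fin 24 → ZMod 2)) 8) := by
  refine ⟨fun b hb => hb.2, fun T hT => ?_⟩
  obtain ⟨u, hu, hsm⟩ := h.exists_small 0 (ind T)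
  have he := h.even_card hu
  have hc := card_symmDiff' (support₂ u) T
  rw [support_add, support_ind, Nat.even_iff] at he
  have hne : u + ind T ≠ 0 := by
    intro h0
    rw [← sub_eq_add', sub_eq_zero] at h0
    rw [h0, support_ind] at hsm
    omega
  have hmin := h.min _ hu hne
  rw [hammingNorm_eq_card_support, support_add, support_ind] at hmin
  have h0 : (support₂ u ∩ T).card = 0 := by omega
  have h8 : (symmDiff (support₂ u) T).card = 8 := by omega
  refine ⟨symmDiff (support₂ u) T, ⟨⟨⟨_, hu, by rw [support_add, support_ind]⟩, h8⟩, ?_⟩, ?_⟩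
  · intro x hx
    rw [mem_symmDiff]
    refine Or.inr ⟨hx, fun hxu => ?_⟩
    have := mem_inter.2 ⟨hxu, hx⟩
    rw [card_eq_zero.1 h0] at this
    simp at this
  · rintro _ ⟨⟨⟨c, hc, rfl⟩, hc8⟩, hTc⟩
    have h1 : support₂ (u + ind T) = symmDiff (support₂ u) T := by rw [support_add, support_ind]
    rw [← h1]
    congr 1
    refine h.eq_of_lt (C.add_mem hc hu) ?_
    have h2 : T ⊆ support₂ c ∩ support₂ (u + ind T) := by
      refine subset_inter hTc fun x hx => ?_
      rw [h1, mem_symmDiff]
      refine Or.inr ⟨hx, fun hxu => ?_⟩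
      have := mem_inter.2 ⟨hxu, hx⟩
      rw [card_eq_zero.1 h0] at this
      simp at this
    have := card_le_card h2
    rw [h1] at this ⊢
    omega

/-- The Golay code is spanned by its words of weight 8. -/
theorem golayCode_le_of_octads (D : Submodule (ZMod 2) (GolayPt → ZMod 2))
    (hD : ∀ w, support₂ w ∈ octads → w ∈ D) : golayCode ≤ D := by
  intro w hw
  obtain ⟨m, hm, rfl⟩ := mem_golayCode_iff.1 hw
  obtain ⟨k, -, rfl⟩ := isGolay_iff.1 hm
  refine maskWord_xorComb_mem D _ (fun g hg => hD _ ?_) k
  rw [support_maskWord]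
  exact maskSet_golayGens_mem_octads hg

/-- Uniqueness of the extended binary Golay code. -/
theorem IsAbs.exists_equiv (h : IsAbs C) : ∃ e : Fin 24 ≃ GolayPt,
    ∀ w : GolayPt → ZMod 2, w ∈ golayCode ↔ (fun i => w (e i)) ∈ C := by
  obtain ⟨e, he⟩ := Witt.s24_unique (β := GolayPt) (by simp) rfl h.steiner octads_isSteinerSystem
  let φ : (GolayPt → ZMod 2) ≃ₗ[ZMod 2] (Fin 24 → ZMod 2) := LinearEquiv.funCongrLeft _ _ e
  have hle : golayCode ≤ C.comap φ.toLinearMap := by
    refine golayCode_le_of_octads _ fun w hw => ?_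
    rw [← he] at hw
    obtain ⟨_, ⟨⟨c, hc, rfl⟩, -⟩, h1⟩ := hw
    have h2 : support₂ c = support₂ fun i => w (e i) :=
      image_injective e.injective (h1.trans (support_comp_equiv e w).symm)
    change (fun i => w (e i)) ∈ C
    rwa [← support₂_injective h2]
  have heq : golayCode = C.comap φ.toLinearMap := by
    refine Submodule.eq_of_le_of_finrank_eq hle ?_
    rw [Cfsg.Agent.S0358.result, ← h.dim, Submodule.comap_equiv_eq_map_symm,
      LinearEquiv.finrank_map_eq]
  exact ⟨e, fun w => by rw [heq]; rfl⟩

end Cfsg.Lib.Spor.AbsGolay
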