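import Cfsg.Agent.Spor.LeechIndex
import Cfsg.Agent.Spor.AbstractGolay

/-! Conway's characterisation of the Leech lattice: the code of a frame. -/

set_option autoImplicit false

namespace Cfsg.Lib.Spor.LeechChar

open Finset

variable {ι : Type*} [Fintype ι] [DecidableEq ι]

/-- A lattice in the coordinates of a frame. -/
structure Pre (M : AddSubgroup (ι → ℤ)) : Prop where
  four : ∀ z : ι → ℤ, (2 : ℤ) ∣ ∑ i, z i → (fun i => 4 * z i) ∈ M
  par : ∀ x ∈ M, ∀ i j, x i % 2 = x j % 2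
  dvd : ∀ x ∈ M, (16 : ℤ) ∣ sqNorm x
  min : ∀ x ∈ M, sqNorm x ≠ 16

/-- The code of a lattice. -/
def code (M : AddSubgroup (ι → ℤ)) : Submodule (ZMod 2) (ι → ZMod 2) :=
  AddSubgroup.toZModSubmodule 2
    { carrier := {c | ∃ y : ι → ℤ, (fun i => 2 * y i) ∈ M ∧ ∀ i, (y i : ZMod 2) = c i}
      zero_mem' := ⟨0, by convert M.zero_mem using 1; funext i; simp, by simp⟩
      add_mem' := fun ⟨y, h1, h2⟩ ⟨z, h3, h4⟩ => ⟨y + z, by
        convert M.add_mem h1 h3 using 1; funext i; simp [mul_add], by simp [h2, h4]⟩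
      neg_mem' := fun ⟨y, h1, h2⟩ => ⟨-y, by
        convert M.neg_mem h1 using 1; funext i; simp, by simp [h2]⟩ }

omit [Fintype ι] [DecidableEq ι] in
theorem mem_code {M : AddSubgroup (ι → ℤ)} {c : ι → ZMod 2} :
    c ∈ code M ↔ ∃ y : ι → ℤ, (fun i => 2 * y i) ∈ M ∧ ∀ i, (y i : ZMod 2) = c i := Iff.rfl

theorem cast_ne_zero_iff {a : ℤ} : (a : ZMod 2) ≠ 0 ↔ a % 2 = 1 := by
  rw [Ne, ZMod.intCast_zmod_eq_zero_iff_dvd]; push_cast; omega

omit [DecidableEq ι] in
theorem sqNorm_mul (a : ℤ) (y : ι → ℤ) : sqNorm (fun i => a * y i) = a ^ 2 * sqNorm y := by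
  simp only [sqNorm, mul_pow, mul_sum]

variable {M : AddSubgroup (ι → ℤ)}

omit [DecidableEq ι] in
theorem Pre.dot (h : Pre M) {x y : ι → ℤ} (hx : x ∈ M) (hy : y ∈ M) : (8 : ℤ) ∣ dotInt x y := by
  have h1 := h.dvd _ (M.add_mem hx hy)
  have h2 := h.dvd _ hx
  have h3 := h.dvd _ hy
  rw [← dotInt_self, dotInt_add_left, dotInt_add_right, dotInt_add_right, dotInt_self, dotInt_self,
    dotInt_comm y x] at h1
  omega

omit [DecidableEq ι] in
theorem Pre.orth (h : Pre M) : ∀ v ∈ code M, ∀ w ∈ code M, ∑ i, v i * w i = 0 := by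
  rintro v ⟨y, h1, h2⟩ w ⟨z, h3, h4⟩
  have h5 := h.dot h1 h3
  have h6 : dotInt (fun i => 2 * y i) (fun i => 2 * z i) = 4 * ∑ i, y i * z i := by
    simp only [dotInt, mul_sum]; exact sum_congr rfl fun i _ => by ring
  have h7 : ((∑ i, y i * z i : ℤ) : ZMod 2) = 0 :=
    (ZMod.intCast_zmod_eq_zero_iff_dvd _ 2).2 (by push_cast; omega)
  simpa [h2, h4] using h7

theorem Pre.weight (h : Pre M) {c : ι → ZMod 2} (hc : c ∈ code M) (h0 : c ≠ 0) :
    4 ∣ (support₂ c).card ∧ 8 ≤ (support₂ c).card := by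
  obtain ⟨y, h1, h2⟩ := hc
  obtain ⟨j, hj⟩ := Function.ne_iff.1 h0
  obtain ⟨a, ha, h3⟩ : ∃ a : ℤ, (a = 0 ∨ a = 1) ∧ (2 : ℤ) ∣ ∑ i, (y i / 2 + if i = j then a else 0) := by
    simp only [sum_add_distrib, sum_ite_eq', mem_univ, if_true]
    exact ⟨(∑ i, y i / 2) % 2, by omega, by omega⟩
  have h4 := M.sub_mem h1 (h.four _ h3)
  have h5 : sqNorm ((fun i => 2 * y i) - fun i => 4 * (y i / 2 + if i = j then a else 0)) =
      4 * (support₂ c).card := by
    rw [support₂, card_filter, Nat.cast_sum, mul_sum]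
    refine sum_congr rfl fun i _ => ?_
    have h6 : c i ≠ 0 ↔ y i % 2 = 1 := h2 i ▸ cast_ne_zero_iff
    have h7 : i = j → y i % 2 = 1 := fun e => h6.1 (e ▸ hj)
    have h8 : (2 * y i - 4 * (y i / 2 + if i = j then a else 0) = 0 ∧ ¬ c i ≠ 0) ∨
        ((2 * y i - 4 * (y i / 2 + if i = j then a else 0) = 2 ∨
        2 * y i - 4 * (y i / 2 + if i = j then a else 0) = -2) ∧ c i ≠ 0) := by
      rw [h6]; split_ifs with e
      · have := h7 e; omega
      · omega
    rcases h8 with ⟨e, e'⟩ | ⟨e | e, e'⟩ <;> simp only [Pi.sub_apply, e, e', if_false] <;> simp [e']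
  have h6 := h.dvd _ h4
  have h7 := h.min _ h4
  have h8 : 0 < (support₂ c).card := card_pos.2 ⟨j, mem_filter.2 ⟨mem_univ _, hj⟩⟩
  omega

theorem eq_of_sq {a b : ℤ} (h : a ^ 2 = b ^ 2) (h1 : 0 < a ↔ 0 < b) : a = b := by
  rcases sq_eq_sq_iff_eq_or_eq_neg.1 h with e | e <;> omega

theorem finrank_le {C : Submodule (ZMod 2) (ι → ZMod 2)} (h : ∀ v ∈ C, ∀ w ∈ C, ∑ i, v i * w i = 0) :
    2 * Module.finrank (ZMod 2) C ≤ Fintype.card ι := by
  let B : LinearMap.BilinForm (ZMod 2) (ι → ZMod 2) := dotProductBilin (ZMod 2) (ZMod 2)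
  have h1 : B.IsRefl := fun x y e => (dotProduct_comm y x).trans e
  have h2 := LinearMap.BilinForm.finrank_add_finrank_orthogonal h1 C
  have h3 : B.orthogonal ⊤ = ⊥ := eq_bot_iff.2 fun x hx => funext fun i => by
    have := hx (Pi.single i 1) trivial
    simpa [B] using this
  have h4 : C ≤ B.orthogonal C := fun x hx y hy => h y hy x hx
  have h5 := Submodule.finrank_mono h4
  rw [h3, inf_bot_eq, finrank_bot, Module.finrank_fintype_fun_eq_card] at h2
  omega

section Count

variable {M : AddSubgroup (Fin 24 → ℤ)}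

open Classical in
/-- the supports of the words of weight eight -/
noncomputable def oct (M : AddSubgroup (Fin 24 → ℤ)) : Finset (Finset (Fin 24)) :=
  (powersetCard 8 univ).filter fun s => AbsGolay.ind s ∈ code M

theorem Pre.card_oct (h : Pre M) : (oct M).card ≤ 759 := by
  classical
  have h1 : ((oct M).biUnion (powersetCard 5)).card = ∑ s ∈ oct M, (powersetCard 5 s).card := by
    refine card_biUnion fun s hs t ht hst => disjoint_left.2 fun u h1 h2 => hst ?_
    simp only [oct, coe_filter, mem_powersetCard, Set.mem_ofPred_eq] at hs ht h1 h2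
    have h3 := (code M).add_mem hs.2 ht.2
    by_contra hne
    have h4 := (h.weight h3 fun e => hne (by
      have := congrArg support₂ (add_eq_zero_iff_eq_neg.1 e)
      rwa [← zero_sub, AbsGolay.sub_eq_add', zero_add, AbsGolay.support_ind, AbsGolay.support_ind] at this)).2
    rw [AbsGolay.support_add, AbsGolay.support_ind, AbsGolay.support_ind] at h4
    have h5 := AbsGolay.card_symmDiff' s t
    have h6 := card_le_card (subset_inter h1.1 h2.1)
    omega
  have h2 : ((oct M).biUnion (powersetCard 5)).card ≤ (powersetCard 5 (univ : Finset (Fin 24))).card :=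
    card_le_card (biUnion_subset.2 fun s _ => powersetCard_mono (subset_univ s))
  rw [h1, sum_congr rfl (g := fun _ => 56) fun s hs => by
    rw [card_powersetCard, (mem_powersetCard.1 (mem_filter.1 hs).1).2]; rfl] at h2
  rw [card_powersetCard, card_univ, Fintype.card_fin, sum_const, smul_eq_mul,
    show Nat.choose 24 5 = 42504 by decide +kernel] at h2
  omega

theorem card_A0 (F : Finset (Fin 24 → ℤ)) (hF : ∀ x ∈ F, sqNorm x = 32 ∧ ∀ i, x i % 4 = 0) :
    F.card ≤ 1104 := by
  have h0 : ∀ x ∈ F, ∀ i, x i ^ 2 = if x i ≠ 0 then 16 else 0 := fun x hx i => by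
    have h1 : x i ^ 2 ≤ 32 := (hF x hx).1 ▸ single_le_sum (f := fun i => x i ^ 2) (fun _ _ => sq_nonneg _) (mem_univ i)
    have h2 := (hF x hx).2 i
    have h3 : -8 < x i ∧ x i < 8 := by constructor <;> nlinarith
    have : x i = 0 ∨ x i = 4 ∨ x i = -4 := by omega
    rcases this with e | e | e <;> simp [e]
  refine (card_le_mul_card_image_of_maps_to (f := fun x => univ.filter (x · ≠ 0))
    (t := powersetCard 2 univ) (fun x hx => mem_powersetCard.2 ⟨subset_univ _, ?_⟩) 4 fun s hs => ?_).trans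
    (by rw [card_powersetCard]; decide +kernel)
  · have h1 := (hF x hx).1
    rw [sqNorm, sum_congr rfl fun i _ => h0 x hx i, ← sum_filter, sum_const, nsmul_eq_mul] at h1
    omega
  · refine (card_le_card_of_injOn (fun x => s.filter (0 < x ·)) (t := s.powerset)
      (fun x _ => mem_powerset.2 (filter_subset _ _)) fun x hx y hy e => funext fun i => ?_).trans
      (by rw [card_powerset, (mem_powersetCard.1 hs).2]; rfl)
    simp only [coe_filter, Set.mem_ofPred_eq] at hx hy
    have h1 : x i ≠ 0 ↔ i ∈ s := by rw [← hx.2]; simp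
    have h2 : y i ≠ 0 ↔ i ∈ s := by rw [← hy.2]; simp
    have h3 := Finset.ext_iff.1 e i
    simp only [mem_filter] at h3
    refine eq_of_sq (by rw [h0 x hx.1, h0 y hy.1]; simp only [h1, h2]) ?_
    by_cases hi : i ∈ s
    · simpa [hi] using h3
    · rw [not_not.1 (mt h1.1 hi), not_not.1 (mt h2.1 hi)]

theorem Pre.card_A1 (h : Pre M) (F : Finset (Fin 24 → ℤ))
    (hF : ∀ x ∈ F, x ∈ M ∧ sqNorm x = 32 ∧ (∀ i, x i % 2 = 0) ∧ ∃ i, x i % 4 ≠ 0) : F.card ≤ 97152 := by
  classical
  have h0 : ∀ x ∈ F, (univ.filter (x · % 4 = 2)) ∈ oct M ∧ ∀ i, x i ^ 2 = if x i % 4 = 2 then 4 else 0 := by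
    intro x hx
    obtain ⟨h1, h2, h3, j, h4⟩ := hF x hx
    have h5 : AbsGolay.ind (univ.filter (x · % 4 = 2)) ∈ code M := ⟨fun i => x i / 2, by
      convert h1 using 1; funext i; have := h3 i; beta_reduce; omega, fun i => by
      have := h3 i
      simp only [AbsGolay.ind, mem_filter, mem_univ, true_and]
      split_ifs with e
      · exact (ZMod.intCast_eq_intCast_iff' _ 1 2).2 (by push_cast; omega)
      · exact (ZMod.intCast_eq_intCast_iff' _ 0 2).2 (by push_cast; omega)⟩
    have h6 := (h.weight h5 fun e => by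
      have := congrFun e j
      have := h3 j
      simp [AbsGolay.ind, show x j % 4 = 2 by omega] at *).2
    rw [AbsGolay.support_ind] at h6
    have h7 : ∀ i ∈ univ, (if x i % 4 = 2 then 4 else 0) ≤ x i ^ 2 := fun i _ => by
      split_ifs with e
      · have : x i ≤ -2 ∨ 2 ≤ x i := by omega
        rcases this with e | e <;> nlinarith
      · exact sq_nonneg _
    have h8 := sum_le_sum h7
    have h9 : ∑ i, (if x i % 4 = 2 then 4 else 0 : ℤ) = 4 * (univ.filter (x · % 4 = 2)).card := by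
      rw [← sum_filter, sum_const, nsmul_eq_mul, mul_comm]
    have h10 : ∑ i, x i ^ 2 = 32 := h2
    exact ⟨mem_filter.2 ⟨mem_powersetCard.2 ⟨subset_univ _, by omega⟩, h5⟩,
      fun i => ((sum_eq_sum_iff_of_le h7).1 (by omega) i (mem_univ i)).symm⟩
  refine (card_le_mul_card_image_of_maps_to (fun x hx => (h0 x hx).1) 128 fun s hs => ?_).trans
    (by have := h.card_oct; omega)
  have h1 := (mem_powersetCard.1 (mem_filter.1 hs).1).2
  obtain ⟨j, hj⟩ : s.Nonempty := card_pos.1 (by omega)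
  refine (card_le_card_of_injOn (fun x => (s.erase j).filter (0 < x ·)) (t := (s.erase j).powerset)
    (fun x _ => mem_powerset.2 (filter_subset _ _)) fun x hx y hy e => ?_).trans
    (by rw [card_powerset, card_erase_of_mem hj, h1]; rfl)
  simp only [coe_filter, Set.mem_ofPred_eq] at hx hy
  have h2 : ∀ i, x i ^ 2 = if i ∈ s then 4 else 0 := fun i => by rw [(h0 x hx.1).2, ← hx.2]; simp
  have h3 : ∀ i, y i ^ 2 = if i ∈ s then 4 else 0 := fun i => by rw [(h0 y hy.1).2, ← hy.2]; simp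
  have h4 : ∀ i, i ≠ j → x i = y i := fun i hi => by
    refine eq_of_sq ((h2 i).trans (h3 i).symm) ?_
    by_cases hs : i ∈ s
    · simpa [hs, hi] using Finset.ext_iff.1 e i
    · have a := h2 i
      have b := h3 i
      rw [if_neg hs, sq_eq_zero_iff] at a b
      rw [a, b]
  have h5 := h.min _ (M.sub_mem (hF x hx.1).1 (hF y hy.1).1)
  rw [sqNorm, sum_eq_single j (fun i _ hi => by simp [h4 i hi]) (by simp)] at h5
  have a := h2 j
  have b := h3 j
  rw [if_pos hj, show (4 : ℤ) = 2 ^ 2 from rfl, sq_eq_sq_iff_eq_or_eq_neg] at a b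
  funext i
  by_cases hi : i = j
  · subst hi
    rcases a with a | a <;> rcases b with b | b <;> simp_all
  · exact h4 i hi

theorem odd_shape {x : Fin 24 → ℤ} (h1 : sqNorm x = 32) (h2 : ∀ i, x i % 2 = 1) :
    ∃ j, ∀ i, x i ^ 2 = if i = j then 9 else 1 := by
  have h3 : ∀ i, x i ^ 2 = 1 ∨ 9 ≤ x i ^ 2 := fun i => by
    have := h2 i
    have : x i = 1 ∨ x i = -1 ∨ 3 ≤ x i ∨ x i ≤ -3 := by omega
    rcases this with e | e | e | e
    · simp [e]
    · simp [e]
    · right; nlinarith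
    · right; nlinarith
  obtain ⟨j, hj⟩ : ∃ j, x j ^ 2 ≠ 1 := by
    by_contra! h
    simp [sqNorm, h] at h1
  have h4 : ∀ i ∈ univ, (if i = j then 9 else 1) ≤ x i ^ 2 := fun i _ => by
    have := h3 i
    split_ifs with e
    · subst e; omega
    · omega
  exact ⟨j, fun i => ((sum_eq_sum_iff_of_le h4).1 (Eq.trans ((by decide +kernel : ∀ j : Fin 24,
    ∑ i, (if i = j then 9 else 1 : ℤ) = 32) j) h1.symm) i (mem_univ i)).symm⟩

theorem card_A2 (F : Finset (Fin 24 → ℤ))
    (hF : ∀ x ∈ F, x ∈ M ∧ sqNorm x = 32 ∧ ∀ i, x i % 2 = 1) : F.card ≤ Nat.card (code M) * 24 := by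
  classical
  choose! f hf using fun x (hx : x ∈ F) => odd_shape (hF x hx).2.1 (hF x hx).2.2
  refine (card_le_mul_card_image_of_maps_to (f := f) (t := univ) (fun _ _ => mem_univ _) _
    fun j _ => ?_).trans (by rw [card_univ, Fintype.card_fin])
  rcases (F.filter (f · = j)).eq_empty_or_nonempty with e | ⟨z, hz⟩
  · simp [e]
  rw [← Nat.card_eq_finsetCard]
  have hz' := hF z (mem_filter.1 hz).1
  refine Nat.card_le_card_of_injective (fun x => ⟨fun i => (((x.1 i - z i) / 2 : ℤ) : ZMod 2), _, ?_,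
    fun _ => rfl⟩) fun x y e => Subtype.ext (funext fun i => ?_)
  · have hx := hF x (mem_filter.1 x.2).1
    convert M.sub_mem hx.1 hz'.1 using 1
    funext i
    have := hx.2.2 i
    have := hz'.2.2 i
    rw [Pi.sub_apply]; omega
  · obtain ⟨hx, ex⟩ := mem_filter.1 x.2
    obtain ⟨hy, ey⟩ := mem_filter.1 y.2
    have h1 := (ZMod.intCast_eq_intCast_iff' _ _ 2).1 (congrFun (congrArg Subtype.val e) i)
    have h2 : x.1 i ^ 2 = y.1 i ^ 2 := by rw [hf _ hx, hf _ hy, ex, ey]
    have := (hF _ hx).2.2 i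
    have := (hF _ hy).2.2 i
    have := hz'.2.2 i
    push_cast at h1
    rcases sq_eq_sq_iff_eq_or_eq_neg.1 h2 with e | e <;> omega

theorem Pre.count (h : Pre M) (hc : {x | x ∈ M ∧ sqNorm x = 32}.ncard = 196560) :
    AbsGolay.IsAbs (code M) ∧ ∃ x ∈ M, ∃ j, ∀ i, x i ^ 2 = if i = j then 9 else 1 := by
  classical
  have hf := Set.finite_of_ncard_ne_zero (hc.trans_ne (by norm_num))
  rw [Set.ncard_eq_toFinset_card _ hf] at hc
  have h1 := card_A0 (hf.toFinset.filter fun x => ∀ i, x i % 4 = 0) (by simp +contextual)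
  have h2 := h.card_A1 (hf.toFinset.filter fun x => (∀ i, x i % 2 = 0) ∧ ∃ i, x i % 4 ≠ 0) (by simp +contextual)
  have h3 := card_A2 (M := M) (hf.toFinset.filter fun x => ∀ i, x i % 2 = 1) (by simp +contextual)
  have h4 : hf.toFinset ⊆ (hf.toFinset.filter fun x => ∀ i, x i % 4 = 0) ∪
      (hf.toFinset.filter fun x => (∀ i, x i % 2 = 0) ∧ ∃ i, x i % 4 ≠ 0) ∪
      (hf.toFinset.filter fun x => ∀ i, x i % 2 = 1) := fun x hx => by
    simp only [mem_union, mem_filter, hx, true_and]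
    have h5 := h.par x (hf.mem_toFinset.1 hx).1
    rcases Int.emod_two_eq_zero_or_one (x 0) with e | e
    · exact Or.inl ((em _).imp id fun h6 => ⟨fun i => (h5 i 0).trans e, not_forall.1 h6⟩)
    · exact Or.inr fun i => (h5 i 0).trans e
  have h5 := (card_le_card h4).trans ((card_union_le _ _).trans (Nat.add_le_add_right (card_union_le _ _) _))
  have h6 := finrank_le h.orth
  rw [Module.natCard_eq_pow_finrank (K := ZMod 2), Nat.card_zmod] at h3
  refine ⟨⟨le_antisymm (by simp at h6; omega) (not_lt.1 fun h7 => ?_), h.orth,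
    fun w hw h0 => (h.weight hw h0).2⟩, ?_⟩
  · have := Nat.pow_le_pow_right two_pos (Nat.le_of_lt_succ h7)
    omega
  · obtain ⟨x, hx⟩ : (hf.toFinset.filter fun x => ∀ i, x i % 2 = 1).Nonempty := card_pos.1 (by omega)
    simp only [mem_filter, Set.Finite.mem_toFinset, Set.mem_ofPred_eq] at hx
    exact ⟨x, hx.1.1, odd_shape hx.1.2 hx.2⟩

end Count

theorem Pre.eq_leech {M : AddSubgroup (GolayPt → ℤ)} (h : Pre M) (hc : ∀ w, w ∈ golayCode ↔ w ∈ code M)
    {j : GolayPt} (hj : oddVec j ∈ M) : M = leechLattice := by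
  have h1 : ∀ y : GolayPt → ℤ, (fun i => 2 * y i) ∈ M → ∃ c ∈ golaySets,
      (∀ i, 2 * y i = 2 * ind c i + 4 * (y i / 2)) ∧ (2 : ℤ) ∣ ∑ i, y i / 2 ∧
        c = support₂ fun i => (y i : ZMod 2) := fun y hy => by
    have h2 := support_mem_golaySets_iff.2 ((hc _).2 ⟨y, hy, fun _ => rfl⟩)
    have h3 : ∀ i, 2 * y i = 2 * ind (support₂ fun i => (y i : ZMod 2)) i + 4 * (y i / 2) := fun i => by
      simp only [ind, support₂, mem_filter, mem_univ, true_and, cast_ne_zero_iff]
      split_ifs <;> omega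
    refine ⟨_, h2, h3, ?_, rfl⟩
    have h4 := h.dot hy hj
    have h5 := four_dvd_card_of_mem_golaySets h2
    have h6 : dotInt (fun i => 2 * y i) (oddVec j) = ∑ i, 2 * y i - 8 * y j := by
      rw [dotInt, sum_congr rfl (g := fun i => 2 * y i - if i = j then 8 * y i else 0) fun i _ => by
        unfold oddVec; split_ifs <;> ring]
      simp [sum_sub_distrib]
    rw [h6, sum_congr rfl fun i _ => h3 i, sum_add_distrib, ← mul_sum, ← mul_sum, sum_ind] at h4
    omega
  have h2 : ∀ x ∈ M, x j % 2 = 0 → x ∈ leechLattice := fun x hx h0 => by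
    have h3 : ∀ i, x i = 2 * (x i / 2) := fun i => by have := h.par x hx i j; omega
    obtain ⟨c, h4, h5, h6, -⟩ := h1 (fun i => x i / 2) (by rwa [← funext h3])
    exact mem_leechLattice_even h4 (fun i => (h3 i).trans (h5 i)) h6
  refine le_antisymm (fun x hx => ?_) (leechLattice_le_of M (fun i k _ => ?_) (fun i k _ => ?_)
    (fun g hg => ?_) hj)
  · rcases Int.emod_two_eq_zero_or_one (x j) with e | e
    · exact h2 x hx e
    · simpa using leechLattice.add_mem (h2 _ (M.sub_mem hx hj) (by simp [oddVec]; omega)) (oddVec_mem j)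
  · convert h.four (Pi.single i 1 + Pi.single k 1) (by simp [sum_add_distrib]) using 1
    funext l; simp only [Pi.add_apply, Pi.single_apply]; split_ifs <;> rfl
  · convert h.four (Pi.single i 1 - Pi.single k 1) (by simp [sum_sub_distrib]) using 1
    funext l; simp only [Pi.sub_apply, Pi.single_apply]; split_ifs <;> rfl
  · obtain ⟨w, hw, e⟩ := maskSet_mem_golaySets (m := g) (by revert g; decide +kernel)
    obtain ⟨y, h3, h4⟩ := (hc w).1 hw
    obtain ⟨c, -, h5, h6, h7⟩ := h1 y h3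
    rw [funext h4, e] at h7
    convert M.sub_mem h3 (h.four _ h6) using 1
    funext i; rw [Pi.sub_apply, h5 i, h7]; ring

section Frame

variable {L : Type*} [AddCommGroup L] {b : L →+ L →+ ℤ}

/-- Orthogonal vectors of norm eight which are congruent modulo `2L`. -/
structure Frame (b : L →+ L →+ ℤ) (v : ι → L) : Prop where
  norm : ∀ i, b (v i) (v i) = 8
  orth : ∀ i j, i ≠ j → b (v i) (v j) = 0
  cong : ∀ i j, ∃ z, v i - v j = 2 • z

/-- the coordinates -/
def coord (b : L →+ L →+ ℤ) (v : ι → L) : L →+ (ι → ℤ) :=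
  AddMonoidHom.mk' (fun x i => b x (v i)) fun x y => funext fun i => by simp

theorem Frame.sqNorm_coord [Module.Finite ℤ L] (hb : ShortSetup b 1) {v : ι → L} (h : Frame b v)
    (hr : Module.finrank ℤ L = Fintype.card ι) (x : L) : sqNorm (coord b v x) = 8 * b x x := by
  classical
  have h1 : ∀ j, b (8 • x - ∑ i, b x (v i) • v i) (v j) = 0 := fun j => by
    simp only [map_sub, map_nsmul, map_sum, map_zsmul, AddMonoidHom.sub_apply, AddMonoidHom.nsmul_apply,
      AddMonoidHom.finsetSum_apply, AddMonoidHom.zsmul_apply]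
    rw [sum_eq_single j (fun i _ hi => by rw [h.orth i j hi, smul_zero]) (by simp), h.norm]
    simp [mul_comm]
  have h2 : Function.Injective v := fun i j e => by
    by_contra hne
    have := h.orth i j hne
    rw [← e, h.norm] at this
    omega
  have h3 : 8 • x - ∑ i, b x (v i) • v i = 0 := by
    by_contra h0
    generalize 8 • x - ∑ i, b x (v i) • v i = w at h1 h0
    have h4 := hb.pos h0
    have h5 := ShortSetup.card_le_finrank_of_orth (b := b) (insert w (univ.image v)) (by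
      simp only [mem_insert, mem_image, mem_univ, true_and]
      rintro _ (rfl | ⟨i, rfl⟩)
      · omega
      · rw [h.norm]; omega) (by
      simp only [mem_insert, mem_image, mem_univ, true_and]
      rintro _ (rfl | ⟨i, rfl⟩) _ (rfl | ⟨j, rfl⟩) hne
      · exact absurd rfl hne
      · exact h1 j
      · exact (hb.symm _ _).trans (h1 i)
      · exact h.orth i j fun e => hne (e ▸ rfl))
    rw [card_insert_of_notMem (fun h6 => by
      obtain ⟨i, -, rfl⟩ := mem_image.1 h6
      have := h1 i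
      omega), card_image_of_injective _ h2, card_univ] at h5
    omega
  have h4 := congrArg (b x) (sub_eq_zero.1 h3)
  simp only [map_nsmul, map_sum, map_zsmul, smul_eq_mul, nsmul_eq_mul] at h4
  exact (sum_congr rfl fun i _ => sq _).trans h4.symm

theorem Frame.pre [Module.Finite ℤ L] [Nonempty ι] (hb : ShortSetup b 1) (he : ∀ x, (2 : ℤ) ∣ b x x)
    {v : ι → L} (h : Frame b v) (hr : Module.finrank ℤ L = Fintype.card ι) : Pre (coord b v).range := by
  refine ⟨fun z ⟨a, ha⟩ => ?_, ?_, ?_, ?_⟩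
  · obtain ⟨k⟩ := ‹Nonempty ι›
    choose u hu using fun i => h.cong i k
    have h1 : 2 • (a • v k + ∑ i, z i • u i) = ∑ i, z i • v i := by
      rw [smul_add, smul_sum, sum_congr rfl fun i _ => by rw [smul_comm, ← hu, smul_sub], sum_sub_distrib,
        ← sum_smul, ha, mul_smul, two_smul, two_smul]
      abel
    generalize a • v k + ∑ i, z i • u i = w at h1
    refine ⟨w, funext fun j => ?_⟩
    have h2 := congrArg (b · (v j)) h1
    simp only [map_nsmul, map_sum, map_zsmul, AddMonoidHom.nsmul_apply,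
      AddMonoidHom.finsetSum_apply, AddMonoidHom.zsmul_apply] at h2
    rw [sum_eq_single j (fun i _ hi => by rw [h.orth i j hi, smul_zero]) (by simp), h.norm, smul_eq_mul,
      nsmul_eq_mul] at h2
    show b _ (v j) = _
    omega
  · rintro _ ⟨x, rfl⟩ i j
    obtain ⟨z, hz⟩ := h.cong i j
    have := congrArg (b x) hz
    rw [map_sub, map_nsmul, nsmul_eq_mul] at this
    show b x (v i) % 2 = b x (v j) % 2
    omega
  · rintro _ ⟨x, rfl⟩
    have := he x
    rw [h.sqNorm_coord hb hr]; omega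
  · rintro _ ⟨x, rfl⟩ e
    rw [h.sqNorm_coord hb hr] at e
    rw [hb.eq_zero_of_lt (x := x) (by omega)] at e
    simp at e

theorem Frame.inj [Module.Finite ℤ L] (hb : ShortSetup b 1) {v : ι → L} (h : Frame b v)
    (hr : Module.finrank ℤ L = Fintype.card ι) : Function.Injective (coord b v) :=
  (injective_iff_map_eq_zero _).2 fun x e => hb.eq_zero_of_lt (by
    have := h.sqNorm_coord hb hr x
    rw [e, sqNorm_zero] at this
    omega)

theorem exists_frame (hb : ShortSetup b 1) {x : L}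
    (hx : {y | b y y = 8 * 1 ∧ ∃ z, x - y = 2 • z}.ncard = 48) : ∃ v : Fin 24 → L, Frame b v := by
  classical
  have hf := Set.finite_of_ncard_ne_zero (hx.trans_ne (by norm_num))
  rw [Set.ncard_eq_toFinset_card _ hf] at hx
  let : LinearOrder L := linearOrderOfSTO WellOrderingRel
  obtain ⟨T, h1, h2, h3⟩ : ∃ T ⊆ hf.toFinset, 24 ≤ T.card ∧ ∀ y ∈ T, ∀ z ∈ T, y ≠ z → z ≠ -y := by
    have := card_filter_add_card_filter_not (s := hf.toFinset) (fun y => y < -y)
    by_cases h : 24 ≤ (hf.toFinset.filter fun y => y < -y).card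
    · refine ⟨_, filter_subset _ _, h, fun y hy z hz _ e => ?_⟩
      rw [e, mem_filter, neg_neg] at hz
      exact lt_asymm (mem_filter.1 hy).2 hz.2
    · refine ⟨hf.toFinset.filter fun y => ¬ y < -y, filter_subset _ _, by omega, fun y hy z hz hne e => ?_⟩
      rw [e, mem_filter, neg_neg] at hz
      exact hne (e ▸ le_antisymm (not_lt.1 hz.2) (not_lt.1 (mem_filter.1 hy).2))
  obtain ⟨U, h4, h5⟩ := exists_subset_card_eq h2
  have h6 : ∀ y ∈ U, b y y = 8 * 1 ∧ ∃ z, x - y = 2 • z := fun y hy => hf.mem_toFinset.1 (h1 (h4 hy))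
  have h7 : ∀ y ∈ U, ∀ z ∈ U, ∃ w, y - z = 2 • w := fun y hy z hz =>
    let ⟨a, ha⟩ := (h6 y hy).2
    let ⟨c, hc⟩ := (h6 z hz).2
    ⟨c - a, by rw [smul_sub, ← ha, ← hc]; abel⟩
  let e := (U.equivFinOfCardEq h5).symm
  refine ⟨fun i => e i, fun i => (h6 _ (e i).2).1, fun i j hij => ?_, fun i j => h7 _ (e i).2 _ (e j).2⟩
  have h8 : (e i : L) ≠ e j := fun h => hij (e.injective (Subtype.ext h))
  obtain ⟨w, hw⟩ := h7 _ (e i).2 _ (e j).2
  exact (hb.short_congr (h6 _ (e i).2).1.le (h6 _ (e j).2).1.le hw h8.symm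
    (h3 _ (h4 (e i).2) _ (h4 (e j).2) h8)).2.2

/-- **Conway's characterisation of the Leech lattice.** -/
theorem exists_equiv [Module.Free ℤ L] [Module.Finite ℤ L] (hb : ShortSetup b 1)
    (he : ∀ x, (2 : ℤ) ∣ b x x) (hr : Module.finrank ℤ L = 24)
    (h4 : {x | b x x = 4 * 1}.ncard = 196560) (h6 : {x | b x x = 6 * 1}.ncard = 16773120)
    (h8 : {x | b x x = 8 * 1}.ncard = 398034000) :
    ∃ f : L ≃+ leechLattice, ∀ x, sqNorm (f x : GolayPt → ℤ) = 8 * b x x := by
  obtain ⟨x, hx⟩ := Set.nonempty_of_ncard_ne_zero (h8.trans_ne (by norm_num))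
  obtain ⟨v, hv⟩ := exists_frame hb ((hb.classes hr h4 h6 h8 x).2 hx)
  have hr' : Module.finrank ℤ L = Fintype.card (Fin 24) := by simpa using hr
  obtain ⟨h1, _, ⟨y, rfl⟩, j, h2⟩ := (hv.pre hb he hr').count (by
    rw [← h4, ← Set.ncard_image_of_injective _ (hv.inj hb hr')]
    congr 1
    ext z
    constructor
    · rintro ⟨⟨z, rfl⟩, h⟩
      rw [hv.sqNorm_coord hb hr'] at h
      exact ⟨z, show b z z = _ by omega, rfl⟩
    · rintro ⟨z, h, rfl⟩
      exact ⟨⟨z, rfl⟩, by rw [hv.sqNorm_coord hb hr', show b z z = _ from h]; rfl⟩)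
  obtain ⟨e, h3⟩ := h1.exists_equiv
  have h5 : ∀ p, ∃ s : ℤ, (s = 1 ∨ s = -1) ∧ s * b y (v (e.symm p)) = oddVec (e j) p := fun p => by
    have h : b y (v (e.symm p)) ^ 2 = oddVec (e j) p ^ 2 := by
      refine (h2 (e.symm p)).trans ?_
      simp only [oddVec, e.symm_apply_eq]; split_ifs <;> rfl
    rcases sq_eq_sq_iff_eq_or_eq_neg.1 h with h | h
    · exact ⟨1, Or.inl rfl, by rw [h, one_mul]⟩
    · exact ⟨-1, Or.inr rfl, by rw [h]; ring⟩
  choose s hs h7 using h5
  have hw : Frame b fun p => s p • v (e.symm p) := by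
    refine ⟨fun p => ?_, fun p q hpq => ?_, fun p q => ?_⟩
    · rcases hs p with h | h <;> simp [h, hv.norm]
    · simp [hv.orth _ _ (e.symm.injective.ne hpq)]
    · obtain ⟨z, hz⟩ := hv.cong (e.symm p) (e.symm q)
      rcases hs p with h | h <;> rcases hs q with h' | h' <;> simp only [h, h', one_smul, neg_smul]
      · exact ⟨z, hz⟩
      · exact ⟨z + v (e.symm q), by rw [smul_add, ← hz, two_smul]; abel⟩
      · exact ⟨z - v (e.symm p), by rw [smul_sub, ← hz, two_smul]; abel⟩
      · exact ⟨-z, by rw [smul_neg, ← hz]; abel⟩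
  have hr2 : Module.finrank ℤ L = Fintype.card GolayPt := hr.trans card_golayPt.symm
  have h9 : ∀ z p, coord b (fun p => s p • v (e.symm p)) z p = s p * coord b v z (e.symm p) :=
    fun z p => map_zsmul (b z) _ _
  have h10 : ∀ p, s p * s p = 1 ∧ (s p : ZMod 2) = 1 := fun p => by
    rcases hs p with h | h <;> rw [h] <;> decide
  have h11 := (hw.pre hb he hr2).eq_leech (j := e j) (fun w => (h3 w).trans ⟨?_, ?_⟩)
    ⟨y, funext fun p => (h9 y p).trans (h7 p)⟩
  · exact ⟨(AddMonoidHom.ofInjective (hw.inj hb hr2)).trans (AddEquiv.addSubgroupCongr h11),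
      hw.sqNorm_coord hb hr2⟩
  · rintro ⟨u, ⟨z, hz⟩, hu⟩
    refine ⟨fun p => s p * u (e.symm p), ⟨z, funext fun p => by rw [h9, hz]; ring⟩, fun p => ?_⟩
    simp [(h10 p).2, hu]
  · rintro ⟨u, ⟨z, hz⟩, hu⟩
    refine ⟨fun i => s (e i) * u (e i), ⟨z, funext fun i => ?_⟩, fun i => ?_⟩
    · have := (h9 z (e i)).symm.trans (congrFun hz (e i))
      rw [e.symm_apply_apply] at this
      rw [← one_mul (coord b v z i), ← (h10 (e i)).1, mul_assoc, this]; ring
    · rw [Int.cast_mul, (h10 _).2, hu, one_mul]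

end Frame

end Cfsg.Lib.Spor.LeechChar
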