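import Cfsg.Agent.Spor.ThetaGauss

/-! The theta series of an even unimodular lattice of rank 24 is a modular form of weight 12 and
level one; its coefficients when there are no roots. -/

set_option autoImplicit false

namespace Cfsg.Lib.Spor

open Matrix UpperHalfPlane ModularForm EisensteinSeries
open scoped MatrixGroups Manifold

theorem qf_map_intCast {n : ℕ} (B : Matrix (Fin n) (Fin n) ℤ) (x : Fin n → ℤ) :
    qf (B.map (Int.cast : ℤ → ℝ)) (fun i => (x i : ℝ)) = ((x ⬝ᵥ (B *ᵥ x) : ℤ) : ℝ) := by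
  simp [qf, dotProduct, mulVec]

theorem qf_map_nonneg {n : ℕ} (B : Matrix (Fin n) (Fin n) ℤ)
    (hpos : ∀ x : Fin n → ℤ, x ≠ 0 → 0 < x ⬝ᵥ (B *ᵥ x)) (x : Fin n → ℝ) :
    0 ≤ qf (B.map (Int.cast : ℤ → ℝ)) x := by
  have hd : DenseRange (Pi.map fun (_ : Fin n) => ((↑) : ℚ → ℝ)) :=
    DenseRange.piMap fun _ => Rat.denseRange_cast
  refine hd.induction_on x (isClosed_le continuous_const (continuous_qf _)) fun q => ?_
  obtain ⟨d, hd⟩ := IsLocalization.exist_integer_multiples_of_finite (nonZeroDivisors ℤ) q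
  choose y hy using hd
  have hd0 : ((d : ℤ) : ℝ) ≠ 0 := by exact_mod_cast nonZeroDivisors.coe_ne_zero d
  have h1 : (Pi.map (fun (_ : Fin n) => ((↑) : ℚ → ℝ)) q) =
      ((d : ℤ) : ℝ)⁻¹ • fun i => (y i : ℝ) := by
    ext i
    have h2 : ((y i : ℚ) : ℝ) = (((d : ℤ) * q i : ℚ) : ℝ) := by
      congr 1
      simpa using hy i
    push_cast at h2
    simp only [Pi.map_apply, Pi.smul_apply, smul_eq_mul, h2]
    field_simp
  rw [h1, qf_smul, qf_map_intCast]
  refine mul_nonneg (sq_nonneg _) ?_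
  by_cases hy0 : y = 0
  · simp [hy0]
  · exact_mod_cast (hpos y hy0).le

theorem qf_map_pos {n : ℕ} (B : Matrix (Fin n) (Fin n) ℤ) (hsymm : B.IsSymm)
    (hpos : ∀ x : Fin n → ℤ, x ≠ 0 → 0 < x ⬝ᵥ (B *ᵥ x)) (hdet : B.det ≠ 0) (x : Fin n → ℝ)
    (hx : x ≠ 0) : 0 < qf (B.map (Int.cast : ℤ → ℝ)) x := by
  have h1 : (B.map (Int.cast : ℤ → ℝ)).PosSemidef := by
    refine .of_dotProduct_mulVec_nonneg ?_ fun y => by simpa [qf] using qf_map_nonneg B hpos y
    ext i j
    simp [hsymm.apply i j]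
  have h2 : (B.map (Int.cast : ℤ → ℝ)).PosDef := by
    rw [h1.posDef_iff_det_ne_zero]
    have := (Int.castRingHom ℝ).map_det B
    simp only [eq_intCast, RingHom.mapMatrix_apply, Int.coe_castRingHom] at this
    rw [← this]
    exact_mod_cast hdet
  simpa [qf] using h2.dotProduct_mulVec_pos hx

/-- Hypotheses: an integral positive definite unimodular symmetric matrix. -/
structure Unimod {n : ℕ} (B : Matrix (Fin n) (Fin n) ℤ) : Prop where
  symm : B.IsSymm
  pos : ∀ x : Fin n → ℤ, x ≠ 0 → 0 < x ⬝ᵥ (B *ᵥ x)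
  det : B.det = 1

/-- The theta sum `∑ exp (-π a xᵀBx)`. -/
noncomputable def thetaSum {n : ℕ} (B : Matrix (Fin n) (Fin n) ℤ) (a : ℂ) : ℂ :=
  ∑' x : Fin n → ℤ, Complex.exp (-Real.pi * a * ((x ⬝ᵥ (B *ᵥ x) : ℤ) : ℝ))

theorem Unimod.summable_real {n : ℕ} {B : Matrix (Fin n) (Fin n) ℤ} (h : Unimod B) (t : ℝ)
    (ht : 0 < t) : Summable fun x : Fin n → ℤ => Real.exp (-(t * ((x ⬝ᵥ (B *ᵥ x) : ℤ) : ℝ))) := by
  have := summable_gauss _ (qf_map_pos B h.symm h.pos (by simp [h.det])) t ht 0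
  simpa only [Pi.zero_apply, sub_zero, qf_map_intCast] using this

theorem norm_theta_term (a : ℂ) (q : ℝ) :
    ‖Complex.exp (-Real.pi * a * q)‖ = Real.exp (-(Real.pi * a.re * q)) := by
  rw [Complex.norm_exp]
  simp

theorem Unimod.summable {n : ℕ} {B : Matrix (Fin n) (Fin n) ℤ} (h : Unimod B) (a : ℂ)
    (ha : 0 < a.re) :
    Summable fun x : Fin n → ℤ => Complex.exp (-Real.pi * a * ((x ⬝ᵥ (B *ᵥ x) : ℤ) : ℝ)) := by
  apply Summable.of_norm
  simp only [norm_theta_term]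
  exact h.summable_real _ (mul_pos Real.pi_pos ha)

theorem Unimod.thetaSum_one_ne_zero {n : ℕ} {B : Matrix (Fin n) (Fin n) ℤ} (h : Unimod B) :
    thetaSum B 1 ≠ 0 := by
  have h1 : thetaSum B 1 =
      ((∑' x : Fin n → ℤ, Real.exp (-(Real.pi * ((x ⬝ᵥ (B *ᵥ x) : ℤ) : ℝ))) : ℝ) : ℂ) := by
    rw [thetaSum, Complex.ofReal_tsum]
    refine tsum_congr fun x => ?_
    push_cast
    congr 1
    ring
  rw [h1, Complex.ofReal_ne_zero]
  exact ((h.summable_real _ Real.pi_pos).tsum_pos (fun _ => by positivity) 0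
    (by positivity)).ne'

theorem Unimod.thetaSum_eq {n : ℕ} {B : Matrix (Fin n) (Fin n) ℤ} (h : Unimod B) (a : ℂ)
    (ha : 0 < a.re) : thetaSum B a = (1 / a ^ (1 / 2 : ℂ)) ^ n * thetaSum B a⁻¹ := by
  have hs : (B.map (Int.cast : ℤ → ℝ)).IsSymm := by
    ext i j
    simp [h.symm.apply i j]
  have hp := qf_map_pos B h.symm h.pos (by simp [h.det])
  obtain ⟨ρ, hρ⟩ := gauss_poisson n _ hs hp
  have hu : IsUnit B.det := by simp [h.det]
  let e : (Fin n → ℤ) ≃ (Fin n → ℤ) :=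
    ⟨fun x => B *ᵥ x, fun y => B⁻¹ *ᵥ y,
      fun x => by simp [mulVec_mulVec, nonsing_inv_mul B hu],
      fun x => by simp [mulVec_mulVec, mul_nonsing_inv B hu]⟩
  have key : ∀ a : ℂ, 0 < a.re →
      thetaSum B a = ρ * (1 / a ^ (1 / 2 : ℂ)) ^ n * thetaSum B a⁻¹ := by
    intro a ha
    have h1 := hρ a ha 0
    simp only [Pi.zero_apply, zero_mul, Finset.sum_const_zero, Complex.ofReal_zero, mul_zero,
      add_zero, sub_zero, qf_map_intCast] at h1
    rw [thetaSum, h1, thetaSum, ← e.tsum_eq]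
    congr 1
    refine tsum_congr fun x => ?_
    have h2 : (fun i => (e x i : ℝ)) = B.map (Int.cast : ℤ → ℝ) *ᵥ fun i => (x i : ℝ) := by
      ext i
      simp [e, mulVec, dotProduct]
    rw [h2, qf_inv_mulVec _ (det_ne_zero_of_pos _ hp), qf_map_intCast, div_eq_mul_inv]
  have h1 : ρ = 1 := by
    have h2 := key 1 (by simp)
    simp only [Complex.one_cpow, div_one, one_pow, mul_one, inv_one] at h2
    exact (mul_eq_right₀ h.thetaSum_one_ne_zero).mp h2.symm
  rw [key a ha, h1, one_mul]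

/-- The theta function on the upper half plane. -/
noncomputable def thetaFun {n : ℕ} (B : Matrix (Fin n) (Fin n) ℤ) (τ : ℍ) : ℂ :=
  thetaSum B (-Complex.I * τ)

theorem Unimod.finite_fiber {n : ℕ} {B : Matrix (Fin n) (Fin n) ℤ} (h : Unimod B) (k : ℤ) :
    {x : Fin n → ℤ | x ⬝ᵥ (B *ᵥ x) = k}.Finite := by
  have h1 := (h.summable_real 1 one_pos).tendsto_cofinite_zero
  have h2 := h1.eventually (gt_mem_nhds (Real.exp_pos (-(1 * (k : ℝ)))))
  rw [Filter.eventually_cofinite] at h2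
  refine h2.subset fun x hx => ?_
  simp only [Set.mem_ofPred_eq] at hx ⊢
  rw [hx]
  exact lt_irrefl _

theorem Unimod.hasSum_q {n : ℕ} {B : Matrix (Fin n) (Fin n) ℤ} (h : Unimod B)
    (heven : ∀ x : Fin n → ℤ, (2 : ℤ) ∣ x ⬝ᵥ (B *ᵥ x)) (τ : ℍ) :
    HasSum (fun m : ℕ => (({x : Fin n → ℤ | x ⬝ᵥ (B *ᵥ x) = 2 * (m : ℤ)}.ncard : ℕ) : ℂ) •
      Function.Periodic.qParam (1 : ℝ) τ ^ m) (thetaFun B τ) := by
  have h1 := (h.summable (-Complex.I * τ) (by simpa using τ.im_pos)).hasSum.tsum_fiberwise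
    (fun x => (x ⬝ᵥ (B *ᵥ x) / 2).toNat)
  refine (congrArg (fun f => HasSum f (thetaFun B τ)) ?_).mpr h1
  funext m
  have h2 : (fun x : Fin n → ℤ => (x ⬝ᵥ (B *ᵥ x) / 2).toNat) ⁻¹' {m} =
      {x : Fin n → ℤ | x ⬝ᵥ (B *ᵥ x) = 2 * (m : ℤ)} := by
    ext x
    have h3 := heven x
    have h4 : 0 ≤ x ⬝ᵥ (B *ᵥ x) := by
      by_cases hx : x = 0
      · simp [hx]
      · exact (h.pos x hx).le
    simp only [Set.mem_preimage, Set.mem_singleton_iff, Set.mem_ofPred_eq]
    omega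
  rw [h2]
  have hf := (h.finite_fiber (2 * (m : ℤ))).fintype
  rw [tsum_fintype, Finset.sum_congr rfl (g := fun _ => Function.Periodic.qParam (1 : ℝ) τ ^ m)]
  · simp
  · rintro ⟨x, hx⟩ _
    simp only [Set.mem_ofPred_eq] at hx
    simp only [hx, Function.Periodic.qParam, ← Complex.exp_nat_mul]
    congr 1
    push_cast
    ring

theorem Unimod.mdiff {n : ℕ} {B : Matrix (Fin n) (Fin n) ℤ} (h : Unimod B) :
    MDifferentiable 𝓘(ℂ) 𝓘(ℂ) (thetaFun B) := by
  rw [UpperHalfPlane.mdifferentiable_iff]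
  have key : ∀ z : ℂ, 0 < z.im → DifferentiableAt ℂ (fun w => thetaSum B (-Complex.I * w)) z := by
    intro z hz
    have hU : IsOpen {w : ℂ | z.im / 2 < w.im} := isOpen_lt continuous_const Complex.continuous_im
    have h1 := Complex.differentiableOn_tsum_of_summable_norm
      (F := fun (x : Fin n → ℤ) (w : ℂ) =>
        Complex.exp (-Real.pi * (-Complex.I * w) * ((x ⬝ᵥ (B *ᵥ x) : ℤ) : ℝ)))
      (h.summable_real (Real.pi * (z.im / 2)) (mul_pos Real.pi_pos (by linarith)))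
      (fun x => by fun_prop) hU (fun x w hw => by
        rw [norm_theta_term]
        refine Real.exp_le_exp.mpr (neg_le_neg ?_)
        have h4 : (0 : ℝ) ≤ ((x ⬝ᵥ (B *ᵥ x) : ℤ) : ℝ) := by
          by_cases hx : x = 0
          · simp [hx]
          · exact_mod_cast (h.pos x hx).le
        have h5 : (-Complex.I * w).re = w.im := by simp
        rw [h5]
        have := Real.pi_pos
        gcongr
        exact le_of_lt hw)
    exact h1.differentiableAt (hU.mem_nhds (by simp; linarith))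
  refine DifferentiableOn.congr (fun z hz => (key z hz).differentiableWithinAt) fun z hz => ?_
  simp [thetaFun, ofComplex_apply_of_im_pos hz]

set_option backward.isDefEq.respectTransparency.types false in
theorem Unimod.T_inv {n : ℕ} {B : Matrix (Fin n) (Fin n) ℤ} (h : Unimod B)
    (heven : ∀ x : Fin n → ℤ, (2 : ℤ) ∣ x ⬝ᵥ (B *ᵥ x)) (k : ℤ) :
    (thetaFun B ∣[k] ModularGroup.T) = thetaFun B := by
  ext z
  rw [SL_slash_apply, denom, modular_T_smul, ModularGroup.T]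
  have h1 := h.hasSum_q heven ((1 : ℝ) +ᵥ z)
  have h2 := h.hasSum_q heven z
  have h3 : Function.Periodic.qParam (1 : ℝ) (((1 : ℝ) +ᵥ z : ℍ) : ℂ) =
      Function.Periodic.qParam (1 : ℝ) z := by
    simp [Function.Periodic.qParam, ← Complex.exp_periodic (2 * Real.pi * Complex.I * z)]
    ring_nf
  rw [h3] at h1
  simpa using h1.unique h2

set_option backward.isDefEq.respectTransparency.types false in
theorem Unimod.S_inv {B : Matrix (Fin 24) (Fin 24) ℤ} (h : Unimod B) :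
    (thetaFun B ∣[(12 : ℤ)] ModularGroup.S) = thetaFun B := by
  ext z
  suffices thetaSum B (-Complex.I * -(z : ℂ)⁻¹) * ((z : ℂ) ^ 12)⁻¹ =
      thetaSum B (-Complex.I * z) by
    rw [SL_slash_apply, UpperHalfPlane.modular_S_smul]
    simpa [denom, ModularGroup.S, thetaFun]
  have hz := z.ne_zero
  have ha : (-Complex.I * z) ≠ 0 := mul_ne_zero (by simp) hz
  rw [h.thetaSum_eq (-Complex.I * z) (by simpa using z.im_pos)]
  have h1 : (-Complex.I * z)⁻¹ = -Complex.I * -(z : ℂ)⁻¹ := by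
    simp [mul_comm]
  have h2 : ((-Complex.I * z) ^ (1 / 2 : ℂ)) ^ 24 = (z : ℂ) ^ 12 := by
    rw [← Complex.cpow_nat_mul, show ((24 : ℕ) : ℂ) * (1 / 2) = ((12 : ℕ) : ℂ) by norm_num,
      Complex.cpow_natCast, mul_pow, show (-Complex.I) ^ 12 = ((Complex.I) ^ 4) ^ 3 by ring]
    simp
  rw [h1, one_div, inv_pow, h2, mul_comm]

/-- The theta series of an even unimodular lattice of rank 24 as a modular form. -/
noncomputable def Unimod.thetaForm {B : Matrix (Fin 24) (Fin 24) ℤ} (h : Unimod B)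
    (heven : ∀ x : Fin 24 → ℤ, (2 : ℤ) ∣ x ⬝ᵥ (B *ᵥ x)) : ModularForm 𝒮ℒ 12 where
  toFun := thetaFun B
  slash_action_eq' A hA := by
    obtain ⟨A, rfl⟩ := hA
    exact SlashInvariantForm.slash_action_generators_SL2Z h.S_inv (h.T_inv heven 12) A
  holo' := h.mdiff
  bdd_at_cusps' hc := by
    rw [Subgroup.IsArithmetic.isCusp_iff_isCusp_SL2Z] at hc
    rw [OnePoint.isBoundedAt_iff_forall_SL2Z hc]
    intro γ _
    rw [SlashInvariantForm.slash_action_generators_SL2Z h.S_inv (h.T_inv heven 12)]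
    exact isBoundedAtImInfty_of_hasSum_qExpansion one_pos (h.hasSum_q heven)

theorem E4_coeff : (qExpansion 1 E₄).coeff 0 = 1 ∧ (qExpansion 1 E₄).coeff 1 = 240 ∧
    (qExpansion 1 E₄).coeff 2 = 2160 ∧ (qExpansion 1 E₄).coeff 3 = 6720 ∧
    (qExpansion 1 E₄).coeff 4 = 17520 := by
  have hb : bernoulli 4 = -1 / 30 := by decide +kernel
  have h2 : ArithmeticFunction.sigma 3 2 = 9 := by decide +kernel
  have h3 : ArithmeticFunction.sigma 3 3 = 28 := by decide +kernel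
  have h4 : ArithmeticFunction.sigma 3 4 = 73 := by decide +kernel
  refine ⟨?_, ?_, ?_, ?_, ?_⟩ <;> norm_num [E_qExpansion_coeff _ ⟨2, rfl⟩, hb, h2, h3, h4]

theorem E6_coeff : (qExpansion 1 E₆).coeff 0 = 1 ∧ (qExpansion 1 E₆).coeff 1 = -504 ∧
    (qExpansion 1 E₆).coeff 2 = -16632 ∧ (qExpansion 1 E₆).coeff 3 = -122976 ∧
    (qExpansion 1 E₆).coeff 4 = -532728 := by
  have hb : bernoulli 6 = 1 / 42 := by decide +kernel
  have h2 : ArithmeticFunction.sigma 5 2 = 33 := by decide +kernel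
  have h3 : ArithmeticFunction.sigma 5 3 = 244 := by decide +kernel
  have h4 : ArithmeticFunction.sigma 5 4 = 1057 := by decide +kernel
  refine ⟨?_, ?_, ?_, ?_, ?_⟩ <;> norm_num [E_qExpansion_coeff _ ⟨3, rfl⟩, hb, h2, h3, h4]

theorem Unimod.counts {B : Matrix (Fin 24) (Fin 24) ℤ} (h : Unimod B)
    (heven : ∀ x : Fin 24 → ℤ, (2 : ℤ) ∣ x ⬝ᵥ (B *ᵥ x)) (h2 : ∀ x : Fin 24 → ℤ, x ⬝ᵥ (B *ᵥ x) ≠ 2) :
    {x : Fin 24 → ℤ | x ⬝ᵥ (B *ᵥ x) = 4}.ncard = 196560 ∧
    {x : Fin 24 → ℤ | x ⬝ᵥ (B *ᵥ x) = 6}.ncard = 16773120 ∧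
    {x : Fin 24 → ℤ | x ⬝ᵥ (B *ᵥ x) = 8}.ncard = 398034000 := by
  have hc := ModularFormClass.qExpansion_coeff_unique one_pos one_mem_strictPeriods_SL
    (f := h.thetaForm heven) (h.hasSum_q heven)
  let G : ModularForm 𝒮ℒ 12 := h.thetaForm heven -
    (7 / 12 : ℂ) • ModularForm.mcast (by decide) (E₄.pow 3) -
    (5 / 12 : ℂ) • ModularForm.mcast (by decide) (E₆.pow 2)
  have hG : qExpansion 1 G = qExpansion 1 (h.thetaForm heven) -
      (7 / 12 : ℂ) • (qExpansion 1 E₄ * qExpansion 1 E₄ * qExpansion 1 E₄) -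
      (5 / 12 : ℂ) • (qExpansion 1 E₆ * qExpansion 1 E₆) := by
    simp only [G]
    rw [FunLike.coe_sub, ModularForm.qExpansion_sub one_pos one_mem_strictPeriods_SL,
      FunLike.coe_sub, ModularForm.qExpansion_sub one_pos one_mem_strictPeriods_SL,
      FunLike.coe_smul, ModularForm.qExpansion_smul one_pos one_mem_strictPeriods_SL,
      FunLike.coe_smul, ModularForm.qExpansion_smul one_pos one_mem_strictPeriods_SL,
      ModularForm.qExpansion_mcast, ModularForm.qExpansion_mcast,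
      ModularForm.qExpansion_pow one_pos one_mem_strictPeriods_SL,
      ModularForm.qExpansion_pow one_pos one_mem_strictPeriods_SL, pow_three', sq]
  obtain ⟨a0, a1, a2, a3, a4⟩ := E4_coeff
  obtain ⟨b0, b1, b2, b3, b4⟩ := E6_coeff
  have c0 : {x : Fin 24 → ℤ | x ⬝ᵥ (B *ᵥ x) = 2 * ((0 : ℕ) : ℤ)} = {0} := by
    ext x
    simp only [Set.mem_ofPred_eq, Set.mem_singleton_iff]
    constructor
    · intro hx
      by_contra hx0
      have := h.pos x hx0
      omega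
    · rintro rfl
      simp
  have c1 : {x : Fin 24 → ℤ | x ⬝ᵥ (B *ᵥ x) = 2 * ((1 : ℕ) : ℤ)} = ∅ := by
    ext x
    simpa using h2 x
  have hG0 : G = 0 := by
    apply ModularForm.sturm_bound_levelOne_nat (k := 12)
    refine lt_of_lt_of_le (b := ((2 : ℕ) : ℕ∞)) (by norm_num) (PowerSeries.nat_le_order _ 2 ?_)
    intro i hi
    rw [hG]
    interval_cases i
    · simp only [map_sub, PowerSeries.coeff_smul, ← hc, c0]
      norm_num [PowerSeries.coeff_mul, Finset.Nat.antidiagonal_succ, a0, b0,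
        -PowerSeries.coeff_zero_eq_constantCoeff]
    · simp only [map_sub, PowerSeries.coeff_smul, ← hc, c1]
      norm_num [PowerSeries.coeff_mul, Finset.Nat.antidiagonal_succ, a0, b0, a1, b1,
        -PowerSeries.coeff_zero_eq_constantCoeff]
  have hq : ∀ m : ℕ, (({x : Fin 24 → ℤ | x ⬝ᵥ (B *ᵥ x) = 2 * (m : ℤ)}.ncard : ℕ) : ℂ) =
      (7 / 12 : ℂ) * (qExpansion 1 E₄ * qExpansion 1 E₄ * qExpansion 1 E₄).coeff m +
      (5 / 12 : ℂ) * (qExpansion 1 E₆ * qExpansion 1 E₆).coeff m := by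
    intro m
    have h1 := congrArg (PowerSeries.coeff m) hG
    rw [hG0] at h1
    simp only [FunLike.coe_zero, qExpansion_zero, map_zero, map_sub, PowerSeries.coeff_smul, ← hc,
      smul_eq_mul] at h1
    linear_combination -h1
  have q2 := hq 2
  have q3 := hq 3
  have q4 := hq 4
  norm_num [PowerSeries.coeff_mul, Finset.Nat.antidiagonal_succ, a0, b0, a1, b1, a2, b2, a3, b3,
    a4, b4, -PowerSeries.coeff_zero_eq_constantCoeff] at q2 q3 q4
  exact ⟨by exact_mod_cast q2, by exact_mod_cast q3, by exact_mod_cast q4⟩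

end Cfsg.Lib.Spor
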