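import Cfsg.Agent.Spor.GolayOrbit
import Cfsg.Agent.Spor.M24Order
import Cfsg.Agent.Spor.Sextet
import Cfsg.Agent.Spor.AbstractGolay

/-! Subspaces of the binary permutation module invariant under `M24`. -/

set_option autoImplicit false

namespace Cfsg.Lib.Spor.GSub

open scoped Pointwise

theorem support_add (v w : GolayPt → ZMod 2) : support₂ (v + w) = symmDiff (support₂ v) (support₂ w) := by
  ext p
  simp only [support₂, Finset.mem_filter, Finset.mem_univ, true_and, Finset.mem_symmDiff, Pi.add_apply]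
  generalize v p = x
  generalize w p = y
  revert x y
  decide

theorem support_zero : support₂ (0 : GolayPt → ZMod 2) = ∅ := by ext; simp [support₂]

theorem support_one : support₂ (fun _ : GolayPt => (1 : ZMod 2)) = Finset.univ := by ext; simp [support₂]

theorem one_mem_code : (fun _ : GolayPt => (1 : ZMod 2)) ∈ golayCode :=
  Submodule.subset_span (Set.mem_union_right _ rfl)

theorem mem_span_one {w : GolayPt → ZMod 2} : w ∈ Submodule.span (ZMod 2) {fun _ : GolayPt => (1 : ZMod 2)} ↔
    support₂ w = ∅ ∨ support₂ w = Finset.univ := by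
  rw [← support_zero, ← support_one, support₂_injective.eq_iff, support₂_injective.eq_iff,
    Submodule.mem_span_singleton]
  constructor
  · rintro ⟨a, rfl⟩
    fin_cases a
    exacts [Or.inl (zero_smul _ _), Or.inr (one_smul _ _)]
  · rintro (rfl | rfl)
    exacts [⟨0, zero_smul _ _⟩, ⟨1, one_smul _ _⟩]

theorem mem_supports {W : Set (GolayPt → ZMod 2)} {w : GolayPt → ZMod 2} : support₂ w ∈ supports W ↔ w ∈ W :=
  support₂_injective.mem_set_image

theorem moved4 : ∀ c ∈ golaySets, c = ∅ ∨ c = Finset.univ ∨ ∃ σ ∈ M24, (∀ p ∈ maskSet 15, σ p = p) ∧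
    symmDiff c (σ • c) ≠ ∅ ∧ symmDiff c (σ • c) ≠ Finset.univ := by
  refine forall_golaySets _ (fun m => Nat.beq m 0 || Nat.beq m 16777215 ||
    [274649869457481815642365576705312800, 901355996392734413501702118382340128].any fun g =>
      forceN (popc (Nat.xor m (permMask (pkGet g) m))) fun k => Nat.blt 0 k && Nat.blt k 24)
    (fun m _ h => ?_) (by decide +kernel)
  simp only [Bool.or_eq_true, Nat.beq_eq, List.any_eq_true, forceN_eq, Bool.and_eq_true, Nat.blt_eq] at h
  rcases h with (rfl | rfl) | ⟨g, hg, h1, h2⟩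
  · exact Or.inl maskSet_zero
  · exact Or.inr (Or.inl maskSet_full)
  have h3 : pkM24 g = true ∧ ∀ p ∈ maskSet 15, pkGet g (ptIdx p) = ptIdx p := by
    clear h1 h2; revert g; decide +kernel
  have h4 : (symmDiff (maskSet m) (pkPerm g • maskSet m)).card = popc (Nat.xor m (permMask (pkGet g) m)) := by
    rw [pkPerm_smul_maskSet (pkOk_of_pkM24 h3.1), ← maskSet_xor, card_maskSet]; rfl
  refine Or.inr (Or.inr ⟨_, pkPerm_mem_M24 h3.1, fun p hp => ptIdx_injective
    ((ptIdx_pkPerm (pkOk_of_pkM24 h3.1) p).trans (h3.2 p hp)), fun e => ?_, fun e => ?_⟩) <;> rw [e] at h4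
  · exact h1.ne h4
  · exact h2.ne' h4

variable {W : Submodule (ZMod 2) (GolayPt → ZMod 2)} (hW : ∀ σ ∈ M24, ∀ w ∈ W, (fun p => w (σ.symm p)) ∈ W)

theorem add_mem' {s t : Finset GolayPt} (hs : s ∈ supports (W : Set (GolayPt → ZMod 2)))
    (ht : t ∈ supports (W : Set (GolayPt → ZMod 2))) : symmDiff s t ∈ supports (W : Set (GolayPt → ZMod 2)) := by
  obtain ⟨v, hv, rfl⟩ := hs
  obtain ⟨w, hw, rfl⟩ := ht
  exact ⟨_, add_mem hv hw, support_add v w⟩

include hW

theorem smul_mem' {σ : Equiv.Perm GolayPt} (h : σ ∈ M24) {s : Finset GolayPt}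
    (hs : s ∈ supports (W : Set (GolayPt → ZMod 2))) : σ • s ∈ supports (W : Set (GolayPt → ZMod 2)) := by
  obtain ⟨v, hv, rfl⟩ := hs
  exact ⟨_, hW σ h v hv, support₂_comp_symm σ v⟩

theorem code_le {c : Finset GolayPt} (hc : c ∈ supports (W : Set (GolayPt → ZMod 2))) (hg : c ∈ golaySets)
    (h0 : c ≠ ∅) (h1 : c ≠ Finset.univ) : golayCode ≤ W := by
  have k : ∀ o ∈ octads, o ∈ supports (W : Set (GolayPt → ZMod 2)) → golayCode ≤ W := fun o ho h =>
    AbsGolay.golayCode_le_of_octads W fun w hw => by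
      obtain ⟨σ, a, b⟩ := exists_smul_octad_eq ho hw
      exact mem_supports.1 (b ▸ smul_mem' hW a h)
  rcases card_of_mem_golaySets hg with h | h | h | h | h
  · exact absurd (Finset.card_eq_zero.1 h) h0
  · exact k c ⟨hg, h⟩ hc
  · have k2 : ∀ m, isGolay m = true → popc m = 12 → maskSet m ∈ supports (W : Set (GolayPt → ZMod 2)) :=
      fun m a b => by
        obtain ⟨σ, a, b⟩ := exists_smul_dodecad_eq ⟨hg, h⟩ (mem_dodecads_iff.2 ⟨m, a, b, rfl⟩)
        exact b ▸ smul_mem' hW a hc
    exact k _ (mem_octads_iff.2 ⟨_, by decide +kernel, by decide +kernel, maskSet_xor _ _⟩)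
      (add_mem' (k2 8245261 (by decide +kernel) (by decide +kernel))
        (k2 15953934 (by decide +kernel) (by decide +kernel)))
  · have k2 : ∀ m, isGolay m = true → popc m = 8 →
        maskSet (m ^^^ 16777215) ∈ supports (W : Set (GolayPt → ZMod 2)) := fun m a b => by
      obtain ⟨σ, a, b⟩ := exists_smul_octad_eq (o := cᶜ) ⟨compl_mem_golaySets hg, by
        rw [Finset.card_compl, h]; rfl⟩ (mem_octads_iff.2 ⟨m, a, b, rfl⟩)
      rw [maskSet_compl, ← b, ← perm_smul_finset_compl, compl_compl]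
      exact smul_mem' hW a hc
    exact k _ (mem_octads_iff.2 ⟨_, by decide +kernel, by decide +kernel, maskSet_xor _ _⟩)
      (add_mem' (k2 13062145 (by decide +kernel) (by decide +kernel))
        (k2 4845570 (by decide +kernel) (by decide +kernel)))
  · exact absurd (Finset.eq_univ_of_card _ h) h1

theorem le_span_or (h : W ≤ golayCode) :
    W ≤ Submodule.span (ZMod 2) {fun _ : GolayPt => (1 : ZMod 2)} ∨ W = golayCode := by
  refine or_iff_not_imp_left.2 fun hn => le_antisymm h ?_
  obtain ⟨w, h1, h2⟩ := SetLike.not_le_iff_exists.1 hn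
  rw [mem_span_one, not_or] at h2
  exact code_le hW (mem_supports.2 h1) (support_mem_golaySets_iff.2 (h h1)) h2.1 h2.2

theorem pair_mem {s : Finset GolayPt} (hs : s ∈ supports (W : Set (GolayPt → ZMod 2))) (hn : s ∉ golaySets)
    {t : Finset GolayPt} (ht : t.card = 2) : t ∈ supports (W : Set (GolayPt → ZMod 2)) := by
  have key : ∀ s ∈ supports (W : Set (GolayPt → ZMod 2)), ∀ v ⊆ maskSet 15, symmDiff s v ∈ golaySets →
      ∃ u, (u = ∅ ∨ u = Finset.univ) ∧ symmDiff u v ∈ supports (W : Set (GolayPt → ZMod 2)) := by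
    intro s hs v hv hc
    rcases moved4 _ hc with h | h | ⟨σ, a1, a2, a3, a4⟩
    · exact ⟨_, Or.inl h, by rwa [symmDiff_symmDiff_cancel_right]⟩
    · exact ⟨_, Or.inr h, by rwa [symmDiff_symmDiff_cancel_right]⟩
    have e : σ • v = v := (Finset.image_congr fun p hp => a2 p (hv hp)).trans Finset.image_id
    have h := code_le hW (add_mem' hs (smul_mem' hW a1 hs))
    have e2 : symmDiff (symmDiff s v) (σ • symmDiff s v) = symmDiff s (σ • s) := by
      rw [perm_smul_finset_symmDiff, e, symmDiff_symmDiff_symmDiff_comm, symmDiff_self, symmDiff_bot]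
    rw [← e2] at h
    have := add_mem' hs (Set.image_mono (h (symmDiff_mem_golaySets hc (smul_mem_golaySets a1 hc)) a3 a4) hc)
    rw [symmDiff_symmDiff_cancel_left] at this
    exact ⟨∅, Or.inl rfl, by rwa [← Finset.bot_eq_empty, bot_symmDiff]⟩
  obtain ⟨v, h4, hc⟩ := exists_small_symmDiff_mem s
  obtain ⟨T, h1, -, h2⟩ := Finset.exists_subsuperset_card_eq (Finset.subset_univ v) h4 (n := 4) (by decide)
  obtain ⟨τ, h3, h5⟩ := MP.M24_trans_finset (t := maskSet 15) (by omega) (h2.trans (by decide +kernel))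
  obtain ⟨u, hu, h6⟩ := key _ (smul_mem' hW h3 hs) (τ • v) (h5 ▸ perm_smul_finset_subset_iff.2 h1)
    (perm_smul_finset_symmDiff τ s v ▸ smul_mem_golaySets h3 hc)
  rw [← card_perm_smul_finset τ] at h4
  obtain ⟨a, ha⟩ : (τ • v).Nonempty := Finset.card_pos.1 (by
    rw [card_perm_smul_finset, Finset.card_pos, Finset.nonempty_iff_ne_empty]
    rintro rfl
    exact hn (by rwa [← Finset.bot_eq_empty, symmDiff_bot] at hc))
  generalize τ • v = v at *
  obtain ⟨x, -, hx⟩ := Finset.exists_mem_notMem_of_card_lt_card (s := v) (t := Finset.univ)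
    (h4.trans_lt (by decide))
  obtain ⟨σ, h7, h8⟩ := MP.M24_trans_finset (s := v) (t := insert x (v.erase a)) (by omega) (by
    rw [Finset.card_insert_of_notMem (by simp [hx]), Finset.card_erase_add_one ha])
  have h9 := add_mem' h6 (smul_mem' hW h7 h6)
  have e : σ • u = u := by
    rcases hu with rfl | rfl
    exacts [Finset.smul_finset_empty _, Finset.smul_finset_univ]
  have hax : a ≠ x := fun e => hx (e ▸ ha)
  rw [perm_smul_finset_symmDiff, e, h8, symmDiff_symmDiff_symmDiff_comm, symmDiff_self, bot_symmDiff,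
    show symmDiff v (insert x (v.erase a)) = {a, x} by
      ext p; simp only [Finset.mem_symmDiff, Finset.mem_insert, Finset.mem_erase, Finset.mem_singleton]
      by_cases h : p = a <;> by_cases h' : p = x <;> simp_all] at h9
  obtain ⟨ρ, b1, b2⟩ := MP.M24_trans_finset (s := {a, x}) (t := t) (by rw [Finset.card_pair hax]; omega)
    (by rw [Finset.card_pair hax, ht])
  exact b2 ▸ smul_mem' hW b1 h9

theorem even_le (h : ¬ W ≤ golayCode) {w : GolayPt → ZMod 2} (hw : ∑ p, w p = 0) : w ∈ W := by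
  obtain ⟨v, h1, h2⟩ := SetLike.not_le_iff_exists.1 h
  have k : ∀ p : GolayPt, Pi.single p (1 : ZMod 2) + Pi.single none 1 ∈ W := fun p => by
    by_cases e : p = none
    · subst e
      rw [← two_smul (ZMod 2), show (2 : ZMod 2) = 0 from rfl, zero_smul]; exact zero_mem _
    · refine mem_supports.1 (pair_mem hW (mem_supports.2 h1) (mt support_mem_golaySets_iff.1 h2) ?_)
      revert p; decide +kernel
  have := Submodule.sum_mem W fun p (_ : p ∈ Finset.univ) => W.smul_mem (w p) (k p)
  simp only [smul_add, Finset.sum_add_distrib, ← Finset.sum_smul, hw, zero_smul, add_zero] at this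
  rwa [pi_eq_sum_univ' w]

end Cfsg.Lib.Spor.GSub
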