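import Cfsg.Prelude.Def_Sporadic_a

/-!
Counting in Steiner systems: number of blocks through a set, and the number of blocks meeting a
fixed set in a prescribed subset (the "Leech triangle").
-/

set_option autoImplicit false

namespace Cfsg.Lib.Spor.Tri

open Finset

variable {α : Type*} [DecidableEq α]

/-- The number of `t`-sets between `s` and `c`. -/
theorem card_between (s c : Finset α) (hsc : s ⊆ c) (t : ℕ) (hst : s.card ≤ t) :
    ((c.powersetCard t).filter (fun T => s ⊆ T)).card = (c.card - s.card).choose (t - s.card) := by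
  rw [← card_sdiff_of_subset hsc, ← card_powersetCard]
  symm
  apply card_bij (fun U _ => U ∪ s)
  · intro U hU
    rw [mem_powersetCard] at hU
    have hd : Disjoint U s := disjoint_of_subset_left hU.1 sdiff_disjoint
    simp only [mem_filter, mem_powersetCard]
    refine ⟨⟨union_subset (hU.1.trans sdiff_subset) hsc, ?_⟩, subset_union_right⟩
    rw [card_union_of_disjoint hd, hU.2]; omega
  · intro U hU V hV h
    rw [mem_powersetCard] at hU hV
    have hd : Disjoint U s := disjoint_of_subset_left hU.1 sdiff_disjoint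
    have hd' : Disjoint V s := disjoint_of_subset_left hV.1 sdiff_disjoint
    rw [← union_sdiff_cancel_right hd, ← union_sdiff_cancel_right hd', h]
  · intro T hT
    simp only [mem_filter, mem_powersetCard] at hT
    refine ⟨T \ s, ?_, sdiff_union_of_subset hT.2⟩
    rw [mem_powersetCard]
    exact ⟨sdiff_subset_sdiff hT.1.1 Subset.rfl, by rw [card_sdiff_of_subset hT.2, hT.1.2]⟩

variable [Fintype α]

/-- The blocks satisfying a predicate, as a `Finset`. -/
noncomputable def blocksWith (B : Set (Finset α)) (P : Finset α → Prop) : Finset (Finset α) := by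
  classical exact univ.filter (fun c => c ∈ B ∧ P c)

omit [DecidableEq α] in
@[simp] theorem mem_blocksWith {B : Set (Finset α)} {P : Finset α → Prop} {c : Finset α} :
    c ∈ blocksWith B P ↔ c ∈ B ∧ P c := by
  classical
  simp [blocksWith]

omit [DecidableEq α] in
theorem ncard_eq_card_blocksWith (B : Set (Finset α)) (P : Finset α → Prop) :
    {c : Finset α | c ∈ B ∧ P c}.ncard = (blocksWith B P).card := by
  rw [← Set.ncard_coe_finset]
  congr 1
  ext c
  simp

/-- The number `λ_i` of blocks through an `i`-set, `i ≤ t`. -/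
theorem steiner_through_mul {t k : ℕ} {B : Set (Finset α)} (hB : IsSteinerSystem t k B)
    (s : Finset α) (hs : s.card ≤ t) :
    (blocksWith B (fun c => s ⊆ c)).card * (k - s.card).choose (t - s.card)
      = (Fintype.card α - s.card).choose (t - s.card) := by
  classical
  have h1 := card_between s univ (subset_univ s) t hs
  rw [card_univ] at h1
  rw [← h1, ← mul_one (card (filter _ _))]
  apply card_mul_eq_card_mul (fun c T => T ⊆ c)
  · intro c hc
    rw [mem_blocksWith] at hc
    rw [← hB.1 c hc.1, ← card_between s c hc.2 t hs]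
    congr 1
    ext T
    simp only [mem_bipartiteAbove, mem_filter, mem_powersetCard, subset_univ, true_and]
    tauto
  · intro T hT
    simp only [mem_filter, mem_powersetCard, subset_univ, true_and] at hT
    obtain ⟨c, hc, hu⟩ := hB.2 T hT.1
    rw [card_eq_one]
    refine ⟨c, ?_⟩
    ext d
    simp only [mem_bipartiteBelow, mem_blocksWith, mem_singleton]
    constructor
    · rintro ⟨⟨h1, _⟩, h3⟩
      exact hu d ⟨h1, h3⟩
    · rintro rfl
      exact ⟨⟨hc.1, hT.2.trans hc.2⟩, hc.2⟩

/-- `λ_i` from a numerical identity. -/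
theorem steiner_through_eq {t k v : ℕ} {B : Set (Finset α)} (hα : Fintype.card α = v)
    (hB : IsSteinerSystem t k B) (htk : t ≤ k) (s : Finset α) (hs : s.card ≤ t) (l : ℕ)
    (hl : l * (k - s.card).choose (t - s.card) = (v - s.card).choose (t - s.card)) :
    (blocksWith B (fun c => s ⊆ c)).card = l := by
  have h := steiner_through_mul hB s hs
  rw [hα, ← hl] at h
  exact Nat.eq_of_mul_eq_mul_right (Nat.choose_pos (by omega)) h

omit [Fintype α] in
/-- Two blocks sharing `t` points coincide. -/
theorem steiner_eq_of_le_card_inter {t k : ℕ} {B : Set (Finset α)} (hB : IsSteinerSystem t k B)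
    {b c : Finset α} (hb : b ∈ B) (hc : c ∈ B) (h : t ≤ (b ∩ c).card) : b = c := by
  obtain ⟨T, hT, hTc⟩ := exists_subset_card_eq h
  obtain ⟨d, _, hu⟩ := hB.2 T hTc
  rw [hu b ⟨hb, hT.trans inter_subset_left⟩, hu c ⟨hc, hT.trans inter_subset_right⟩]

/-- A subset of a block with at least `t` points lies in exactly one block. -/
theorem steiner_through_of_subset_block {t k : ℕ} {B : Set (Finset α)}
    (hB : IsSteinerSystem t k B) {b s : Finset α} (hb : b ∈ B) (hsb : s ⊆ b) (hs : t ≤ s.card) :
    (blocksWith B (fun c => s ⊆ c)).card = 1 := by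
  rw [card_eq_one]
  refine ⟨b, ?_⟩
  ext c
  simp only [mem_blocksWith, mem_singleton]
  constructor
  · rintro ⟨hc, hsc⟩
    exact (steiner_eq_of_le_card_inter hB hb hc
      (hs.trans (card_le_card (subset_inter hsb hsc)))).symm
  · rintro rfl
    exact ⟨hb, hsb⟩

omit [Fintype α] in
/-- Summing a function of the cardinality over all sets between `s` and `X`. -/
theorem sum_between (s X : Finset α) (hsX : s ⊆ X) (f : ℕ → ℕ) :
    ∑ u ∈ X.powerset.filter (fun u => s ⊆ u), f u.card
      = ∑ m ∈ range (X.card - s.card + 1), (X.card - s.card).choose m * f (s.card + m) := by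
  have hmaps : ∀ u ∈ X.powerset.filter (fun u => s ⊆ u),
      u.card - s.card ∈ range (X.card - s.card + 1) := by
    intro u hu
    simp only [mem_filter, mem_powerset] at hu
    have := card_le_card hu.1
    rw [mem_range]; omega
  rw [← sum_fiberwise_of_maps_to hmaps]
  apply sum_congr rfl
  intro m _
  have h := card_between s X hsX (s.card + m) (by omega)
  rw [Nat.add_sub_cancel_left] at h
  rw [← h, ← smul_eq_mul, ← sum_const]
  apply sum_congr
  · ext u
    simp only [mem_filter, mem_powerset, mem_powersetCard]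
    constructor
    · rintro ⟨⟨h1, h2⟩, h3⟩
      have := card_le_card h2
      exact ⟨⟨h1, by omega⟩, h2⟩
    · rintro ⟨⟨h1, h2⟩, h3⟩
      exact ⟨⟨h1, h3⟩, by omega⟩
  · intro u hu
    simp only [mem_filter, mem_powersetCard] at hu
    rw [hu.1.2]

/-- Blocks through `s ⊆ X`, sorted by their trace on `X`. -/
theorem through_eq_sum_exact (B : Set (Finset α)) (s X : Finset α) (hsX : s ⊆ X) :
    (blocksWith B (fun c => s ⊆ c)).card
      = ∑ u ∈ X.powerset.filter (fun u => s ⊆ u), (blocksWith B (fun c => X ∩ c = u)).card := by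
  classical
  have hmaps : ∀ c ∈ blocksWith B (fun c => s ⊆ c),
      X ∩ c ∈ X.powerset.filter (fun u => s ⊆ u) := by
    intro c hc
    rw [mem_blocksWith] at hc
    simp only [mem_filter, mem_powerset]
    exact ⟨inter_subset_left, subset_inter hsX hc.2⟩
  rw [card_eq_sum_card_fiberwise hmaps]
  apply sum_congr rfl
  intro u hu
  simp only [mem_filter, mem_powerset] at hu
  congr 1
  ext c
  simp only [mem_filter, mem_blocksWith]
  constructor
  · rintro ⟨⟨h1, _⟩, h3⟩
    exact ⟨h1, h3⟩
  · rintro ⟨h1, h3⟩
    exact ⟨⟨h1, hu.2.trans (h3 ▸ inter_subset_right)⟩, h3⟩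

/-- **Leech triangle.** If the number of blocks through a subset `s` of `X` is `lam |s|`, and `f`
solves the triangular system, the number of blocks with trace exactly `s` on `X` is `f |s|`. -/
theorem exact_count (B : Set (Finset α)) (X : Finset α) (n : ℕ) (hX : X.card = n) (lam f : ℕ → ℕ)
    (hlam : ∀ s ⊆ X, (blocksWith B (fun c => s ⊆ c)).card = lam s.card)
    (hf : ∀ j ≤ n, lam j = ∑ m ∈ range (n - j + 1), (n - j).choose m * f (j + m))
    (s : Finset α) (hs : s ⊆ X) : (blocksWith B (fun c => X ∩ c = s)).card = f s.card := by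
  classical
  induction' hd : n - s.card using Nat.strong_induction_on with d ih generalizing s
  have h1 := through_eq_sum_exact B s X hs
  have h2 := sum_between s X hs f
  have hsc := card_le_card hs
  rw [hX, ← hf s.card (by omega), ← hlam s hs, h1] at h2
  have hmem : s ∈ X.powerset.filter (fun u => s ⊆ u) := by
    simp only [mem_filter, mem_powerset]; exact ⟨hs, Subset.rfl⟩
  rw [← add_sum_erase _ _ hmem, ← add_sum_erase _ _ hmem] at h2
  have h3 : ∑ u ∈ (X.powerset.filter (fun u => s ⊆ u)).erase s, f u.card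
      = ∑ u ∈ (X.powerset.filter (fun u => s ⊆ u)).erase s,
        (blocksWith B (fun c => X ∩ c = u)).card := by
    apply sum_congr rfl
    intro u hu
    simp only [mem_erase, mem_filter, mem_powerset] at hu
    have hlt : s.card < u.card := card_lt_card (ssubset_of_subset_of_ne hu.2.2 hu.1.symm)
    have := card_le_card hu.2.1
    exact (ih (n - u.card) (by omega) u hu.2.1 rfl).symm
  omega

/-- Number of blocks whose trace on `X` has `j` points. -/
theorem count_inter_card (B : Set (Finset α)) (X : Finset α) (f : ℕ → ℕ)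
    (hf : ∀ s ⊆ X, (blocksWith B (fun c => X ∩ c = s)).card = f s.card) (j : ℕ) :
    (blocksWith B (fun c => (X ∩ c).card = j)).card = X.card.choose j * f j := by
  classical
  have hmaps : ∀ c ∈ blocksWith B (fun c => (X ∩ c).card = j), X ∩ c ∈ X.powersetCard j := by
    intro c hc
    rw [mem_blocksWith] at hc
    rw [mem_powersetCard]
    exact ⟨inter_subset_left, hc.2⟩
  rw [card_eq_sum_card_fiberwise hmaps, ← card_powersetCard, ← smul_eq_mul, ← sum_const]
  apply sum_congr rfl
  intro u hu
  rw [mem_powersetCard] at hu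
  rw [← hu.2, ← hf u hu.1]
  congr 1
  ext c
  simp only [mem_filter, mem_blocksWith]
  constructor
  · rintro ⟨⟨h1, _⟩, h3⟩
    exact ⟨h1, h3⟩
  · rintro ⟨h1, h3⟩
    exact ⟨⟨h1, by rw [h3]⟩, h3⟩

/-- Leech triangle of a block of a Steiner system, from purely numerical hypotheses
(all closed by `decide`). -/
theorem steiner_exact_count {t k v : ℕ} {B : Set (Finset α)} (hα : Fintype.card α = v)
    (hB : IsSteinerSystem t k B) (htk : t ≤ k) (lam f : ℕ → ℕ)
    (h1 : ∀ j ≤ t, lam j * (k - j).choose (t - j) = (v - j).choose (t - j))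
    (h2 : ∀ j ≤ k, t ≤ j → lam j = 1)
    (hf : ∀ j ≤ k, lam j = ∑ m ∈ range (k - j + 1), (k - j).choose m * f (j + m))
    {b : Finset α} (hb : b ∈ B) (s : Finset α) (hs : s ⊆ b) :
    (blocksWith B (fun c => b ∩ c = s)).card = f s.card := by
  refine exact_count B b k (hB.1 b hb) lam f ?_ hf s hs
  intro u hu
  rcases le_total u.card t with h | h
  · exact steiner_through_eq hα hB htk u h _ (h1 _ h)
  · rw [steiner_through_of_subset_block hB hb hu h, h2 _ ?_ h]
    rw [← hB.1 b hb]; exact card_le_card hu

/-- If some block has trace `b ∩ c`, the corresponding entry of the triangle is nonzero. -/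
theorem exact_ne_zero {B : Set (Finset α)} {X c : Finset α} (hc : c ∈ B) {n : ℕ}
    (h : (blocksWith B (fun d => X ∩ d = X ∩ c)).card = n) : n ≠ 0 := by
  rw [← h, ← Nat.pos_iff_ne_zero, card_pos]
  exact ⟨c, mem_blocksWith.2 ⟨hc, rfl⟩⟩

/-! ### The five Witt designs -/

/-- S(5,8,24): blocks with a prescribed trace on a block. -/
theorem s5824_exact {B : Set (Finset α)} (hα : Fintype.card α = 24) (hB : IsSteinerSystem 5 8 B)
    {b : Finset α} (hb : b ∈ B) (s : Finset α) (hs : s ⊆ b) :
    (blocksWith B (fun c => b ∩ c = s)).card = [30, 0, 16, 0, 4, 0, 0, 0, 1].getD s.card 0 :=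
  steiner_exact_count hα hB (by norm_num) (fun j => [759, 253, 77, 21, 5].getD j 1)
    (fun j => [30, 0, 16, 0, 4, 0, 0, 0, 1].getD j 0) (by decide +kernel) (by decide +kernel)
    (by decide +kernel) hb s hs

/-- S(4,7,23): blocks with a prescribed trace on a block. -/
theorem s4723_exact {B : Set (Finset α)} (hα : Fintype.card α = 23) (hB : IsSteinerSystem 4 7 B)
    {b : Finset α} (hb : b ∈ B) (s : Finset α) (hs : s ⊆ b) :
    (blocksWith B (fun c => b ∩ c = s)).card = [0, 16, 0, 4, 0, 0, 0, 1].getD s.card 0 :=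
  steiner_exact_count hα hB (by norm_num) (fun j => [253, 77, 21, 5].getD j 1)
    (fun j => [0, 16, 0, 4, 0, 0, 0, 1].getD j 0) (by decide +kernel) (by decide +kernel)
    (by decide +kernel) hb s hs

/-- S(3,6,22): blocks with a prescribed trace on a block. -/
theorem s3622_exact {B : Set (Finset α)} (hα : Fintype.card α = 22) (hB : IsSteinerSystem 3 6 B)
    {b : Finset α} (hb : b ∈ B) (s : Finset α) (hs : s ⊆ b) :
    (blocksWith B (fun c => b ∩ c = s)).card = [16, 0, 4, 0, 0, 0, 1].getD s.card 0 :=
  steiner_exact_count hα hB (by norm_num) (fun j => [77, 21, 5].getD j 1)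
    (fun j => [16, 0, 4, 0, 0, 0, 1].getD j 0) (by decide +kernel) (by decide +kernel)
    (by decide +kernel) hb s hs

/-- S(5,6,12): blocks with a prescribed trace on a block. -/
theorem s5612_exact {B : Set (Finset α)} (hα : Fintype.card α = 12) (hB : IsSteinerSystem 5 6 B)
    {b : Finset α} (hb : b ∈ B) (s : Finset α) (hs : s ⊆ b) :
    (blocksWith B (fun c => b ∩ c = s)).card = [1, 0, 3, 2, 3, 0, 1].getD s.card 0 :=
  steiner_exact_count hα hB (by norm_num) (fun j => [132, 66, 30, 12, 4].getD j 1)
    (fun j => [1, 0, 3, 2, 3, 0, 1].getD j 0) (by decide +kernel) (by decide +kernel)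
    (by decide +kernel) hb s hs

/-- S(4,5,11): blocks with a prescribed trace on a block. -/
theorem s4511_exact {B : Set (Finset α)} (hα : Fintype.card α = 11) (hB : IsSteinerSystem 4 5 B)
    {b : Finset α} (hb : b ∈ B) (s : Finset α) (hs : s ⊆ b) :
    (blocksWith B (fun c => b ∩ c = s)).card = [0, 3, 2, 3, 0, 1].getD s.card 0 :=
  steiner_exact_count hα hB (by norm_num) (fun j => [66, 30, 12, 4].getD j 1)
    (fun j => [0, 3, 2, 3, 0, 1].getD j 0) (by decide +kernel) (by decide +kernel)
    (by decide +kernel) hb s hs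

end Cfsg.Lib.Spor.Tri
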