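import Cfsg.Agent.Spor.SRGBasic
import Cfsg.Agent.Spor.Witt22
import Cfsg.Agent.Spor.WittRigid
import Cfsg.Agent.Spor.GolayM24

/-!
The block graph and the point-block graph (Higman–Sims graph) of an S(3,6,22).
-/

set_option autoImplicit false

namespace Cfsg.Lib.Spor.Witt

open Finset

/-- Counting over a list. -/
def cntL (L : List ℕ) (p : ℕ → Bool) : ℕ := List.rec 0 (fun c _ r => cond (p c) (Nat.succ r) r) L

theorem cntL_eq (L : List ℕ) (p : ℕ → Bool) : cntL L p = (L.filter p).length := by
  induction L with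
  | nil => rfl
  | cons c L ih =>
    change cond (p c) (Nat.succ (cntL L p)) (cntL L p) = _
    rw [ih, List.filter_cons]
    cases p c <;> simp

variable {α : Type*} [DecidableEq α]

theorem IsStdVia.ncard_sep {v : ℕ} {std : List ℕ} {e : Fin v ≃ α} {B : Set (Finset α)}
    (h : IsStdVia std e B) (hstd : incr (2 ^ v) std 0 = true) (p : ℕ → Bool) (Q : Finset α → Prop)
    (hpQ : ∀ c ∈ std, p c = true ↔ Q ((ms v c).image e)) :
    {b | b ∈ B ∧ Q b}.ncard = cntL std p := by
  obtain ⟨h1, h2⟩ := incr_spec hstd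
  rw [cntL_eq, ← List.toFinset_card_of_nodup (h2.filter _), ← Set.ncard_coe_finset]
  symm
  refine Set.ncard_congr (fun c _ => (ms v c).image e) (fun c hc => ?_) (fun a b ha hb hab => ?_)
    (fun b hb => ?_)
  · simp only [List.toFinset_filter, coe_filter, List.mem_toFinset, Set.mem_ofPred_eq] at hc
    exact ⟨(h _).2 ⟨c, hc.1, rfl⟩, (hpQ c hc.1).1 hc.2⟩
  · simp only [List.toFinset_filter, coe_filter, List.mem_toFinset, Set.mem_ofPred_eq] at ha hb
    exact ms_injOn (h1 a ha.1).2 (h1 b hb.1).2 (image_injective e.injective hab)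
  · obtain ⟨c, hc, rfl⟩ := (h b).1 hb.1
    refine ⟨c, ?_, rfl⟩
    simp only [List.toFinset_filter, coe_filter, List.mem_toFinset, Set.mem_ofPred_eq]
    exact ⟨hc, (hpQ c hc).2 hb.2⟩

theorem disjoint_ms_iff {v a : ℕ} (ha : a < 2 ^ v) (b : ℕ) :
    Disjoint (ms v a) (ms v b) ↔ Nat.land a b = 0 := by
  rw [disjoint_iff_inter_eq_empty, ← ms_land]
  constructor
  · intro h
    exact ms_injOn (land_lt b ha) (Nat.two_pow_pos v) (by rw [h]; ext; simp)
  · intro h
    rw [h]; ext; simp

theorem nat_beq_false {a b : ℕ} (h : a ≠ b) : Nat.beq a b = false := by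
  rw [← Bool.not_eq_true, Nat.beq_eq]; exact h

theorem s22_incr : incr (2 ^ 22) s22Std 0 = true := by decide +kernel

theorem s22_cnt_two : allL s22Std (fun b => allL s22Std fun c => Nat.beq
    (cntL s22Std fun d => and (Nat.beq (Nat.land b d) 0) (Nat.beq (Nat.land c d) 0))
    (cond (Nat.beq (Nat.land b c) 0) 0 (cond (Nat.beq b c) 16 4))) = true := by decide +kernel

theorem s22_cnt_pt : allL s22Std (fun b => allBelow 22 fun i => Nat.beq
    (cntL s22Std fun d => and (Nat.testBit d i) (Nat.beq (Nat.land b d) 0))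
    (cond (Nat.testBit b i) 0 6)) = true := by decide +kernel

variable [Fintype α]

/-- In an S(3,6,22): the number of blocks disjoint from two given blocks. -/
theorem s22_disjoint_two (hα : Fintype.card α = 22) {B : Set (Finset α)}
    (hB : IsSteinerSystem 3 6 B) {b c : Finset α} (hb : b ∈ B) (hc : c ∈ B) :
    {d | d ∈ B ∧ (Disjoint b d ∧ Disjoint c d)}.ncard =
      if Disjoint b c then 0 else if b = c then 16 else 4 := by
  obtain ⟨x⟩ : Nonempty (Fin 3 ↪ α) := Function.Embedding.nonempty_of_card_le (by simp [hα])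
  obtain ⟨e, -, he⟩ := s22_std hα hB x
  obtain ⟨b, hb', rfl⟩ := (he b).1 hb
  obtain ⟨c, hc', rfl⟩ := (he c).1 hc
  have hlt := (incr_spec s22_incr).1
  rw [he.ncard_sep s22_incr (fun d => and (Nat.beq (Nat.land b d) 0) (Nat.beq (Nat.land c d) 0)) _
    (fun d _ => by
      simp only [Bool.and_eq_true, Nat.beq_eq, disjoint_image e.injective,
        disjoint_ms_iff (hlt b hb').2, disjoint_ms_iff (hlt c hc').2]),
    Nat.eq_of_beq_eq_true (allL_spec (allL_spec s22_cnt_two hb') hc')]
  simp only [disjoint_image e.injective, disjoint_ms_iff (hlt b hb').2]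
  by_cases h1 : Nat.land b c = 0
  · rw [if_pos h1, h1]; rfl
  · rw [if_neg h1, nat_beq_false h1, cond_false]
    by_cases h2 : b = c
    · subst h2; simp
    · rw [nat_beq_false h2, if_neg (fun h => h2 (ms_injOn (hlt b hb').2 (hlt c hc').2
        (image_injective e.injective h)))]
      rfl

/-- In an S(3,6,22): the number of blocks through a point disjoint from a given block. -/
theorem s22_through_disjoint (hα : Fintype.card α = 22) {B : Set (Finset α)}
    (hB : IsSteinerSystem 3 6 B) {b : Finset α} (hb : b ∈ B) (a : α) :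
    {d | d ∈ B ∧ (a ∈ d ∧ Disjoint b d)}.ncard = if a ∈ b then 0 else 6 := by
  obtain ⟨x⟩ : Nonempty (Fin 3 ↪ α) := Function.Embedding.nonempty_of_card_le (by simp [hα])
  obtain ⟨e, -, he⟩ := s22_std hα hB x
  obtain ⟨b, hb', rfl⟩ := (he b).1 hb
  obtain ⟨i, rfl⟩ := e.surjective a
  have hlt := (incr_spec s22_incr).1
  rw [he.ncard_sep s22_incr (fun d => and (Nat.testBit d i) (Nat.beq (Nat.land b d) 0)) _
    (fun d _ => by
      simp only [Bool.and_eq_true, Nat.beq_eq, disjoint_image e.injective,
        disjoint_ms_iff (hlt b hb').2, e.injective.mem_finset_image, mem_ms]),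
    Nat.eq_of_beq_eq_true (allBelow_spec (allL_spec s22_cnt_pt hb') i.2)]
  simp only [e.injective.mem_finset_image, mem_ms]
  cases b.testBit i <;> simp

theorem s22_through (hα : Fintype.card α = 22) {B : Set (Finset α)}
    (hB : IsSteinerSystem 3 6 B) (a a' : α) :
    {d | d ∈ B ∧ (a ∈ d ∧ a' ∈ d)}.ncard = if a = a' then 21 else 5 := by
  rw [ncard_sep_eq_card_filter]
  split_ifs with h
  · subst h
    rw [← steiner_lambda_eq hB (by norm_num) (i := 1) (lam := 21) (by norm_num)
      (by rw [hα]; decide) {a} (by simp)]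
    simp
  · rw [← steiner_lambda_eq hB (by norm_num) (i := 2) (lam := 5) (by norm_num)
      (by rw [hα]; decide) {a, a'} (card_pair h)]
    simp [insert_subset_iff]

theorem s22_ncard (hα : Fintype.card α = 22) {B : Set (Finset α)}
    (hB : IsSteinerSystem 3 6 B) : B.ncard = 77 :=
  steiner_ncard hB (by norm_num) (by rw [hα]; decide)

theorem s22_inter_card (hα : Fintype.card α = 22) {B : Set (Finset α)}
    (hB : IsSteinerSystem 3 6 B) {b c : Finset α} (hb : b ∈ B) (hc : c ∈ B) (hne : b ≠ c)
    (hd : ¬ Disjoint b c) : (b ∩ c).card = 2 := by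
  have h1 := steiner_inter_lt hB hb hc hne
  have h2 := interNum_eq_zero_iff.1 (interNum_3_6_22 hα hB hb).2.1 c hc hne
  have h3 := card_pos.2 (not_disjoint_iff_nonempty_inter.1 hd)
  omega

open SRG

omit [DecidableEq α] [Fintype α] in
theorem not_disjoint_self {B : Set (Finset α)} (hB : IsSteinerSystem 3 6 B) (b : B) :
    ¬ Disjoint (b : Finset α) b := by
  rw [disjoint_self, bot_eq_empty, ← card_eq_zero, hB.1 _ b.2]
  norm_num

omit [DecidableEq α] [Fintype α] in
theorem ne_and_disjoint_iff {B : Set (Finset α)} (hB : IsSteinerSystem 3 6 B) (b c : B) :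
    b ≠ c ∧ Disjoint (b : Finset α) c ↔ Disjoint (b : Finset α) c :=
  ⟨fun h => h.2, fun h => ⟨fun h' => not_disjoint_self hB b (by rwa [← h'] at h), h⟩⟩

/-- The block graph of an S(3,6,22) is strongly regular with parameters (77,16,0,4). -/
theorem blockGraph_isSRG (hα : Fintype.card α = 22) {B : Set (Finset α)}
    (hB : IsSteinerSystem 3 6 B) : IsSRG (blockGraph B) 77 16 0 4 := by
  have h : ∀ b c : B, {u | (blockGraph B).Adj b u ∧ (blockGraph B).Adj c u}.ncard =
      if Disjoint b.1 c.1 then 0 else if b.1 = c.1 then 16 else 4 := by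
    intro b c
    simp only [blockGraph_adj, ne_and_disjoint_iff hB]
    rw [ncard_subtype B (fun d => Disjoint b.1 d ∧ Disjoint c.1 d), s22_disjoint_two hα hB b.2 c.2]
  refine ⟨by rw [Nat.card_coe_set_eq, s22_ncard hα hB], fun b => ?_, fun b c hbc => ?_,
    fun b c hne hbc => ?_⟩
  · have := h b b
    simp only [and_self, if_neg (not_disjoint_self hB b), if_true] at this
    exact this
  · rw [h, if_pos (blockGraph_adj.1 hbc).2]
  · rw [h, if_neg (fun hd => hbc (blockGraph_adj.2 ⟨hne, hd⟩)),
      if_neg (fun h' => hne (Subtype.ext h'))]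

/-- The point-block graph of an S(3,6,22) is strongly regular with parameters (100,22,0,6). -/
theorem pointBlockGraph_isSRG (hα : Fintype.card α = 22) {B : Set (Finset α)}
    (hB : IsSteinerSystem 3 6 B) : IsSRG (pointBlockGraph B) 100 22 0 6 := by
  classical
  have hα' : Nat.card α = 22 := by rw [Nat.card_eq_fintype_card, hα]
  have h : ∀ x y : Option (α ⊕ B),
      {u | (pointBlockGraph B).Adj x u ∧ (pointBlockGraph B).Adj y u}.ncard =
      if (pointBlockGraph B).Adj x y then 0 else if x = y then 22 else 6 := by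
    intro x y
    rw [ncard_option_sum]
    rcases x with _ | a | b <;> rcases y with _ | a' | b'
    · simp [hα]
    · simp
    · simp [hB.1 _ b'.2]
    · simp
    · simp only [Set.mem_ofPred_eq, pb_inl_none, and_self, if_true, pb_inl_inl, pb_inl_inr,
        if_false, Option.some.injEq, Sum.inl.injEq]
      rw [ncard_subtype B (fun d => a ∈ d ∧ a' ∈ d), s22_through hα hB]
      split_ifs <;> simp
    · simp only [Set.mem_ofPred_eq, pb_inr_none, and_false, if_false, pb_inl_inl, pb_inl_inr,
        pb_inr_inr, ne_and_disjoint_iff hB, false_and]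
      rw [ncard_subtype B (fun d => a ∈ d ∧ Disjoint b'.1 d), s22_through_disjoint hα hB b'.2]
      split_ifs <;> simp_all
    · simp [hB.1 _ b.2]
    · simp only [Set.mem_ofPred_eq, pb_inr_none, and_false, if_false, pb_inl_inl, pb_inl_inr,
        pb_inr_inr, ne_and_disjoint_iff hB, false_and, pb_inr_inl, and_comm (b := a' ∈ _)]
      rw [ncard_subtype B (fun d => a' ∈ d ∧ Disjoint b.1 d), s22_through_disjoint hα hB b.2]
      split_ifs <;> simp_all
    · simp only [Set.mem_ofPred_eq, pb_inr_none, and_false, if_false,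
        pb_inr_inr, ne_and_disjoint_iff hB, pb_inr_inl, Option.some.injEq, Sum.inr.injEq]
      rw [ncard_subtype B (fun d => Disjoint b.1 d ∧ Disjoint b'.1 d),
        s22_disjoint_two hα hB b.2 b'.2]
      have h1 : {a | a ∈ b.1 ∧ a ∈ b'.1}.ncard = (b.1 ∩ b'.1).card := by
        rw [← Set.ncard_coe_finset]; congr 1; ext; simp
      rw [h1]
      by_cases h2 : Disjoint b.1 b'.1
      · simp [h2, disjoint_iff_inter_eq_empty.1 h2]
      · by_cases h3 : b = b'
        · subst h3; simp only [if_neg h2, inter_self, hB.1 _ b.2]; simp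
        · have h4 : b.1 ≠ b'.1 := fun h => h3 (Subtype.ext h)
          simp [h2, h3, h4, s22_inter_card hα hB b.2 b'.2 h4 h2]
  refine ⟨?_, fun x => ?_, fun x y hxy => ?_, fun x y hne hxy => ?_⟩
  · rw [Finite.card_option, Nat.card_sum, hα', Nat.card_coe_set_eq, s22_ncard hα hB]
  · have := h x x
    simp only [and_self, if_neg (pointBlockGraph B).irrefl, if_true] at this
    exact this
  · rw [h, if_pos hxy]
  · rw [h, if_neg hxy, if_neg hne]

end Cfsg.Lib.Spor.Witt
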