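import Cfsg.Agent.Spor.HSUnique
import Cfsg.Agent.Spor.GolayM24

/-! Uniqueness of the strongly regular graph with parameters (77,16,0,4). -/

set_option autoImplicit false

namespace Cfsg.Lib.Spor.SRG77

open Finset SRG

variable {V : Type*} [Fintype V] [DecidableEq V] (G : SimpleGraph V) [DecidableRel G.Adj]

/-- The Gram matrix of the blocks. -/
def gm (x y : V) : ℚ := (if x = y then 4 else 0) - (if G.Adj x y then 2 else 0) + 2

/-- The bilinear form with Gram matrix `gm`. -/
def bf : LinearMap.BilinForm ℚ (V → ℚ) := Matrix.toBilin' (Matrix.of (gm G))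

/-- The vector of a vertex. -/
def dl (x : V) : V → ℚ := Pi.single x 1

/-- The all-ones vector of the design. -/
def jv (V : Type*) : V → ℚ := fun _ => 1 / 21

/-- The vector of a set of vertices. -/
def sv (S : Finset V) : V → ℚ := ∑ x ∈ S, dl x

/-- Common neighbours. -/
def cn (a b : V) : Finset V := univ.filter fun z => G.Adj a z ∧ G.Adj b z

/-- The vector of the pair of points common to two intersecting blocks. -/
def uv (a b : V) : V → ℚ := (1 / 2 : ℚ) • sv (cn G a b) - jv V + dl a + dl b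

/-- The line through two nonadjacent vertices. -/
def ln (a b : V) : Finset V := univ.filter fun y => bf G (uv G a b) (dl y) = 2

/-- The points of the design. -/
def IsPt (P : Finset V) : Prop :=
  ∃ e, bf G e e = 1 ∧ bf G e (jv V) = 1 ∧ ∀ y, bf G e (dl y) = if y ∈ P then 1 else 0

variable {G}

omit [Fintype V] in
theorem gm_comm (x y : V) : gm G x y = gm G y x := by
  simp only [gm, eq_comm (a := x), G.adj_comm x]

theorem bf_apply (c d : V → ℚ) : bf G c d = ∑ x, ∑ y, c x * gm G x y * d y := by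
  simp [bf, Matrix.toBilin'_apply]

theorem bf_comm (c d : V → ℚ) : bf G c d = bf G d c := by
  rw [bf_apply, bf_apply, sum_comm]
  refine sum_congr rfl fun x _ => sum_congr rfl fun y _ => ?_
  rw [gm_comm]; ring

theorem bf_dl_right (c : V → ℚ) (y : V) : bf G c (dl y) = ∑ x, c x * gm G x y := by
  simp [bf_apply, dl, Pi.single_apply]

theorem bf_dl_dl (x y : V) : bf G (dl x) (dl y) = gm G x y := by
  rw [bf_dl_right]
  simp [dl, Pi.single_apply]

theorem bf_eq_sum (c d : V → ℚ) : bf G c d = ∑ y, bf G c (dl y) * d y := by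
  rw [bf_apply, sum_comm]
  simp only [bf_dl_right, sum_mul]

theorem bf_sv (c : V → ℚ) (S : Finset V) : bf G c (sv S) = ∑ y ∈ S, bf G c (dl y) := by
  rw [sv, map_sum]

theorem bf_sv_dl (S : Finset V) (y : V) : bf G (sv S) (dl y) =
    (if y ∈ S then 4 else 0) - 2 * (S.filter fun z => G.Adj y z).card + 2 * S.card := by
  rw [bf_comm, bf_sv]
  simp only [bf_dl_dl, gm, sum_add_distrib, sum_sub_distrib, sum_ite_eq, sum_const, nsmul_eq_mul,
    ← sum_filter]
  ring

theorem sum_bf_dl (c : V → ℚ) : ∑ y, bf G c (dl y) = 21 * bf G c (jv V) := by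
  rw [bf_eq_sum c (jv V), mul_sum]
  refine sum_congr rfl fun y _ => ?_
  simp only [jv]; ring

variable (h : IsSRG G 77 16 0 4)
include h

theorem bf_dl_jv (x : V) : bf G (dl x) (jv V) = 6 := by
  have h1 := sum_bf_dl (G := G) (dl x)
  rw [← bf_sv, bf_comm, bf_sv_dl, h.card_filter_adj, card_univ, h.card_univ] at h1
  simp only [mem_univ, if_true] at h1
  norm_num at h1
  linarith

theorem bf_jv (c : V → ℚ) : bf G c (jv V) = 6 * ∑ x, c x := by
  rw [bf_comm, bf_eq_sum, mul_sum]
  exact sum_congr rfl fun y _ => by rw [bf_comm, bf_dl_jv h]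

theorem bf_jv_jv : bf G (jv V) (jv V) = 22 := by
  rw [bf_jv h]
  simp only [jv, sum_const, card_univ, h.card_univ]
  norm_num

theorem bf_sv_jv (S : Finset V) : bf G (sv S) (jv V) = 6 * S.card := by
  rw [bf_comm, bf_sv]
  simp [bf_comm (jv V), bf_dl_jv h, mul_comm]

theorem sum_gm_mul (x z : V) : ∑ y, gm G x y * gm G z y = 16 * gm G x z + 180 := by
  have hA : ∀ v, ∑ u, (if G.Adj v u then (2 : ℚ) else 0) = 32 := fun v => by
    rw [← sum_filter, sum_const, h.card_filter_adj]; norm_num
  have hAA : ∑ u, (if G.Adj x u then (2 : ℚ) else 0) * (if G.Adj z u then 2 else 0) =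
      4 * (if x = z then 16 else if G.Adj x z then 0 else 4 : ℕ) := by
    simp only [ite_zero_mul_ite_zero, ← sum_filter, sum_const, h.card_filter_common x z]
    rw [nsmul_eq_mul]; ring
  simp only [gm, add_mul, mul_add, sub_mul, mul_sub, sum_add_distrib, sum_sub_distrib, hAA,
    ← sum_mul, ← mul_sum, hA, sum_const, card_univ, h.card_univ, nsmul_eq_mul]
  simp only [ite_mul (x = _), mul_ite (z = _), zero_mul, mul_zero, ite_self, sum_ite_eq,
    mem_univ, if_true]
  by_cases hxz : x = z
  · subst hxz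
    simp only [G.irrefl, if_true, if_false]
    norm_num
  · by_cases ha : G.Adj x z
    · simp only [hxz, Ne.symm hxz, ha, ha.symm, if_true, if_false]
      norm_num
    · simp only [hxz, Ne.symm hxz, ha, G.adj_comm z x, if_false]
      norm_num

theorem sum_bf_mul (c d : V → ℚ) : ∑ y, bf G c (dl y) * bf G d (dl y) =
    16 * bf G c d + 5 * (bf G c (jv V) * bf G d (jv V)) := by
  have e : ∀ x z, ∑ y, c x * gm G x y * (d z * gm G z y) =
      16 * (c x * gm G x z * d z) + 180 * (c x * d z) := fun x z => by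
    have := sum_gm_mul h x z
    rw [sum_congr rfl fun y _ => (by ring :
      c x * gm G x y * (d z * gm G z y) = c x * d z * (gm G x y * gm G z y)), ← mul_sum, this]
    ring
  simp only [bf_dl_right, sum_mul_sum]
  rw [sum_comm, sum_congr rfl fun x _ => sum_comm]
  simp only [e, sum_add_distrib, ← mul_sum]
  rw [bf_jv h, bf_jv h, bf_apply, ← sum_mul]
  ring

theorem sq_le_bf (c : V → ℚ) : bf G c (jv V) ^ 2 ≤ 22 * bf G c c := by
  have h1 := sq_sum_le_card_mul_sum_sq (s := univ) (f := fun y => bf G c (dl y))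
  simp only [sq (bf G c (dl _))] at h1
  rw [sum_bf_dl, sum_bf_mul h, card_univ, h.card_univ] at h1
  push_cast at h1
  nlinarith

theorem null {c : V → ℚ} (hc : bf G c c = 0) (d : V → ℚ) : bf G c d = 0 := by
  have h1 := sq_le_bf h c
  rw [hc, mul_zero] at h1
  have h2 : bf G c (jv V) = 0 := pow_eq_zero_iff two_ne_zero |>.1 (le_antisymm h1 (sq_nonneg _))
  have h3 := sum_bf_mul h c c
  rw [hc, h2] at h3
  norm_num at h3
  rw [sum_eq_zero_iff_of_nonneg fun y _ => mul_self_nonneg _] at h3
  rw [bf_eq_sum]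
  exact sum_eq_zero fun y hy => by rw [mul_self_eq_zero.1 (h3 y hy), zero_mul]

theorem eq_of_bf {c c' : V → ℚ} (hc : bf G c c + bf G c' c' = 2 * bf G c c') (d : V → ℚ) :
    bf G c d = bf G c' d := by
  have := null h (c := c - c') (by
    simp only [map_sub, LinearMap.sub_apply, bf_comm c' c]; linarith) d
  simpa [sub_eq_zero] using this

omit h in
theorem uv_comm (a b : V) : uv G a b = uv G b a := by
  simp only [uv, cn, and_comm, add_right_comm]

omit h in
theorem bf_uv (c : V → ℚ) (a b : V) : bf G c (uv G a b) =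
    (∑ z ∈ cn G a b, bf G c (dl z)) / 2 - bf G c (jv V) + bf G c (dl a) + bf G c (dl b) := by
  simp only [uv, map_add, map_sub, map_smul, bf_sv, smul_eq_mul]
  ring

section pair

variable {a b : V} (hab : a ≠ b) (hn : ¬ G.Adj a b)
include hab hn

theorem card_cn : (cn G a b).card = 4 := by
  rw [cn, h.card_filter_common, if_neg hab, if_neg hn]

theorem phi_eq (y : V) : bf G (uv G a b) (dl y) = gm G a y + gm G b y - 2 -
    ((cn G a b).filter fun z => G.Adj y z).card + if y ∈ cn G a b then 2 else 0 := by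
  simp only [uv, map_add, map_sub, map_smul, LinearMap.add_apply, LinearMap.sub_apply,
    LinearMap.smul_apply, bf_sv_dl, bf_dl_dl, bf_comm (jv V), bf_dl_jv h, card_cn h hab hn,
    smul_eq_mul]
  split_ifs <;> push_cast <;> ring

theorem uv_jv : bf G (uv G a b) (jv V) = 2 := by
  simp only [uv, map_add, map_sub, map_smul, LinearMap.add_apply, LinearMap.sub_apply,
    LinearMap.smul_apply, bf_sv_jv h, bf_jv_jv h, bf_dl_jv h, card_cn h hab hn, smul_eq_mul]
  norm_num

theorem phi_left : bf G (uv G a b) (dl a) = 2 := by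
  rw [phi_eq h hab hn, filter_true_of_mem (fun z hz => (mem_filter.1 hz).2.1), card_cn h hab hn]
  simp [gm, cn, hab.symm, G.adj_comm b a, hn]

theorem phi_right : bf G (uv G a b) (dl b) = 2 := by
  rw [uv_comm]
  exact phi_left h hab.symm (fun h' => hn h'.symm)

theorem phi_adj_left {y : V} (hy : G.Adj a y) : bf G (uv G a b) (dl y) = 0 := by
  rw [phi_eq h hab hn, filter_false_of_mem
    (fun z hz => h.no_triangle hy (mem_filter.1 hz).2.1)]
  have : b ≠ y := fun h' => hn (h' ▸ hy)
  by_cases hb : G.Adj b y <;> simp [gm, cn, hy.ne, hy, hb, this]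

theorem phi_adj_right {y : V} (hy : G.Adj b y) : bf G (uv G a b) (dl y) = 0 := by
  rw [uv_comm]
  exact phi_adj_left h hab.symm (fun h' => hn h'.symm) hy

theorem uv_uv {y : V} : bf G (uv G a b) (uv G a y) = bf G (uv G a b) (dl y) := by
  rw [bf_uv, sum_eq_zero fun z hz => phi_adj_left h hab hn (mem_filter.1 hz).2.1, uv_jv h hab hn,
    phi_left h hab hn]
  ring

theorem uv_norm : bf G (uv G a b) (uv G a b) = 2 := by
  rw [uv_uv h hab hn, phi_right h hab hn]

theorem phi_symm {y : V} (hay : a ≠ y) (hn' : ¬ G.Adj a y) :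
    bf G (uv G a b) (dl y) = bf G (uv G a y) (dl b) := by
  rw [← uv_uv h hab hn, bf_comm, uv_uv h hay hn']

theorem phi_cases (y : V) :
    bf G (uv G a b) (dl y) = 0 ∨ bf G (uv G a b) (dl y) = 1 ∨ bf G (uv G a b) (dl y) = 2 := by
  by_cases h1 : a = y
  · exact Or.inr (Or.inr (h1 ▸ phi_left h hab hn))
  by_cases h2 : b = y
  · exact Or.inr (Or.inr (h2 ▸ phi_right h hab hn))
  by_cases h3 : G.Adj a y
  · exact Or.inl (phi_adj_left h hab hn h3)
  by_cases h4 : G.Adj b y
  · exact Or.inl (phi_adj_right h hab hn h4)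
  have e1 := phi_eq h hab hn y
  simp only [gm, cn, h1, h2, h3, h4, mem_filter, and_false, if_false] at e1
  have e2 := sq_le_bf h (uv G a b + uv G a y + uv G b y)
  have e3 : bf G (uv G a b) (uv G b y) = bf G (uv G a b) (dl y) := by
    rw [uv_comm a b, uv_uv h hab.symm (fun h' => hn h'.symm)]
  have e4 : bf G (uv G a y) (uv G b y) = bf G (uv G a b) (dl y) := by
    rw [uv_comm a y, uv_comm b y, uv_uv h (Ne.symm h1) (fun h' => h3 h'.symm), uv_comm y a,
      phi_symm h hab hn h1 h3]
  simp only [map_add, LinearMap.add_apply, uv_jv h hab hn, uv_jv h h1 h3, uv_jv h h2 h4,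
    uv_norm h hab hn, uv_norm h h1 h3, uv_norm h h2 h4, bf_comm (uv G a y) (uv G a b),
    bf_comm (uv G b y) (uv G a b), bf_comm (uv G b y) (uv G a y), uv_uv h hab hn, e3, e4] at e2
  rw [e1] at e2 ⊢
  generalize (filter (fun z => G.Adj y z) (univ.filter fun z => G.Adj a z ∧ G.Adj b z)).card = t
    at e2 ⊢
  have : (t : ℚ) < 3 := by linarith
  have : t < 3 := by exact_mod_cast this
  interval_cases t <;> norm_num

theorem phi_nonneg (y : V) : 0 ≤ bf G (uv G a b) (dl y) := by
  rcases phi_cases h hab hn y with e | e | e <;> rw [e] <;> norm_num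

theorem card_ln : (ln G a b).card = 5 := by
  have h1 := sum_bf_dl (G := G) (uv G a b)
  have h2 := sum_bf_mul h (uv G a b) (uv G a b)
  rw [uv_jv h hab hn] at h1 h2
  rw [uv_norm h hab hn] at h2
  have h3 : ∑ y, (bf G (uv G a b) (dl y) * bf G (uv G a b) (dl y) - bf G (uv G a b) (dl y)) =
      ∑ y, if bf G (uv G a b) (dl y) = 2 then 2 else 0 := sum_congr rfl fun y _ => by
    rcases phi_cases h hab hn y with e | e | e <;> rw [e] <;> norm_num
  rw [sum_sub_distrib, h1, h2, ← sum_filter, sum_const, nsmul_eq_mul] at h3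
  have : ((ln G a b).card : ℚ) = 5 := by rw [ln]; linarith
  exact_mod_cast this

theorem exists_phi_one : ∃ x, bf G (uv G a b) (dl x) = 1 := by
  by_contra hx
  have h1 := sum_bf_dl (G := G) (uv G a b)
  have h2 := sum_bf_mul h (uv G a b) (uv G a b)
  rw [uv_jv h hab hn] at h1 h2
  rw [uv_norm h hab hn] at h2
  have h3 : ∑ y, bf G (uv G a b) (dl y) * bf G (uv G a b) (dl y) =
      ∑ y, 2 * bf G (uv G a b) (dl y) := sum_congr rfl fun y _ => by
    rcases phi_cases h hab hn y with e | e | e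
    · rw [e]; norm_num
    · exact absurd ⟨y, e⟩ hx
    · rw [e]
  rw [← mul_sum, h1, h2] at h3
  norm_num at h3

omit hab hn h in
theorem mem_ln {y : V} : y ∈ ln G a b ↔ bf G (uv G a b) (dl y) = 2 := by simp [ln]

theorem ln_left {y : V} (hy : y ∈ ln G a b) (hay : a ≠ y) :
    ¬ G.Adj a y ∧ ∀ d, bf G (uv G a y) d = bf G (uv G a b) d := by
  rw [mem_ln] at hy
  have h1 : ¬ G.Adj a y := fun h' => by
    rw [phi_adj_left h hab hn h'] at hy
    norm_num at hy
  refine ⟨h1, eq_of_bf h ?_⟩
  rw [uv_norm h hab hn, uv_norm h hay h1, bf_comm, uv_uv h hab hn, hy]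
  norm_num

theorem ln_pair {y z : V} (hy : y ∈ ln G a b) (hz : z ∈ ln G a b) (hyz : y ≠ z) :
    ¬ G.Adj y z ∧ ∀ d, bf G (uv G y z) d = bf G (uv G a b) d := by
  by_cases hay : a = y
  · subst hay
    exact ln_left h hab hn hz hyz
  obtain ⟨h1, h2⟩ := ln_left h hab hn hy hay
  obtain ⟨h3, h4⟩ := ln_left h (Ne.symm hay) (fun h' => h1 h'.symm) (y := z)
    (by rw [mem_ln, uv_comm, h2]; exact mem_ln.1 hz) hyz
  exact ⟨h3, fun d => by rw [h4, uv_comm, h2]⟩

theorem sv_ln (d : V → ℚ) : bf G (sv (ln G a b)) d = bf G (jv V) d + 4 * bf G (uv G a b) d := by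
  have e1 : bf G (sv (ln G a b)) (sv (ln G a b)) = 70 := by
    rw [bf_sv, sum_congr rfl (g := fun _ => 14), sum_const, card_ln h hab hn]
    · norm_num
    · intro y hy
      rw [bf_sv_dl, if_pos hy, filter_false_of_mem, card_ln h hab hn]
      · norm_num
      · intro z hz hyz
        exact (ln_pair h hab hn hy hz hyz.ne).1 hyz
  have e2 : bf G (uv G a b) (sv (ln G a b)) = 10 := by
    rw [bf_sv, sum_congr rfl fun y hy => mem_ln.1 hy, sum_const, card_ln h hab hn]
    norm_num
  have := eq_of_bf h (c := sv (ln G a b)) (c' := jv V + (4 : ℚ) • uv G a b) (by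
    simp only [map_add, map_smul, LinearMap.add_apply, LinearMap.smul_apply, e1, bf_jv_jv h,
      bf_comm (jv V) (uv G a b), uv_jv h hab hn, uv_norm h hab hn, bf_sv_jv h, card_ln h hab hn,
      bf_comm (sv _) (uv G a b), e2, smul_eq_mul]
    norm_num) d
  simpa using this

end pair

omit h in
theorem IsPt.card {P : Finset V} (hP : IsPt G P) : P.card = 21 := by
  obtain ⟨e, -, h2, h3⟩ := hP
  have := sum_bf_dl (G := G) e
  simp only [h2, h3, sum_ite_mem, univ_inter, sum_const, nsmul_eq_mul, mul_one] at this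
  exact_mod_cast this

theorem IsPt.not_adj {P : Finset V} (hP : IsPt G P) {x y : V} (hx : x ∈ P) (hy : y ∈ P) :
    ¬ G.Adj x y := by
  have hc := hP.card
  obtain ⟨e, -, h2, h3⟩ := hP
  have := sum_bf_mul h e (dl x)
  simp only [h2, h3, if_pos hx, ite_mul, one_mul, zero_mul, sum_ite_mem, univ_inter,
    bf_dl_jv h] at this
  rw [← bf_sv, bf_comm, bf_sv_dl, if_pos hx, hc] at this
  have h4 : ((P.filter fun z => G.Adj x z).card : ℚ) = 0 := by push_cast at this; linarith
  rw [Nat.cast_eq_zero, card_eq_zero, filter_eq_empty_iff] at h4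
  exact h4 hy

omit h in
theorem isPt_of {e : V → ℚ} (h1 : bf G e e = 1) (h2 : bf G e (jv V) = 1)
    (h3 : ∀ y, bf G e (dl y) * bf G e (dl y) - bf G e (dl y) = 0) :
    ∃ P, IsPt G P ∧ ∀ y, bf G e (dl y) = if y ∈ P then 1 else 0 := by
  have : ∀ y, bf G e (dl y) = if y ∈ univ.filter (fun y => bf G e (dl y) = 1) then 1 else 0 := by
    intro y
    simp only [mem_filter, mem_univ, true_and]
    split_ifs with h4
    · exact h4
    · have : bf G e (dl y) * (bf G e (dl y) - 1) = 0 := by linear_combination h3 y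
      exact (mul_eq_zero.1 this).resolve_right (sub_ne_zero.2 h4)
  exact ⟨_, ⟨e, h1, h2, this⟩, this⟩

theorem sum_sq_sub {e : V → ℚ} (h1 : bf G e e = 1) (h2 : bf G e (jv V) = 1) :
    ∑ y, (bf G e (dl y) * bf G e (dl y) - bf G e (dl y)) = 0 := by
  rw [sum_sub_distrib, sum_bf_mul h, sum_bf_dl, h1, h2]
  norm_num

theorem pt_uv {P : Finset V} (hP : IsPt G P) {e : V → ℚ} (h2 : bf G e (jv V) = 1)
    (h3 : ∀ y, bf G e (dl y) = if y ∈ P then 1 else 0) {a b : V} (ha : a ∈ P) (hb : b ∈ P) :
    bf G e (uv G a b) = 1 := by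
  rw [bf_uv, h2, h3 a, h3 b, if_pos ha, if_pos hb, sum_eq_zero]
  · norm_num
  · intro z hz
    rw [h3, if_neg fun hzP => hP.not_adj h ha hzP (mem_filter.1 hz).2.1]

theorem IsPt.exists_compl {P : Finset V} (hP : IsPt G P) {a b : V} (hab : a ≠ b) (ha : a ∈ P)
    (hb : b ∈ P) : ∃ Q, IsPt G Q ∧ ∀ y, bf G (uv G a b) (dl y) =
      (if y ∈ P then 1 else 0) + if y ∈ Q then 1 else 0 := by
  have hn := hP.not_adj h ha hb
  obtain ⟨e, h1, h2, h3⟩ := id hP
  have h4 := pt_uv h hP h2 h3 ha hb
  have e1 : bf G (uv G a b - e) (uv G a b - e) = 1 := by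
    simp only [map_sub, LinearMap.sub_apply, uv_norm h hab hn, h1, h4, bf_comm (uv G a b) e]
    norm_num
  have e2 : bf G (uv G a b - e) (jv V) = 1 := by
    simp only [map_sub, LinearMap.sub_apply, uv_jv h hab hn, h2]
    norm_num
  have e3 := sum_sq_sub h e1 e2
  rw [sum_eq_zero_iff_of_nonneg] at e3
  · obtain ⟨Q, hQ, h5⟩ := isPt_of e1 e2 fun y => e3 y (mem_univ y)
    refine ⟨Q, hQ, fun y => ?_⟩
    rw [← h5, ← h3]
    simp
  · intro y _
    simp only [map_sub, LinearMap.sub_apply, h3]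
    rcases phi_cases h hab hn y with e | e | e <;> rw [e] <;> split_ifs <;> norm_num

section ex

variable {a b x : V} (hab : a ≠ b) (hn : ¬ G.Adj a b) (hx : bf G (uv G a b) (dl x) = 1)
include hab hn hx

theorem far_ln {z : V} (hz : z ∈ ln G a b) : x ≠ z ∧ ¬ G.Adj x z := by
  have h1 : x ∉ ln G a b := by rw [mem_ln, hx]; norm_num
  refine ⟨fun h' => h1 (h' ▸ hz), ?_⟩
  have := sv_ln h hab hn (dl x)
  rw [bf_sv_dl, if_neg h1, card_ln h hab hn, bf_comm (jv V), bf_dl_jv h, hx] at this
  have h4 : (((ln G a b).filter fun z => G.Adj x z).card : ℚ) = 0 := by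
    push_cast at this; linarith
  rw [Nat.cast_eq_zero, card_eq_zero, filter_eq_empty_iff] at h4
  exact h4 hz

theorem beta_bounds {y : V} (hxy : x ≠ y) (hn' : ¬ G.Adj x y) :
    0 ≤ bf G (uv G x y) (uv G a b) ∧ bf G (uv G x y) (uv G a b) ≤ 1 := by
  have e1 := sv_ln h hxy hn' (uv G a b)
  rw [bf_comm (sv _), bf_sv, bf_comm (jv V), uv_jv h hab hn] at e1
  have hxm : x ∈ ln G x y := mem_ln.2 (phi_left h hxy hn')
  constructor
  · have e2 : bf G (uv G a b) (dl x) ≤ ∑ z ∈ ln G x y, bf G (uv G a b) (dl z) :=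
      single_le_sum (f := fun z => bf G (uv G a b) (dl z)) (fun z _ => phi_nonneg h hab hn z) hxm
    have e3 : ∀ z, ∃ n : ℤ, bf G (uv G x y) (dl z) = n := fun z => by
      rcases phi_cases h hxy hn' z with e | e | e
      exacts [⟨0, by simpa using e⟩, ⟨1, by simpa using e⟩, ⟨2, by simpa using e⟩]
    choose n hn3 using e3
    have e4 : 2 * bf G (uv G x y) (uv G a b) =
        ((∑ z ∈ cn G a b, n z) - 4 + 2 * n a + 2 * n b : ℤ) := by
      rw [bf_uv, uv_jv h hxy hn']
      simp only [hn3]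
      push_cast
      ring
    generalize (∑ z ∈ cn G a b, n z) - 4 + 2 * n a + 2 * n b = m at e4
    have e5 : (-1 : ℚ) < m := by linarith
    have e6 : (-1 : ℤ) < m := by exact_mod_cast e5
    have e7 : (0 : ℚ) ≤ m := by exact_mod_cast (by omega : (0 : ℤ) ≤ m)
    linarith
  · have e2 : ((ln G x y).filter fun z => z ∈ ln G a b).card ≤ 1 := by
      rw [card_le_one]
      intro z hz w hw
      by_contra hzw
      rw [mem_filter] at hz hw
      have := (ln_pair h hxy hn' hz.1 hw.1 hzw).2 (dl x)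
      rw [(ln_pair h hab hn hz.2 hw.2 hzw).2, hx, phi_left h hxy hn'] at this
      norm_num at this
    have e3 : ∑ z ∈ ln G x y, bf G (uv G a b) (dl z) ≤
        ∑ z ∈ ln G x y, (1 + if z ∈ ln G a b then 1 else 0) := sum_le_sum fun z _ => by
      simp only [mem_ln]
      rcases phi_cases h hab hn z with e | e | e <;> rw [e] <;> norm_num
    rw [sum_add_distrib, sum_const, card_ln h hxy hn', sum_boole] at e3
    have e4 : (((ln G x y).filter fun z => z ∈ ln G a b).card : ℚ) ≤ 1 := by exact_mod_cast e2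
    norm_num at e3
    linarith

theorem exists_pt : ∃ P, IsPt G P ∧ a ∈ P ∧ b ∈ P ∧ x ∈ P ∧
    ∀ Q, IsPt G Q → a ∈ Q → b ∈ Q → x ∈ Q → Q = P := by
  let e : V → ℚ := (1 / 4 : ℚ) • (∑ z ∈ ln G a b, uv G x z - dl x)
  have he : ∀ d, bf G e d = ((∑ z ∈ ln G a b, bf G (uv G x z) d) - bf G (dl x) d) / 4 := fun d => by
    simp only [e, map_smul, map_sub, map_sum, LinearMap.smul_apply, LinearMap.sub_apply,
      LinearMap.sum_apply, smul_eq_mul]
    ring
  have hf := fun z hz => far_ln h hab hn hx (z := z) hz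
  have e2 : bf G e (jv V) = 1 := by
    rw [he, sum_congr rfl fun z hz => uv_jv h (hf z hz).1 (hf z hz).2, sum_const, card_ln h hab hn,
      bf_dl_jv h]
    norm_num
  have ex : bf G e (dl x) = 1 := by
    rw [he, sum_congr rfl fun z hz => phi_left h (hf z hz).1 (hf z hz).2, sum_const,
      card_ln h hab hn, bf_dl_dl]
    norm_num [gm]
  have eadj : ∀ y, G.Adj x y → bf G e (dl y) = 0 := fun y hy => by
    rw [he, sum_eq_zero fun z hz => phi_adj_left h (hf z hz).1 (hf z hz).2 hy, bf_dl_dl]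
    simp [gm, hy, hy.ne]
  have efar : ∀ y, x ≠ y → ¬ G.Adj x y → bf G e (dl y) = bf G (uv G x y) (uv G a b) :=
    fun y hy hy' => by
      rw [he, sum_congr rfl fun z hz => phi_symm h (hf z hz).1 (hf z hz).2 hy hy', ← bf_sv, bf_comm,
        sv_ln h hab hn, bf_comm (jv V), uv_jv h hy hy', bf_dl_dl, bf_comm (uv G a b)]
      simp only [gm, hy, hy', if_false]
      ring
  have eln : ∀ y ∈ ln G a b, bf G e (dl y) = 1 := fun y hy => by
    obtain ⟨w, hw, hwy⟩ := exists_mem_ne (s := ln G a b) (by rw [card_ln h hab hn]; norm_num) y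
    obtain ⟨h1, h2⟩ := ln_pair h hab hn hy hw hwy.symm
    rw [efar y (hf y hy).1 (hf y hy).2, bf_comm, ← h2, uv_comm x y, uv_uv h hwy.symm h1, h2, hx]
  have e1 : bf G e e = 1 := by
    rw [he, bf_comm (dl x), ex, sum_congr rfl (g := fun _ => 1), sum_const, card_ln h hab hn]
    · norm_num
    · intro z hz
      rw [bf_comm, bf_uv, e2, ex, eln z hz, sum_eq_zero fun w hw => eadj w (mem_filter.1 hw).2.1]
      norm_num
  have e3 := sum_sq_sub h e1 e2
  rw [sum_eq_zero_iff_of_nonpos] at e3
  · obtain ⟨P, hP, h5⟩ := isPt_of e1 e2 fun y => e3 y (mem_univ y)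
    have hmem : ∀ y, bf G e (dl y) = 1 → y ∈ P := fun y hy => by
      by_contra h'
      rw [h5, if_neg h'] at hy
      norm_num at hy
    refine ⟨P, hP, hmem a (eln a (mem_ln.2 (phi_left h hab hn))),
      hmem b (eln b (mem_ln.2 (phi_right h hab hn))), hmem x ex, fun Q hQ ha hb hxQ => ?_⟩
    obtain ⟨Q', -, h6⟩ := hQ.exists_compl h hab ha hb
    obtain ⟨f, f1, f2, f3⟩ := id hQ
    have f4 : bf G e f = 1 := by
      rw [he, bf_comm (dl x), f3, if_pos hxQ, sum_congr rfl (g := fun _ => 1), sum_const,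
        card_ln h hab hn]
      · norm_num
      · intro z hz
        rw [bf_comm]
        refine pt_uv h hQ f2 f3 hxQ ?_
        by_contra h'
        have := h6 z
        rw [mem_ln.1 hz, if_neg h'] at this
        split_ifs at this <;> norm_num at this
    ext y
    have := eq_of_bf h (c := e) (c' := f) (by rw [e1, f1, f4]; norm_num) (dl y)
    rw [h5, f3] at this
    split_ifs at this <;> simp_all
  · intro y _
    by_cases h1 : x = y
    · rw [← h1, ex]; norm_num
    by_cases h2 : G.Adj x y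
    · rw [eadj y h2]; norm_num
    have := beta_bounds h hab hn hx h1 h2
    rw [efar y h1 h2]
    nlinarith [this.1, this.2]

end ex

theorem two_pts {a b : V} (hab : a ≠ b) (hn : ¬ G.Adj a b) :
    ∃ P P', P ≠ P' ∧ ∀ Q, (IsPt G Q ∧ a ∈ Q ∧ b ∈ Q) ↔ Q = P ∨ Q = P' := by
  obtain ⟨x, hx⟩ := exists_phi_one h hab hn
  obtain ⟨P, hP, ha, hb, hxP, -⟩ := exists_pt h hab hn hx
  obtain ⟨P', hP', h1⟩ := hP.exists_compl h hab ha hb
  have ha' : a ∈ P' := by
    by_contra h'
    have := h1 a
    rw [phi_left h hab hn, if_pos ha, if_neg h'] at this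
    norm_num at this
  have hb' : b ∈ P' := by
    by_contra h'
    have := h1 b
    rw [phi_right h hab hn, if_pos hb, if_neg h'] at this
    norm_num at this
  refine ⟨P, P', fun h' => ?_, fun Q => ⟨fun ⟨hQ, haQ, hbQ⟩ => ?_, ?_⟩⟩
  · have := h1 x
    rw [hx, ← h', if_pos hxP] at this
    norm_num at this
  · obtain ⟨y, hy, hy'⟩ := exists_mem_notMem_of_card_lt_card (s := ln G a b) (t := Q)
      (by rw [card_ln h hab hn, hQ.card]; norm_num)
    obtain ⟨Q', -, h2⟩ := hQ.exists_compl h hab haQ hbQ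
    have h3 : bf G (uv G a b) (dl y) = 1 := by
      rw [mem_ln] at hy'
      have := h2 y
      rw [if_pos hy] at this
      split_ifs at this
      · exact absurd (this.trans (by norm_num)) hy'
      · simpa using this
    obtain ⟨R, -, -, -, -, hR⟩ := exists_pt h hab hn h3
    rw [hR Q hQ haQ hbQ hy]
    by_cases h4 : y ∈ P
    · exact Or.inl (hR P hP ha hb h4).symm
    · refine Or.inr (hR P' hP' ha' hb' ?_).symm
      by_contra h5
      have := h1 y
      rw [h3, if_neg h4, if_neg h5] at this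
      norm_num at this
  · rintro (rfl | rfl)
    exacts [⟨hP, ha, hb⟩, ⟨hP', ha', hb'⟩]

/-- A strongly regular graph with parameters (77,16,0,4) is the block graph of an S(3,6,22). -/
theorem exists_design : ∃ (T : Finset (Finset V)) (B : Set (Finset T)),
    Fintype.card T = 22 ∧ IsSteinerSystem 3 6 B ∧ Nonempty (G ≃g blockGraph B) := by
  classical
  let T : Finset (Finset V) := univ.filter (IsPt G)
  have hT : ∀ P : T, IsPt G P.1 := fun P => (mem_filter.1 P.2).2
  let β : V → Finset T := fun x => univ.filter fun P => x ∈ P.1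
  have h2 : ∀ a b, a ≠ b → (β a ∩ β b).card = if G.Adj a b then 0 else 2 := by
    intro a b hab
    split_ifs with hn
    · rw [card_eq_zero, eq_empty_iff_forall_notMem]
      intro P hP
      simp only [β, mem_inter, mem_filter, mem_univ, true_and] at hP
      exact (hT P).not_adj h hP.1 hP.2 hn
    · obtain ⟨P, P', hne, hPP⟩ := two_pts h hab hn
      have hP := (hPP P).2 (Or.inl rfl)
      have hP' := (hPP P').2 (Or.inr rfl)
      rw [card_eq_two]
      refine ⟨⟨P, mem_filter.2 ⟨mem_univ _, hP.1⟩⟩, ⟨P', mem_filter.2 ⟨mem_univ _, hP'.1⟩⟩,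
        fun h' => hne (congrArg Subtype.val h'), ?_⟩
      ext Q
      simp only [β, mem_inter, mem_filter, mem_univ, true_and, mem_insert, mem_singleton,
        Subtype.ext_iff, ← hPP, hT Q]
  have h6 : ∀ a, (β a).card = 6 := by
    intro a
    have e1 := sum_card_bipartiteAbove_eq_sum_card_bipartiteBelow (s := β a) (t := univ.erase a)
      (fun P y => y ∈ P.1)
    rw [sum_congr rfl (g := fun _ => 20), sum_congr rfl
      (g := fun y => if G.Adj a y then 0 else 2), sum_const, sum_ite, sum_const, sum_const] at e1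
    · have e2 := h.card_filter_nadj a
      have e3 : ((univ.erase a).filter fun y => ¬ G.Adj a y) =
          univ.filter fun w => w ≠ a ∧ ¬ G.Adj a w := by ext; simp
      rw [e3] at e1
      simp only [smul_eq_mul] at e1
      omega
    · intro y hy
      rw [← h2 a y (ne_of_mem_erase hy).symm]
      congr 1
      ext P
      simp [β]
    · intro P hP
      have e2 : bipartiteAbove (fun (P : T) y => y ∈ P.1) (univ.erase a) P = P.1.erase a := by
        ext y
        simp
      rw [e2, card_erase_of_mem (mem_filter.1 hP).2, (hT P).card]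
  have h22 : Fintype.card T = 22 := by
    have e1 := sum_card_bipartiteAbove_eq_sum_card_bipartiteBelow (s := (univ : Finset T))
      (t := (univ : Finset V)) (fun P y => y ∈ P.1)
    rw [sum_congr rfl (g := fun _ => 21), sum_congr (s₁ := (univ : Finset V)) rfl (g := fun _ => 6),
      sum_const, sum_const, card_univ, card_univ, h.card_univ] at e1
    · simp only [smul_eq_mul] at e1
      omega
    · exact fun y _ => h6 y
    · intro P _
      rw [← (hT P).card]
      congr 1
      ext y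
      simp
  have hinj : Function.Injective β := fun a b hab => by
    by_contra hne
    have := h2 a b hne
    rw [hab, inter_self, h6] at this
    split_ifs at this <;> omega
  refine ⟨T, Set.range β, h22, isSteinerSystem_of_card ?_ ?_ ?_, ⟨⟨Equiv.ofInjective β hinj, ?_⟩⟩⟩
  · rintro _ ⟨a, rfl⟩
    exact h6 a
  · rintro _ ⟨a, rfl⟩ _ ⟨b, rfl⟩ hne
    rw [h2 a b fun h' => hne (h' ▸ rfl)]
    split_ifs <;> norm_num
  · rw [Set.ncard_range_of_injective hinj, h.card, h22]
    decide
  · intro a b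
    rw [blockGraph_adj]
    rw [(Equiv.ofInjective β hinj).injective.ne_iff]
    show a ≠ b ∧ Disjoint (β a) (β b) ↔ _
    rw [disjoint_iff_inter_eq_empty, ← card_eq_zero]
    constructor
    · rintro ⟨h3, h4⟩
      rw [h2 a b h3] at h4
      by_contra h5
      simp [h5] at h4
    · intro h3
      exact ⟨h3.ne, by rw [h2 a b h3.ne, if_pos h3]⟩

theorem srg77_iso {W : Type*} [Fintype W] [DecidableEq W] {H : SimpleGraph W} [DecidableRel H.Adj]
    (h' : IsSRG H 77 16 0 4) : Nonempty (G ≃g H) := by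
  obtain ⟨T, B, h1, h2, ⟨φ⟩⟩ := exists_design h
  obtain ⟨T', B', h1', h2', ⟨φ'⟩⟩ := exists_design h'
  obtain ⟨e, he⟩ := Witt.s22_unique h1 h1' h2 h2'
  exact ⟨(φ.trans (blockIso e he)).trans φ'.symm⟩

end Cfsg.Lib.Spor.SRG77
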