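import Cfsg.Agent.Spor.HSGraph

/-!
A strongly regular graph with parameters (100,22,0,6) is the point-block graph of an S(3,6,22),
with any prescribed vertex as the extra vertex.
-/

set_option autoImplicit false

namespace Cfsg.Lib.Spor.SRG

open Finset

variable {V : Type*} [Fintype V] [DecidableEq V] {G : SimpleGraph V} [DecidableRel G.Adj]

omit [DecidableEq V] in
theorem IsSRG.card_filter_adj {n k l m : ℕ} (h : IsSRG G n k l m) (v : V) :
    (univ.filter fun w => G.Adj v w).card = k := by
  rw [← h.deg v, ← Set.ncard_coe_finset]; congr 1; ext; simp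

theorem IsSRG.card_filter_common {n k l m : ℕ} (h : IsSRG G n k l m) (v w : V) :
    (univ.filter fun u => G.Adj v u ∧ G.Adj w u).card =
      if v = w then k else if G.Adj v w then l else m := by
  have : (univ.filter fun u => G.Adj v u ∧ G.Adj w u).card =
      {u | G.Adj v u ∧ G.Adj w u}.ncard := by
    rw [← Set.ncard_coe_finset]; congr 1; ext; simp
  rw [this]
  split_ifs with h1 h2
  · subst h1; simpa using h.deg v
  · exact h.adj v w h2
  · exact h.nadj v w h1 h2

omit [DecidableEq V] [DecidableRel G.Adj] in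
theorem IsSRG.card_univ {n k l m : ℕ} (h : IsSRG G n k l m) : Fintype.card V = n := by
  rw [← Nat.card_eq_fintype_card, h.card]

omit [DecidableEq V] [DecidableRel G.Adj] in
theorem IsSRG.no_triangle {n k m : ℕ} (h : IsSRG G n k 0 m) {x y z : V} (h1 : G.Adj x y)
    (h2 : G.Adj x z) : ¬ G.Adj y z := by
  intro h3
  have := h.adj x y h1
  rw [Set.ncard_eq_zero] at this
  have h4 : z ∈ {u | G.Adj x u ∧ G.Adj y u} := ⟨h2, h3⟩
  rw [this] at h4
  exact h4

theorem IsSRG.card_filter_nadj {n k l m : ℕ} (h : IsSRG G n k l m) (v : V) :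
    (univ.filter fun w => w ≠ v ∧ ¬ G.Adj v w).card + k + 1 = n := by
  have h1 := card_filter_add_card_filter_not (s := (univ : Finset V)) (fun w => G.Adj v w)
  have h2 : (univ.filter fun w => ¬ G.Adj v w) =
      insert v (univ.filter fun w => w ≠ v ∧ ¬ G.Adj v w) := by
    ext w
    by_cases hw : w = v <;> simp [hw]
  rw [h2, card_insert_of_notMem (by simp), h.card_filter_adj, Finset.card_univ, h.card_univ] at h1
  omega

/-- In a triangle-free strongly regular graph: common neighbours of two neighbours of `v` among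
the non-neighbours of `v`. -/
theorem IsSRG.card_far_common {n k m : ℕ} (h : IsSRG G n k 0 m) {v x y : V} (hx : G.Adj v x)
    (hy : G.Adj v y) :
    ((univ.filter fun w => w ≠ v ∧ ¬ G.Adj v w).filter fun u => G.Adj x u ∧ G.Adj y u).card + 1 =
      if x = y then k else m := by
  have h1 := h.card_filter_common x y
  rw [if_neg (h.no_triangle hx hy)] at h1
  rw [← h1, ← card_insert_of_notMem (a := v) (by simp)]
  congr 1
  ext u
  simp only [mem_insert, mem_filter, mem_univ, true_and]
  constructor
  · rintro (rfl | h2)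
    · exact ⟨hx.symm, hy.symm⟩
    · exact h2.2
  · intro h2
    by_cases hu : u = v
    · exact Or.inl hu
    · exact Or.inr ⟨⟨hu, fun h3 => h.no_triangle hx h3 h2.1⟩, h2⟩

theorem hs_inter (h : IsSRG G 100 22 0 6) {v w w' : V} (hw : w ≠ v ∧ ¬ G.Adj v w)
    (hw' : w' ≠ v ∧ ¬ G.Adj v w') (hne : w ≠ w') (hadj : ¬ G.Adj w w') :
    ((univ.filter fun x => G.Adj v x ∧ G.Adj w x).filter fun x => G.Adj x w').card = 2 := by
  set Bw := univ.filter fun x => G.Adj v x ∧ G.Adj w x with hBw
  set W := univ.filter fun w => w ≠ v ∧ ¬ G.Adj v w with hW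
  have hB6 : Bw.card = 6 := by
    rw [hBw, h.card_filter_common, if_neg hw.1.symm, if_neg hw.2]
  have hW77 : W.card = 77 := by have := h.card_filter_nadj v; rw [← hW] at this; omega
  let n : V → ℕ := fun u => (Bw.filter fun x => G.Adj x u).card
  have hfar : ∀ x ∈ Bw, ∀ y ∈ Bw, (W.filter fun u => G.Adj x u ∧ G.Adj y u).card =
      if x = y then 21 else 5 := by
    intro x hx y hy
    have := h.card_far_common (mem_filter.1 hx).2.1 (mem_filter.1 hy).2.1
    rw [← hW] at this
    split_ifs at this ⊢ <;> omega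
  have s1 : ∑ u ∈ W, n u = 126 := by
    simp only [n, card_filter]
    rw [sum_comm, sum_const_nat (m := 21), hB6]
    intro x hx
    rw [← card_filter]
    simpa using hfar x hx x hx
  have s2 : ∑ u ∈ W, n u * n u = 276 := by
    simp only [n, card_filter, sum_mul_sum]
    rw [sum_comm, sum_const_nat (m := 46), hB6]
    intro x hx
    rw [sum_comm, ← add_sum_erase _ _ hx, sum_const_nat (m := 5) (s := Bw.erase x),
      card_erase_of_mem hx, hB6]
    · have := hfar x hx x hx
      rw [card_filter] at this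
      simp only [and_self, if_true] at this
      simp only [ite_zero_mul_ite_zero, and_self, mul_one, this]
    · intro y hy
      have := hfar x hx y (mem_of_mem_erase hy)
      rw [card_filter, if_neg (ne_of_mem_erase hy).symm] at this
      simp only [ite_zero_mul_ite_zero, mul_one, this]
  have hwW : w ∈ W := by simp [hW, hw]
  have hnw : n w = 6 := by
    rw [← hB6]
    simp only [n]
    rw [filter_true_of_mem]
    intro x hx
    exact (mem_filter.1 hx).2.2.symm
  set U := (W.erase w).filter fun u => ¬ G.Adj w u with hU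
  have hzero : ∀ u, G.Adj w u → n u = 0 := by
    intro u hu
    simp only [n, card_eq_zero, filter_eq_empty_iff]
    intro x hx
    exact fun h1 => h.no_triangle hu (mem_filter.1 hx).2.2 h1.symm
  have hsum : ∀ f : ℕ → ℕ, f 0 = 0 → ∑ u ∈ W, f (n u) = f 6 + ∑ u ∈ U, f (n u) := by
    intro f hf
    rw [← add_sum_erase _ _ hwW, hnw, hU, sum_filter]
    congr 1
    refine sum_congr rfl fun u _ => ?_
    split_ifs with h1
    · rw [hzero u h1, hf]
    · rfl
  have hU60 : U.card = 60 := by
    have h1 := card_filter_add_card_filter_not (s := W.erase w) (fun u => G.Adj w u)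
    have h2 := card_filter_add_card_filter_not (s := univ.filter fun u => G.Adj w u)
      (fun u => G.Adj v u)
    have h3 : (univ.filter fun u => G.Adj w u).filter (fun u => G.Adj v u) = Bw := by
      ext u; simp [hBw, and_comm]
    have h4 : (univ.filter fun u => G.Adj w u).filter (fun u => ¬ G.Adj v u) =
        (W.erase w).filter (fun u => G.Adj w u) := by
      ext u
      simp only [hW, mem_filter, mem_univ, true_and, mem_erase]
      constructor
      · rintro ⟨h5, h6⟩
        exact ⟨⟨h5.ne.symm, fun h7 => hw.2 (h7 ▸ h5).symm, h6⟩, h5⟩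
      · rintro ⟨⟨-, -, h6⟩, h5⟩
        exact ⟨h5, h6⟩
    rw [h3, h4, h.card_filter_adj, hB6] at h2
    rw [card_erase_of_mem hwW, hW77, ← hU] at h1
    omega
  rw [hsum (fun a => a) rfl] at s1
  rw [hsum (fun a => a * a) rfl] at s2
  have s3 : ∑ u ∈ U, ((n u : ℤ) - 2) ^ 2 = 0 := by
    have e1 : (∑ u ∈ U, (n u : ℤ)) = 120 := by exact_mod_cast (by omega : ∑ u ∈ U, n u = 120)
    have e2 : (∑ u ∈ U, (n u : ℤ) * n u) = 240 := by
      exact_mod_cast (by omega : ∑ u ∈ U, n u * n u = 240)
    have : ∀ u, ((n u : ℤ) - 2) ^ 2 = (n u : ℤ) * n u - 4 * n u + 4 := fun u => by ring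
    simp only [this, sum_add_distrib, sum_sub_distrib, ← mul_sum, e1, e2, sum_const, hU60]
    norm_num
  have hw'U : w' ∈ U := by simp [hU, hW, hw', hne.symm, hadj]
  have := (sum_eq_zero_iff_of_nonneg (fun u _ => sq_nonneg _)).1 s3 w' hw'U
  have h5 : (n w' : ℤ) = 2 := by nlinarith
  exact_mod_cast h5

/-- The structure theorem for strongly regular graphs with parameters (100,22,0,6). -/
theorem hs_structure (h : IsSRG G 100 22 0 6) (v : V) :
    ∃ B : Set (Finset {x // G.Adj v x}), IsSteinerSystem 3 6 B ∧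
      ∃ φ : pointBlockGraph B ≃g G, φ none = v ∧ ∀ x, φ (some (Sum.inl x)) = x.1 := by
  let W := {w // w ≠ v ∧ ¬ G.Adj v w}
  let blk : W → Finset {x // G.Adj v x} := fun w => univ.filter fun x => G.Adj w.1 x.1
  have hP : Fintype.card {x // G.Adj v x} = 22 := by
    rw [Fintype.card_subtype, h.card_filter_adj]
  have hW : Fintype.card W = 77 := by
    have := h.card_filter_nadj v
    rw [Fintype.card_subtype]; omega
  have hint : ∀ w w' : W, (blk w ∩ blk w').card =
      if w = w' then 6 else if G.Adj w.1 w'.1 then 0 else 2 := by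
    intro w w'
    have h1 : (blk w ∩ blk w').card =
        ((univ.filter fun x => G.Adj v x ∧ G.Adj w.1 x).filter fun x => G.Adj x w'.1).card := by
      refine card_bij (fun x _ => x.1) (fun x hx => ?_) (fun _ _ _ _ h => Subtype.ext h)
        (fun x hx => ?_)
      · simp only [blk, mem_inter, mem_filter, mem_univ, true_and] at hx ⊢
        exact ⟨⟨x.2, hx.1⟩, hx.2.symm⟩
      · simp only [mem_filter, mem_univ, true_and] at hx
        exact ⟨⟨x, hx.1.1⟩, by simp [blk, hx.1.2, hx.2.symm], rfl⟩
    rw [h1]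
    split_ifs with h2 h3
    · subst h2
      rw [filter_true_of_mem (fun x hx => (mem_filter.1 hx).2.2.symm), h.card_filter_common,
        if_neg w.2.1.symm, if_neg w.2.2]
    · rw [card_eq_zero, filter_eq_empty_iff]
      exact fun x hx h4 => h.no_triangle h3 (mem_filter.1 hx).2.2 h4.symm
    · exact hs_inter h w.2 w'.2 (fun h4 => h2 (Subtype.ext h4)) h3
  have h6 : ∀ w, (blk w).card = 6 := fun w => by simpa using hint w w
  have hinj : Function.Injective blk := by
    intro w w' hww
    by_contra hne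
    have := hint w w'
    rw [← hww, inter_self, h6, if_neg hne] at this
    split_ifs at this <;> omega
  have hB : IsSteinerSystem 3 6 (Set.range blk) := by
    refine isSteinerSystem_of_card ?_ ?_ ?_
    · rintro _ ⟨w, rfl⟩; exact h6 w
    · rintro _ ⟨w, rfl⟩ _ ⟨w', rfl⟩ hne
      rw [hint, if_neg (fun h1 => hne (by rw [h1]))]
      split_ifs <;> omega
    · rw [Set.ncard_range_of_injective hinj, Nat.card_eq_fintype_card, hW, hP]
      decide
  refine ⟨Set.range blk, hB, ?_⟩
  let eW : W ≃ Set.range blk := Equiv.ofInjective blk hinj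
  let ψ : Option ({x // G.Adj v x} ⊕ Set.range blk) → V := fun z =>
    z.elim v (Sum.elim Subtype.val fun b => (eW.symm b).1)
  have hψ : Function.Bijective ψ := by
    refine Function.Surjective.bijective_of_nat_card_le (fun u => ?_) ?_
    · by_cases h1 : u = v
      · exact ⟨none, h1.symm⟩
      · by_cases h2 : G.Adj v u
        · exact ⟨some (Sum.inl ⟨u, h2⟩), rfl⟩
        · exact ⟨some (Sum.inr (eW ⟨u, h1, h2⟩)), by simp [ψ]⟩
    · rw [(Witt.pointBlockGraph_isSRG hP hB).card, h.card]
  refine ⟨⟨Equiv.ofBijective ψ hψ, ?_⟩, rfl, fun x => rfl⟩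
  have hb : ∀ (w : W) (x : {x // G.Adj v x}), x ∈ (eW w).1 ↔ G.Adj w.1 x.1 := fun w x => by
    simp [eW, blk]
  rintro (_ | a | b) (_ | a' | b')
  · simp [ψ]
  · simpa [ψ] using a'.2
  · simpa [ψ] using (eW.symm b').2.2
  · simpa [ψ] using a.2.symm
  · simpa [ψ] using h.no_triangle a.2 a'.2
  · obtain ⟨w, rfl⟩ := eW.surjective b'
    rw [pb_inl_inr, hb, G.adj_comm]
    simp [ψ]
  · simpa [ψ] using fun h1 => (eW.symm b).2.2 (G.adj_symm h1)
  · obtain ⟨w, rfl⟩ := eW.surjective b
    rw [pb_inr_inl, hb]
    simp [ψ]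
  · obtain ⟨w, rfl⟩ := eW.surjective b
    obtain ⟨w', rfl⟩ := eW.surjective b'
    rw [pb_inr_inr, Witt.ne_and_disjoint_iff hB, disjoint_iff_inter_eq_empty, ← card_eq_zero]
    have h1 : ((eW w).1 ∩ (eW w').1).card = _ := hint w w'
    rw [h1]
    simp only [ψ, Equiv.ofBijective_apply, Option.elim_some, Sum.elim_inr, Equiv.symm_apply_apply]
    split_ifs with h2 h3
    · subst h2; simp
    · simp [h3]
    · simp [h3]

/-- Uniqueness of the strongly regular graph (100,22,0,6), relative to a vertex. -/
theorem hs_iso {W : Type*} [Fintype W] [DecidableEq W] {H : SimpleGraph W} [DecidableRel H.Adj]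
    (hG : IsSRG G 100 22 0 6) (hH : IsSRG H 100 22 0 6) (v : V) (w : W) :
    ∃ e : G ≃g H, e v = w := by
  obtain ⟨B, hB, φ, h1, -⟩ := hs_structure hG v
  obtain ⟨B', hB', φ', h2, -⟩ := hs_structure hH w
  obtain ⟨e, he⟩ := Witt.s22_unique (by rw [Fintype.card_subtype, hG.card_filter_adj])
    (by rw [Fintype.card_subtype, hH.card_filter_adj]) hB hB'
  refine ⟨φ.symm.trans ((pbIso e he).trans φ'), ?_⟩
  have h3 : φ.symm v = none := by rw [RelIso.symm_apply_eq, h1]
  simp [h3, h2]

end Cfsg.Lib.Spor.SRG
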