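import Cfsg.Agent.Spor.Rank3
import Cfsg.Agent.Spor.HSUnique
import Cfsg.Agent.Spor.WittAut

/-! The automorphism group of the Higman-Sims graph. -/

set_option autoImplicit false

namespace Cfsg.Lib.Spor.SRG

open Finset MulAction

section params

variable {V : Type*} [Fintype V] [DecidableEq V] {G : SimpleGraph V} [DecidableRel G.Adj]

/-- A feasibility condition modulo a prime, from the trace of a nilpotent matrix. -/
theorem IsSRG.trace_cond {n k l m : ℕ} (h : IsSRG G n k l m) (p : ℕ) (hp : p.Prime) (x y : ZMod p)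
    (h1 : (k : ZMod p) - m + x ^ 2 = 0) (h2 : (l : ZMod p) - m + 2 * x = 0)
    (h3 : (m : ZMod p) + y ^ 2 * n + 2 * y * k + 2 * x * y = 0) : (n : ZMod p) * (x + y) = 0 := by
  have := Fact.mk hp
  let N : Matrix V V (ZMod p) := Matrix.of fun v w =>
    (if G.Adj v w then 1 else 0) + (if v = w then x else 0) + y
  have hA : ∀ v, ∑ u, (if G.Adj v u then (1 : ZMod p) else 0) = k := fun v => by
    rw [sum_boole, h.card_filter_adj]
  have hA' : ∀ v, ∑ u, (if G.Adj u v then (1 : ZMod p) else 0) = k := fun v => by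
    simp only [G.adj_comm _ v, hA]
  have hAA : ∀ v w, ∑ u, (if G.Adj v u then (1 : ZMod p) else 0) * (if G.Adj u w then 1 else 0) =
      if v = w then k else if G.Adj v w then l else m := fun v w => by
    have := h.card_filter_common v w
    simp only [G.adj_comm _ w, ite_zero_mul_ite_zero, mul_one, sum_boole, this]
  have hN : N * N = 0 := by
    ext v w
    simp only [Matrix.mul_apply, N, Matrix.of_apply, add_mul, mul_add, sum_add_distrib, hAA, ← sum_mul, ← mul_sum,
      hA, hA', sum_const, Finset.card_univ, h.card_univ, nsmul_eq_mul, Matrix.zero_apply]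
    simp only [ite_mul (v = _), mul_ite (_ = w), zero_mul, mul_zero, ite_self, sum_ite_eq, sum_ite_eq',
      mem_univ, if_true]
    by_cases hvw : v = w
    · subst hvw
      simp only [G.irrefl, if_true, if_false]
      linear_combination h1 + h3
    · by_cases ha : G.Adj v w
      · simp only [hvw, ha, if_true, if_false]
        linear_combination h2 + h3
      · simp only [hvw, ha, if_false]
        linear_combination h3
  have := (Matrix.isNilpotent_trace_of_isNilpotent (M := N) ⟨2, by rw [pow_two, hN]⟩).eq_zero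
  rw [mul_add]
  simpa [Matrix.trace, N, h.card_univ] using this

/-- Two nonadjacent neighbours of a vertex have many common neighbours. -/
theorem IsSRG.lambda_bound {n k l m : ℕ} (h : IsSRG G n k l m) (hn : 0 < n) (hl : l + 1 < k) :
    2 * l + 3 ≤ m + k := by
  obtain ⟨v⟩ : Nonempty V := Fintype.card_pos_iff.1 (h.card_univ ▸ hn)
  obtain ⟨x, hx⟩ : (univ.filter fun w => G.Adj v w).Nonempty :=
    card_pos.1 (by rw [h.card_filter_adj]; omega)
  have hx : G.Adj v x := (mem_filter.1 hx).2
  have hc : ∀ {z}, G.Adj v z → (univ.filter fun u => G.Adj v u ∧ G.Adj z u).card = l :=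
    fun hz => by rw [h.card_filter_common, if_neg hz.ne, if_pos hz]
  obtain ⟨y, hy, hy'⟩ := exists_mem_notMem_of_card_lt_card
    (s := insert x (univ.filter fun u => G.Adj v u ∧ G.Adj x u)) (t := univ.filter fun w => G.Adj v w)
    ((card_insert_le _ _).trans_lt (by rw [hc hx, h.card_filter_adj]; exact hl))
  have hy : G.Adj v y := (mem_filter.1 hy).2
  simp only [mem_insert, mem_filter, mem_univ, hy, true_and, not_or] at hy'
  have h1 := card_union_add_card_inter (univ.filter fun u => G.Adj v u ∧ G.Adj x u)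
    (univ.filter fun u => G.Adj v u ∧ G.Adj y u)
  rw [hc hx, hc hy] at h1
  have h2 : insert x (insert y ((univ.filter fun u => G.Adj v u ∧ G.Adj x u) ∪
      (univ.filter fun u => G.Adj v u ∧ G.Adj y u))) ⊆ univ.filter fun w => G.Adj v w := by
    intro u hu
    simp only [mem_insert, mem_union, mem_filter, mem_univ, true_and] at hu ⊢
    rcases hu with rfl | rfl | hu | hu
    exacts [hx, hy, hu.1, hu.1]
  have h3 := card_le_card h2
  rw [card_insert_of_notMem (by simp [Ne.symm hy'.1, G.adj_comm y x, hy'.2]),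
    card_insert_of_notMem (by simp [hy'.2]), h.card_filter_adj] at h3
  have h4 : insert v ((univ.filter fun u => G.Adj v u ∧ G.Adj x u) ∩
      (univ.filter fun u => G.Adj v u ∧ G.Adj y u)) ⊆
      univ.filter fun u => G.Adj x u ∧ G.Adj y u := by
    intro u hu
    simp only [mem_insert, mem_inter, mem_filter, mem_univ, true_and] at hu ⊢
    rcases hu with rfl | hu
    exacts [⟨hx.symm, hy.symm⟩, ⟨hu.1.2, hu.2.2⟩]
  have h5 := card_le_card h4
  rw [card_insert_of_notMem (by simp), h.card_filter_common x y, if_neg (Ne.symm hy'.1),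
    if_neg hy'.2] at h5
  omega

theorem IsSRG.lambda_lt {n k l m : ℕ} (h : IsSRG G n k l m) (hn : 0 < n) (hk : 0 < k) : l < k := by
  obtain ⟨v⟩ : Nonempty V := Fintype.card_pos_iff.1 (h.card_univ ▸ hn)
  obtain ⟨x, hx⟩ : (univ.filter fun w => G.Adj v w).Nonempty :=
    card_pos.1 (by rw [h.card_filter_adj]; omega)
  have hx' : G.Adj v x := (mem_filter.1 hx).2
  have := h.card_filter_common v x
  rw [if_neg hx'.ne, if_pos hx'] at this
  rw [← this, ← h.card_filter_adj v]
  refine card_lt_card ⟨fun u hu => by simp_all, fun hs => ?_⟩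
  simpa using hs hx

/-- The parameters of a strongly regular graph with 100 vertices and valency 22. -/
theorem IsSRG.params_100_22 {l m : ℕ} (h : IsSRG G 100 22 l m) : l = 0 ∧ m = 6 := by
  have h1 := (isSRG_iff.1 h).param_eq G (by norm_num)
  have h2 := h.lambda_lt (by norm_num) (by norm_num)
  have h3 : l = 21 ∧ m = 0 ∨ l = 14 ∧ m = 2 ∨ l = 7 ∧ m = 4 ∨ l = 0 ∧ m = 6 := by omega
  rcases h3 with ⟨rfl, rfl⟩ | ⟨rfl, rfl⟩ | ⟨rfl, rfl⟩ | h3
  · exact absurd (h.trace_cond 23 (by norm_num) 1 0 (by decide) (by decide) (by decide)) (by decide)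
  · have := h.lambda_bound (by norm_num) (by norm_num)
    omega
  · exact absurd (h.trace_cond 3 (by norm_num) 0 (-1) (by decide) (by decide) (by decide)) (by decide)
  · exact h3

end params

section stab

variable {α : Type*} [DecidableEq α]

/-- Automorphisms of a set system act on the point-block graph. -/
def pbHom (B : Set (Finset α)) : setSystemAut B →* (pointBlockGraph B ≃g pointBlockGraph B) where
  toFun g := pbIso g.1 (Witt.mem_setSystemAut_iff.1 g.2)
  map_one' := by
    ext1 x
    rcases x with _ | a | b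
    · rfl
    · rfl
    · simp [Subtype.ext_iff]
  map_mul' g h := by
    ext1 x
    rcases x with _ | a | b
    · rfl
    · rfl
    · simp [Subtype.ext_iff, image_image]

theorem pbHom_none (B : Set (Finset α)) (g : setSystemAut B) : pbHom B g none = none := rfl

theorem pbHom_inl (B : Set (Finset α)) (g : setSystemAut B) (a : α) :
    pbHom B g (some (Sum.inl a)) = some (Sum.inl (g.1 a)) := rfl

theorem pbHom_inr_eq_iff (B : Set (Finset α)) (g : setSystemAut B) (b c : B) :
    pbHom B g (some (Sum.inr b)) = some (Sum.inr c) ↔ b.1.image g.1 = c.1 := by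
  show some (Sum.inr (blockEquiv g.1 (Witt.mem_setSystemAut_iff.1 g.2) b)) = _ ↔ _
  simp [Subtype.ext_iff]

theorem pbHom_injective (B : Set (Finset α)) : Function.Injective (pbHom B) := by
  intro g h hgh
  ext a
  have := congrArg (fun f => f (some (Sum.inl a))) hgh
  simpa [pbHom_inl] using this

theorem pbHom_range [Finite α] (B : Set (Finset α)) :
    (pbHom B).range = stabilizer (pointBlockGraph B ≃g pointBlockGraph B) (none : Option (α ⊕ B)) := by
  refine le_antisymm (by rintro _ ⟨g, rfl⟩; rfl) fun φ hφ => ?_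
  have h0 : φ none = none := hφ
  have h1 : ∀ a, ∃ a', φ (some (Sum.inl a)) = some (Sum.inl a') := fun a => by
    have := φ.map_rel_iff.2 (pb_none_inl (B := B) a)
    rw [h0] at this
    rcases h : φ (some (Sum.inl a)) with _ | a' | b
    · simp [h] at this
    · exact ⟨a', rfl⟩
    · simp [h] at this
  have h2 : ∀ b, ∃ b', φ (some (Sum.inr b)) = some (Sum.inr b') := fun b => by
    have := mt φ.map_rel_iff.1 (pb_none_inr (B := B) b)
    rw [h0] at this
    rcases h : φ (some (Sum.inr b)) with _ | a' | b'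
    · exact absurd (φ.injective (h.trans h0.symm)) (by simp)
    · simp [h] at this
    · exact ⟨b', rfl⟩
  choose f hf using h1
  have hinj : Function.Injective f := fun a a' h => by
    have := φ.injective ((hf a).trans (h ▸ (hf a').symm))
    simpa using this
  let σ : Equiv.Perm α := Equiv.ofBijective f (Finite.injective_iff_bijective.1 hinj)
  have h3 : ∀ b b' : B, φ (some (Sum.inr b)) = some (Sum.inr b') → b.1.image σ = b'.1 := by
    intro b b' h
    ext y
    obtain ⟨x, rfl⟩ := σ.surjective y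
    rw [σ.injective.mem_finset_image, ← pb_inl_inr, ← pb_inl_inr, ← φ.map_rel_iff, hf, h]
    rfl
  have hσ : σ ∈ setSystemAut B := by
    rw [mem_setSystemAut_iff_mapsTo]
    intro b hb
    obtain ⟨b', h⟩ := h2 ⟨b, hb⟩
    have := h3 _ _ h
    rw [perm_smul_finset_eq_image, this]
    exact b'.2
  refine ⟨⟨σ, hσ⟩, RelIso.ext ?_⟩
  rintro (_ | a | b)
  · exact h0.symm
  · exact (hf a).symm
  · obtain ⟨b', h⟩ := h2 b
    rw [h, pbHom_inr_eq_iff]
    exact h3 _ _ h

end stab

variable {α : Type*} [Fintype α] [DecidableEq α]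

theorem hs_isPretransitive {V : Type*} [Finite V] {G : SimpleGraph V} (h : IsSRG G 100 22 0 6) :
    IsPretransitive (G ≃g G) V := by
  classical
  have := Fintype.ofFinite V
  exact ⟨fun v w => hs_iso h h v w⟩

theorem card_aut_pointBlockGraph (hα : Fintype.card α = 22) {B : Set (Finset α)}
    (hB : IsSteinerSystem 3 6 B) :
    Nat.card (pointBlockGraph B ≃g pointBlockGraph B) = 88704000 := by
  have h := Witt.pointBlockGraph_isSRG hα hB
  have := hs_isPretransitive h
  rw [← (stabilizer (pointBlockGraph B ≃g pointBlockGraph B) (none : Option (α ⊕ B))).index_mul_card,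
    index_stabilizer_of_transitive, h.card, ← pbHom_range,
    ← Nat.card_congr (MonoidHom.ofInjective (pbHom_injective B)).toEquiv, Witt.s22_aut_card hα hB]

/-- An involution of the standard S(3,6,22) with 8 fixed points and 21 fixed blocks. -/
def s22Inv : ℕ := 838654261143100755552339227674656

theorem s22Inv_spec : Witt.isPerm 22 s22Inv = true ∧
    Witt.allL Witt.s22Std (fun c => Witt.elem (Witt.img 22 s22Inv c) Witt.s22Std) = true ∧
    Witt.cntL Witt.s22Std (fun c => Nat.beq (Witt.img 22 s22Inv c) c) = 21 ∧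
    (∀ i : Fin 22, Witt.ap s22Inv (Witt.ap s22Inv i) = i) ∧
    (univ.filter fun i : Fin 22 => Witt.ap s22Inv i = i).card = 8 ∧
    Witt.allL Witt.s22Std (fun c => Nat.blt (Witt.img 22 s22Inv c) (2 ^ 22)) = true := by
  decide +kernel

theorem s22_exists_inv (hα : Fintype.card α = 22) {B : Set (Finset α)}
    (hB : IsSteinerSystem 3 6 B) : ∃ t : setSystemAut B, t * t = 1 ∧
      {a | t.1 a = a}.ncard = 8 ∧ {b : B | b.1.image t.1 = b.1}.ncard = 21 := by
  obtain ⟨x⟩ : Nonempty (Fin 3 ↪ α) := Function.Embedding.nonempty_of_card_le (by simp [hα])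
  obtain ⟨e, -, he⟩ := Witt.s22_std hα hB x
  obtain ⟨h1, h2, h3, h4, h5, h6⟩ := s22Inv_spec
  obtain ⟨π, hπ⟩ := Witt.exists_perm_of_isPerm h1
  have himg : ∀ c, ((Witt.ms 22 c).image e).image (e.permCongr π) =
      (Witt.ms 22 (Witt.img 22 s22Inv c)).image e := fun c => by
    rw [Witt.ms_img hπ]
    simp [image_image, Function.comp_def]
  have hmem : e.permCongr π ∈ setSystemAut B := by
    rw [mem_setSystemAut_iff_mapsTo]
    intro b hb
    obtain ⟨c, hc, rfl⟩ := (he b).1 hb
    rw [perm_smul_finset_eq_image, himg]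
    exact (he _).2 ⟨_, Witt.elem_spec (Witt.allL_spec h2 hc), rfl⟩
  refine ⟨⟨_, hmem⟩, ?_, ?_, ?_⟩
  · ext a
    obtain ⟨i, rfl⟩ := e.surjective a
    have : π (π i) = i := Fin.ext (by rw [hπ, hπ, h4])
    simp [this]
  · rw [← h5, ← Set.ncard_coe_finset]
    symm
    refine Set.ncard_congr (fun i _ => e i) (fun i hi => ?_) (fun _ _ _ _ h => e.injective h)
      (fun a ha => ?_)
    · have : π i = i := Fin.ext (by rw [hπ]; simpa using hi)
      simp [this]
    · obtain ⟨i, rfl⟩ := e.surjective a
      have : π i = i := by simpa using ha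
      exact ⟨i, by simp [← hπ, this], rfl⟩
  · rw [ncard_subtype B (fun b => b.image (e.permCongr π) = b), ← h3]
    refine he.ncard_sep Witt.s22_incr _ _ fun c hc => ?_
    rw [himg, Nat.beq_eq]
    refine ⟨fun h => by rw [h], fun h => Witt.ms_injOn ?_ ((Witt.incr_spec Witt.s22_incr).1 c hc).2
      (image_injective e.injective h)⟩
    simpa using Witt.allL_spec h6 hc

omit [Fintype α] [DecidableEq α] in
theorem exists_fix_of_ncard {S : Set α} {n : ℕ} (h : S.ncard = n + 1) : ∃ a, a ∈ S :=
  Set.nonempty_of_ncard_ne_zero (by omega)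

theorem s22_trans_blocks (hα : Fintype.card α = 22) {B : Set (Finset α)}
    (hB : IsSteinerSystem 3 6 B) (b c : B) : ∃ g : setSystemAut B, b.1.image g.1 = c.1 := by
  obtain ⟨x⟩ : Nonempty (Fin 3 ↪ b.1) :=
    Function.Embedding.nonempty_of_card_le (by simp [hB.1 _ b.2])
  obtain ⟨y⟩ : Nonempty (Fin 3 ↪ c.1) :=
    Function.Embedding.nonempty_of_card_le (by simp [hB.1 _ c.2])
  obtain ⟨e, h1, h2⟩ := Witt.s22_iso hα hα hB hB (x.trans (.subtype _)) (y.trans (.subtype _))
  refine ⟨⟨e, Witt.mem_setSystemAut_iff.2 h2⟩, ?_⟩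
  refine (hB.2 (univ.map (y.trans (.subtype _))) (by simp)).unique
    ⟨h2.le (Set.mem_image_of_mem _ b.2), fun z hz => ?_⟩ ⟨c.2, fun z hz => ?_⟩
  · obtain ⟨i, -, rfl⟩ := mem_map.1 hz
    rw [← h1]
    exact mem_image_of_mem _ (x i).2
  · obtain ⟨i, -, rfl⟩ := mem_map.1 hz
    exact (y i).2

/-- The Higman-Sims group inside the automorphism group of the graph. -/
theorem exists_simple_pointBlockGraph (hα : Fintype.card α = 22) {B : Set (Finset α)}
    (hB : IsSteinerSystem 3 6 B) : ∃ H : Subgroup (pointBlockGraph B ≃g pointBlockGraph B),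
      H.index = 2 ∧ IsSimpleGroup H := by
  classical
  have hG := Witt.pointBlockGraph_isSRG hα hB
  have := hs_isPretransitive hG
  have := Fintype.ofFinite (Option (α ⊕ B))
  let f : (pointBlockGraph B ≃g pointBlockGraph B) →* ℤˣ :=
    Equiv.Perm.sign.comp (toPermHom _ (Option (α ⊕ B)))
  obtain ⟨t, ht2, ht8, ht21⟩ := s22_exists_inv hα hB
  have hft : f (pbHom B t) = -1 := by
    show Equiv.Perm.sign (toPermHom _ (Option (α ⊕ B)) (pbHom B t)) = -1
    rw [Equiv.Perm.sign_of_pow_two_eq_one (by rw [← map_pow, ← map_pow, pow_two, ht2, map_one, map_one]),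
      hG.card_univ, ← Nat.card_eq_fintype_card, Nat.card_coe_set_eq, ncard_option_sum]
    have e1 : {a | some (Sum.inl a) ∈
        Function.fixedPoints (toPermHom _ (Option (α ⊕ B)) (pbHom B t))} = {a | t.1 a = a} := by
      ext a
      show pbHom B t (some (Sum.inl a)) = _ ↔ _
      simp [pbHom_inl]
    have e2 : {b | some (Sum.inr b) ∈
        Function.fixedPoints (toPermHom _ (Option (α ⊕ B)) (pbHom B t))} =
        {b : B | b.1.image t.1 = b.1} := by
      ext b
      exact pbHom_inr_eq_iff B t b b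
    rw [e1, e2, ht8, ht21, if_pos (show _ ∈ Function.fixedPoints _ from rfl)]
    rfl
  have hidx := index_ker_eq_two f hft
  have htn : pbHom B t ∉ f.ker := by rw [MonoidHom.mem_ker, hft]; decide
  refine ⟨f.ker, hidx, ?_⟩
  have key : ∀ x y, pbHom B t x = x → (∃ g : setSystemAut B, pbHom B g x = y) →
      ∃ g : f.ker, g • (none : Option (α ⊕ B)) = none ∧ g • x = y := by
    rintro x _ hx ⟨g, rfl⟩
    rcases mem_or_mul_mem_of_index_two hidx htn (pbHom B g) with h | h
    · exact ⟨⟨_, h⟩, rfl, rfl⟩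
    · exact ⟨⟨_, h⟩, rfl, congrArg (pbHom B g) hx⟩
  have key2 : ∀ x0 (X : Set (Option (α ⊕ B))), pbHom B t x0 = x0 →
      (∀ y ∈ X, ∃ g : setSystemAut B, pbHom B g x0 = y) →
      ∀ x ∈ X, ∀ x' ∈ X, ∃ g : f.ker, g • (none : Option (α ⊕ B)) = none ∧ g • x = x' := by
    intro x0 X h0 h x hx x' hx'
    obtain ⟨g, hg, rfl⟩ := key x0 x h0 (h x hx)
    obtain ⟨g', hg', rfl⟩ := key x0 x' h0 (h x' hx')
    refine ⟨g' * g⁻¹, ?_, by rw [mul_smul, inv_smul_smul]⟩
    rw [mul_smul, inv_smul_eq_iff.2 hg.symm, hg']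
  have htr : IsPretransitive f.ker (Option (α ⊕ B)) := by
    refine (isPretransitive_iff_base none).2 fun y => ?_
    obtain ⟨g, rfl⟩ := exists_smul_eq (pointBlockGraph B ≃g pointBlockGraph B) none y
    rcases mem_or_mul_mem_of_index_two hidx htn g with h | h
    · exact ⟨⟨_, h⟩, rfl⟩
    · exact ⟨⟨_, h⟩, rfl⟩
  obtain ⟨a0, ha0⟩ := exists_fix_of_ncard ht8
  obtain ⟨b0, hb0⟩ := exists_fix_of_ncard ht21
  have hcard : Nat.card (Option (α ⊕ B)) = 100 := hG.card
  have hprim : IsPreprimitive f.ker (Option (α ⊕ B)) := by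
    refine isPreprimitive_of_rank3 none (Set.range fun a => some (Sum.inl a))
      (Set.range fun b => some (Sum.inr b)) (by rintro (_ | a | b) <;> simp) (by simp) (by simp)
      (key2 (some (Sum.inl a0)) _ (congrArg (fun a => some (Sum.inl a)) ha0) ?_)
      (key2 (some (Sum.inr b0)) _ ((pbHom_inr_eq_iff B t _ _).2 hb0) ?_) ?_ ?_
    · rintro _ ⟨a, rfl⟩
      have := Witt.s22_trans hα hB
      have : IsPretransitive (setSystemAut B) α := is_one_pretransitive_iff.1
        (isMultiplyPretransitive_of_le (n := 3) (by norm_num) (by simp [hα]))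
      obtain ⟨g, hg⟩ := exists_smul_eq (setSystemAut B) a0 a
      exact ⟨g, congrArg (fun a => some (Sum.inl a)) hg⟩
    · rintro _ ⟨b, rfl⟩
      obtain ⟨g, hg⟩ := s22_trans_blocks hα hB b0 b
      exact ⟨g, (pbHom_inr_eq_iff B g _ _).2 hg⟩
    · rw [Set.ncard_range_of_injective (fun _ _ h => by simpa using h), hcard,
        Nat.card_eq_fintype_card, hα]
      norm_num
    · rw [Set.ncard_range_of_injective (fun _ _ h => by simpa using h), hcard,
        Nat.card_coe_set_eq, Witt.s22_ncard hα hB]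
      norm_num
  refine isSimpleGroup_of_isPreprimitive (none : Option (α ⊕ B)) ?_
    (card_normal_ne (p := 5) (k := 2) (m := 4) (by norm_num) (by norm_num) (by norm_num)
      (by norm_num) hcard fun d hd h => ?_)
  · obtain ⟨K, hK, ⟨e⟩⟩ := Witt.s22_aut_index_two hα hB
    have h1 : (f.comp (pbHom B)).ker = K := eq_of_index_two hK (index_ker_eq_two _ hft)
      e.isSimpleGroup (by rw [Nat.card_congr e.toEquiv, MP.card_M22]; norm_num)
    let φ : (f.comp (pbHom B)).ker →* stabilizer f.ker (none : Option (α ⊕ B)) :=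
      { toFun := fun g => ⟨⟨pbHom B g.1, g.2⟩, rfl⟩
        map_one' := Subtype.ext (Subtype.ext (map_one _))
        map_mul' := fun g h => Subtype.ext (Subtype.ext (map_mul _ _ _)) }
    have hφ : Function.Bijective φ := by
      refine ⟨fun g h hgh => Subtype.ext (pbHom_injective B
        (congrArg (fun z => z.1.1) hgh)), fun g => ?_⟩
      obtain ⟨s, hs⟩ : g.1.1 ∈ (pbHom B).range := by rw [pbHom_range]; exact g.2
      exact ⟨⟨s, show f (pbHom B s) = 1 from hs ▸ g.1.2⟩, Subtype.ext (Subtype.ext hs)⟩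
    exact ((MulEquiv.ofBijective φ hφ).symm.trans
      ((MulEquiv.subgroupCongr h1).trans e)).isSimpleGroup
  · have := Nat.le_of_dvd (by norm_num) hd
    interval_cases d <;> simp_all [Nat.ModEq]

/-- The automorphism group of any strongly regular graph with parameters (100,22,0,6). -/
theorem hs_aut {V : Type*} [Finite V] {G : SimpleGraph V} (h : IsSRG G 100 22 0 6) :
    Nat.card (G ≃g G) = 88704000 ∧ ∃ H : Subgroup (G ≃g G), H.index = 2 ∧ IsSimpleGroup H := by
  classical
  have := Fintype.ofFinite V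
  obtain ⟨v⟩ : Nonempty V := Fintype.card_pos_iff.1 (by rw [h.card_univ]; norm_num)
  obtain ⟨B, hB, φ, -⟩ := hs_structure h v
  have hα : Fintype.card {x // G.Adj v x} = 22 := by
    rw [Fintype.card_subtype, h.card_filter_adj]
  obtain ⟨H, h1, h2⟩ := exists_simple_pointBlockGraph hα hB
  refine ⟨by rw [← Nat.card_congr (autCongr φ).toEquiv, card_aut_pointBlockGraph hα hB],
    H.map (autCongr φ).toMonoidHom, ?_, ((autCongr φ).subgroupMap H).symm.isSimpleGroup⟩
  rw [← h1]
  exact Subgroup.index_map_equiv H (autCongr φ)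

/-- Two groups of order 44352000 acting faithfully on strongly regular graphs with parameters
(100,22,0,6) are isomorphic (and simple). -/
theorem hs_equiv_of_injective {V W : Type*} [Finite V] [Finite W] {Γ : SimpleGraph V}
    {Δ : SimpleGraph W} (hΓ : IsSRG Γ 100 22 0 6) (hΔ : IsSRG Δ 100 22 0 6) {G H : Type*}
    [Group G] [Group H] (f : G →* (Γ ≃g Γ)) (hf : Function.Injective f) (g : H →* (Δ ≃g Δ))
    (hg : Function.Injective g) (hG : Nat.card G = 44352000) (hH : Nat.card H = 44352000) :
    IsSimpleGroup G ∧ Nonempty (G ≃* H) := by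
  classical
  have := Fintype.ofFinite V
  have := Fintype.ofFinite W
  obtain ⟨v⟩ : Nonempty V := Fintype.card_pos_iff.1 (by rw [hΓ.card_univ]; norm_num)
  obtain ⟨w⟩ : Nonempty W := Fintype.card_pos_iff.1 (by rw [hΔ.card_univ]; norm_num)
  obtain ⟨e, -⟩ := hs_iso hΓ hΔ v w
  obtain ⟨hc, K, h1, h2⟩ := hs_aut hΔ
  have : Finite (Δ ≃g Δ) := Nat.finite_of_card_ne_zero (by rw [hc]; norm_num)
  have key : ∀ {L : Type _} [Group L] (k : L →* (Δ ≃g Δ)), Function.Injective k →
      Nat.card L = 44352000 → k.range = K := fun k hk hL => by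
    have h3 := K.index_mul_card
    have h4 := k.range.index_mul_card
    rw [← Nat.card_congr (MonoidHom.ofInjective hk).toEquiv, hL, hc] at h4
    rw [h1, hc] at h3
    exact eq_of_index_two h1 (by omega) h2 (by omega)
  have key' : ∀ {L : Type _} [Group L] (k : L →* (Δ ≃g Δ)), Function.Injective k →
      Nat.card L = 44352000 → k.range = K := fun k hk hL => by
    have h3 := K.index_mul_card
    have h4 := k.range.index_mul_card
    rw [← Nat.card_congr (MonoidHom.ofInjective hk).toEquiv, hL, hc] at h4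
    rw [h1, hc] at h3
    exact eq_of_index_two h1 (by omega) h2 (by omega)
  have hf' : Function.Injective ((autCongr e).toMonoidHom.comp f) :=
    (autCongr e).injective.comp hf
  let e1 := (MonoidHom.ofInjective hf').trans (MulEquiv.subgroupCongr (key _ hf' hG))
  let e2 := (MonoidHom.ofInjective hg).trans (MulEquiv.subgroupCongr (key' _ hg hH))
  exact ⟨e1.isSimpleGroup, ⟨e1.trans e2.symm⟩⟩

/-- A rank three action with subdegrees 1, 22, 77 preserves a Higman-Sims graph. -/
theorem hs_of_rank3 {G Ω : Type*} [Group G] [MulAction G Ω] [Finite Ω] [IsPretransitive G Ω]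
    (hΩ : Nat.card Ω = 100) {a b c : Ω} (hb : (orbit (stabilizer G a) b).ncard = 22)
    (hc : (orbit (stabilizer G a) c).ncard = 77) : IsSRG (orbGraph G a b) 100 22 0 6 := by
  classical
  have := Fintype.ofFinite Ω
  obtain ⟨l, m, h⟩ := orbGraph_isSRG hb hc (by norm_num) (by norm_num) (by norm_num) hΩ
  obtain ⟨rfl, rfl⟩ := IsSRG.params_100_22 h
  exact h

/-- Uniqueness of the rank three group of order 44352000 with subdegrees 1, 22, 77. -/
theorem hs_equiv_of_rank3 {G Ω : Type*} [Group G] [MulAction G Ω] [Finite Ω] [FaithfulSMul G Ω]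
    [IsPretransitive G Ω] (hΩ : Nat.card Ω = 100) {a b c : Ω}
    (hb : (orbit (stabilizer G a) b).ncard = 22) (hc : (orbit (stabilizer G a) c).ncard = 77)
    (hG : Nat.card G = 44352000)
    {G' Ω' : Type*} [Group G'] [MulAction G' Ω'] [Finite Ω'] [FaithfulSMul G' Ω']
    [IsPretransitive G' Ω'] (hΩ' : Nat.card Ω' = 100) {a' b' c' : Ω'}
    (hb' : (orbit (stabilizer G' a') b').ncard = 22) (hc' : (orbit (stabilizer G' a') c').ncard = 77)
    (hG' : Nat.card G' = 44352000) : IsSimpleGroup G ∧ Nonempty (G ≃* G') :=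
  hs_equiv_of_injective (hs_of_rank3 hΩ hb hc) (hs_of_rank3 hΩ' hb' hc')
    (toAut _ fun g _ _ => orbGraph_smul_iff g) (toAut_injective _ _)
    (toAut _ fun g _ _ => orbGraph_smul_iff g) (toAut_injective _ _) hG hG'

end Cfsg.Lib.Spor.SRG
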