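import Cfsg.Agent.Spor.GolayChain
import Cfsg.Agent.Spor.M24PK

/-! Homomorphisms from subgroups of `↥M24` given by the images of generators. -/

set_option autoImplicit false

namespace Cfsg.Lib.Spor.Orb

open Cfsg Cfsg.Lib.Spor MulAction
open scoped Pointwise Matrix

theorem ptsOk_M24 : PK.PtsOk M24 24 idxPt := MP.ptsOk24.subgroup M24

theorem actL_m24 {g : ℕ} (h : pkM24 g = true) : PK.ActL idxPt 24 (MP.lst g) (m24 g) :=
  (rep_m24 h).actL

theorem actL_unique {Q Ω : Type*} [Group Q] [MulAction Q Ω] {n : ℕ} {pt : ℕ → Ω}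
    (hQ : PK.PtsOk Q n pt) {l : List ℕ} {q q' : Q} (h : PK.ActL pt n l q) (h' : PK.ActL pt n l q') :
    q = q' := by
  have := hQ.faith (q'⁻¹ * q) fun i hi => by
    rw [mul_smul, (h.2 i hi).2, ← (h'.2 i hi).2, inv_smul_smul]
  exact (inv_mul_eq_one.1 this).symm

theorem actL_range {Q Ω : Type*} [Group Q] [MulAction Q Ω] (n : ℕ) (pt : ℕ → Ω) :
    PK.ActL pt n (List.range n) (1 : Q) :=
  ⟨List.length_range, fun i hi => by
    rw [List.getD_eq_getElem _ _ (by simpa using hi), List.getElem_range, one_smul]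
    exact ⟨hi, rfl⟩⟩

/-- The check for `exists_hom_of_gens`. -/
noncomputable def homChk (w w' n : ℕ) (ps : List (ℕ × List ℕ)) (cert cert' : List PK.Cert) : Bool :=
  (ps.all fun p => pkM24 p.1) && PK.graphChk w 24 n (ps.map fun p => (MP.lst p.1, p.2)) cert &&
    (Nat.blt 0 w' && Nat.ble 2 n && Nat.ble (w' * n) (2 ^ w')) &&
    PK.chkLowF w' n cert' ((ps.map Prod.snd).map (PK.encL w'))

/-- A homomorphism from a subgroup of `M24` of known order, given on generators, with a lower bound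
for the order of its image. -/
theorem exists_hom_of_gens {Q Ω : Type*} [Group Q] [MulAction Q Ω] {n w w' : ℕ} {pt : ℕ → Ω}
    (hQ : PK.PtsOk Q n pt) {ps : List (ℕ × List ℕ)} (hq : ∀ p ∈ ps, ∃ q : Q, PK.ActL pt n p.2 q)
    {cert cert' : List PK.Cert} (hc : homChk w w' n ps cert cert' = true) {H : Subgroup M24}
    (hm : ∀ p ∈ ps, pkM24 p.1 = true → m24 p.1 ∈ H) (hcard : Nat.card H ≤ PK.certOrder cert) :
    ∃ φ : H →* Q, PK.certOrder cert' ≤ Nat.card φ.range ∧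
      ∀ p ∈ ps, ∀ h : m24 p.1 ∈ H, PK.ActL pt n p.2 (φ ⟨m24 p.1, h⟩) := by
  classical
  simp only [homChk, Bool.and_eq_true, List.all_eq_true, Nat.blt_eq, Nat.ble_eq,
    PK.chkLowF_eq] at hc
  obtain ⟨⟨⟨h1, h2⟩, ⟨h3, h4⟩, h5⟩, h6⟩ := hc
  let c : ℕ × List ℕ → Q := fun p => if h : ∃ q : Q, PK.ActL pt n p.2 q then h.choose else 1
  have hc : ∀ p ∈ ps, PK.ActL pt n p.2 (c p) := fun p hp => by
    simp only [c, dif_pos (hq p hp)]; exact (hq p hp).choose_spec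
  have hd : PK.ActP idxPt pt 24 n (ps.map fun p => (MP.lst p.1, p.2))
      (ps.map fun p => (m24 p.1, c p)) := by
    rw [PK.ActP, List.forall₂_map_left_iff, List.forall₂_map_right_iff, List.forall₂_same]
    exact fun p hp => ⟨actL_m24 (h1 p hp), hc p hp⟩
  obtain ⟨-, -, φ, a1, a2⟩ := PK.graph_hom ptsOk_M24 hQ hd h2 (H := H)
    (fun g hg => by
      obtain ⟨p, hp, rfl⟩ := List.mem_map.1 hg
      exact hm p hp (h1 p hp)) hcard
  refine ⟨φ, ?_, fun p hp h => ?_⟩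
  · rw [a2]
    refine PK.le_card_gen_of_chkLow (hQ.ctx h3 h4 h5) (PK.dens_of_actL (hQ.ctx h3 h4 h5) ?_) h6
    rw [List.map_map, List.forall₂_map_left_iff, List.forall₂_map_right_iff, List.forall₂_same]
    exact hc
  · rw [a1 (m24 p.1, c p) (Subgroup.subset_closure (List.mem_map.2 ⟨p, hp, rfl⟩)) h]
    exact hc p hp

theorem card_ker_le {H Q : Type*} [Group H] [Finite H] [Group Q] (φ : H →* Q) {a b : ℕ}
    (ha : a ≤ Nat.card φ.range) (h0 : 0 < a) (h : Nat.card H = b * a) : Nat.card φ.ker ≤ b := by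
  have h1 := Subgroup.card_mul_index φ.ker
  rw [Subgroup.index_ker, h] at h1
  exact Nat.le_of_mul_le_mul_right ((Nat.mul_le_mul_left _ ha).trans h1.le) h0

theorem surjective_of_card_le {H Q : Type*} [Group H] [Group Q] [Finite Q] (φ : H →* Q)
    (h : Nat.card Q ≤ Nat.card φ.range) : Function.Surjective φ :=
  MonoidHom.range_eq_top.1 (Subgroup.eq_top_of_le_card _ h)

/-- A check on all elements of a subgroup of a subgroup of `M24`, with its order. -/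
theorem forall_of_gens {H : Subgroup M24} (N : Subgroup H) {ns : List ℕ}
    (h1 : ∀ c ∈ ns, pkM24 c = true ∧ ∃ h : m24 c ∈ H, (⟨m24 c, h⟩ : H) ∈ N) {cert : List PK.Cert}
    (hc : PK.chkLowF 9 24 cert (ns.map MP.toPK) = true) (hcard : Nat.card N ≤ PK.certOrder cert)
    {f : ℕ → Bool} (hf : MP.pkAll cert ns f = true) :
    Nat.card N = PK.certOrder cert ∧ ∀ x ∈ N, ∃ c, pkM24 c = true ∧ m24 c = x.1 ∧ f c = true := by
  have e : Nat.card ((N.map H.subtype).map M24.subtype) = Nat.card N := by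
    rw [card_map_subtype, Subgroup.card_map_of_injective H.subtype_injective]
  have hg : ∀ t ∈ ns, MP.InSub ((N.map H.subtype).map M24.subtype) t := fun t ht => by
    obtain ⟨a, b, c⟩ := h1 t ht
    exact (rep_m24 a).inSub ⟨_, ⟨_, c, rfl⟩, rfl⟩
  refine ⟨le_antisymm hcard (e ▸ MP.pk_le_card hg hc), fun x hx => ⟨_, pkM24_pack x.1,
    m24_pack x.1, ?_⟩⟩
  exact MP.pk_forall (MP.pk_chain_low hg hc (e ▸ hcard)).2 hf ⟨_, ⟨_, hx, rfl⟩, rfl⟩

/-- The generators with trivial image lie in the kernel. -/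
theorem mem_ker_of_gens {Q Ω : Type*} [Group Q] [MulAction Q Ω] {n : ℕ} {pt : ℕ → Ω}
    (hQ : PK.PtsOk Q n pt) {ps : List (ℕ × List ℕ)} {H : Subgroup M24}
    (hm : ∀ p ∈ ps, pkM24 p.1 = true → m24 p.1 ∈ H) {φ : H →* Q}
    (hφ : ∀ p ∈ ps, ∀ h : m24 p.1 ∈ H, PK.ActL pt n p.2 (φ ⟨m24 p.1, h⟩)) {ns : List ℕ}
    (hn : ∀ c ∈ ns, pkM24 c = true ∧ (c, List.range n) ∈ ps) :
    ∀ c ∈ ns, pkM24 c = true ∧ ∃ h : m24 c ∈ H, (⟨m24 c, h⟩ : H) ∈ φ.ker := by
  intro c hc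
  obtain ⟨h1, h2⟩ := hn c hc
  have h3 : m24 c ∈ H := hm (c, List.range n) h2 h1
  exact ⟨h1, h3, MonoidHom.mem_ker.2
    (actL_unique hQ (hφ (c, List.range n) h2 h3) (actL_range n pt))⟩

theorem exists_actL_fin {k : ℕ} [NeZero k] {l : List ℕ}
    (h : l.length = k ∧ (∀ i : Fin k, l.getD i 0 < k) ∧
      ∀ i j : Fin k, l.getD i 0 = l.getD j 0 → i = j) :
    ∃ q : Equiv.Perm (Fin k), PK.ActL (Fin.ofNat k) k l q := by
  let f : Fin k → Fin k := fun i => ⟨l.getD i 0, h.2.1 i⟩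
  have hf : Function.Injective f := fun i j e => h.2.2 i j (congrArg Fin.val e)
  refine ⟨Equiv.ofBijective f (Finite.injective_iff_bijective.1 hf),
    PK.actL_iff_fin.2 ⟨h.1, fun i => ⟨h.2.1 i, Fin.ext ?_⟩⟩⟩
  rw [show Fin.ofNat k (i : ℕ) = i from Fin.ext (Nat.mod_eq_of_lt i.2)]
  exact (Nat.mod_eq_of_lt (h.2.1 i)).symm

theorem exists_actL_GL {ι R : Type*} [Fintype ι] [DecidableEq ι] [CommRing R] {n : ℕ}
    {pt : ℕ → ι → R} {l : List ℕ} (M N : Matrix ι ι R)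
    (h : M * N = 1 ∧ N * M = 1 ∧ l.length = n ∧
      ∀ i : Fin n, l.getD i 0 < n ∧ M *ᵥ pt i = pt (l.getD i 0)) :
    ∃ q : GL ι R, PK.ActL pt n l q :=
  ⟨⟨M, N, h.1, h.2.1⟩, PK.actL_iff_fin.2 h.2.2⟩

theorem exists_actL_pair {G₁ G₂ Ω₁ Ω₂ : Type*} [Group G₁] [Group G₂] [MulAction G₁ Ω₁]
    [MulAction G₂ Ω₂] {n₁ n₂ : ℕ} {pt₁ : ℕ → Ω₁} {pt₂ : ℕ → Ω₂} {l₁ l₂ : List ℕ}
    (h₁ : ∃ q : G₁, PK.ActL pt₁ n₁ l₁ q) (h₂ : ∃ q : G₂, PK.ActL pt₂ n₂ l₂ q) :
    ∃ q : G₁ × G₂, PK.ActL (PK.ptS n₁ pt₁ pt₂) (n₁ + n₂) (PK.pairL n₁ (l₁, l₂)) q := by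
  obtain ⟨a, ha⟩ := h₁
  obtain ⟨b, hb⟩ := h₂
  exact ⟨(a, b), PK.ActL.pair (l := (l₁, l₂)) (g := (a, b)) ha hb⟩

/-- Stabilisers of points in one orbit are isomorphic. -/
theorem nonempty_stab_equiv {G X : Type*} [Group G] [MulAction G X] {a b : X}
    (h : ∃ g : G, g • a = b) {H K : Subgroup G} (hH : ∀ g, g ∈ H ↔ g • a = a)
    (hK : ∀ g, g ∈ K ↔ g • b = b) : Nonempty (K ≃* H) := by
  obtain ⟨g, rfl⟩ := h
  exact ⟨(conjEquiv H K g fun x => by rw [hH, hK, conj_smul_iff]).symm⟩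

/-- All permutations of the members of a family are induced if all transpositions are. -/
theorem setHom_fam_surjective {k s : ℕ} (hs : famOk k s = true) (tbl : List ℕ)
    (h : ∀ a b : Fin k, a ≠ b → pkM24 (tbl.getD (k * a + b) 0) = true ∧
      ∀ i : Fin k, permMask (pkGet (tbl.getD (k * a + b) 0)) (fld s i) = fld s (Equiv.swap a b i))
    {S : Finset (Finset GolayPt)} (hS : ∃ u : M24, u • fam k s = S) :
    Function.Surjective (setHom M24 S) := by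
  obtain ⟨u, rfl⟩ := hS
  refine setHom_surjective (fun i : Fin k => maskSet (fld s i)) (fun i j e => ?_)
    (forall_perm_of_swap _ fun a b hab => ⟨m24 (tbl.getD (k * a + b) 0), fun i => by
      rw [m24_smul_set (h a b hab).1, (h a b hab).2]⟩) u fun x => ?_
  · have h1 := card_fam hs
    have h2 : Set.InjOn (fun i => maskSet (fld s i)) (Finset.range k : Set ℕ) :=
      Finset.card_image_iff.1 (h1.trans (Finset.card_range k).symm)
    exact Fin.ext (h2 (by simp) (by simp) e)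
  · rw [Finset.mem_smul_finset]
    constructor
    · rintro ⟨y, hy, rfl⟩
      obtain ⟨i, hi, rfl⟩ := mem_fam.1 hy
      exact ⟨⟨i, hi⟩, rfl⟩
    · rintro ⟨i, rfl⟩
      exact ⟨_, mem_fam.2 ⟨i, i.2, rfl⟩, rfl⟩

end Cfsg.Lib.Spor.Orb
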