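import Cfsg.Agent.Spor.GolayM24
import Cfsg.Prelude.Def_SporadicCombinatorics

/-!
The ternary Golay code on the 4 × 3 array: a systematic encoder, weights and hexads.
-/

set_option autoImplicit false

namespace Cfsg.Lib.Spor.Tern

open Cfsg
open scoped Pointwise

theorem sum_zmod3 (f : ZMod 3 → ZMod 3) : ∑ r, f r = f 0 + f 1 + f 2 := Fin.sum_univ_three f

theorem mem_code_iff {x : ArrayPt → ZMod 3} : x ∈ ternaryGolayCode ↔
    ∃ s : ZMod 3, (∀ i : Fin 4, ∑ r : ZMod 3, x (i, r) = -s) ∧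
      ∀ a b : ZMod 3, ∑ i : Fin 4, x (i, a * ![0, 1, 1, 1] i + b * ![1, 0, 1, 2] i) = s := by
  refine exists_congr fun s => and_congr_right fun _ => ?_
  constructor
  · intro h a b
    exact h (a • ![0, 1, 1, 1] + b • ![1, 0, 1, 2]) (Submodule.mem_span_pair.2 ⟨a, b, rfl⟩)
  · intro h t ht
    obtain ⟨a, b, rfl⟩ := Submodule.mem_span_pair.1 ht
    exact h a b

instance decMemCode (x : ArrayPt → ZMod 3) : Decidable (x ∈ ternaryGolayCode) :=
  decidable_of_iff _ mem_code_iff.symm

/-- The code word with the given entries at positions (0,0), (0,1), (0,2), (1,0), (1,1), (2,0). -/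
def tenc (a b c d e f : ZMod 3) : ArrayPt → ZMod 3 := fun p =>
  ![![a, b, c], ![d, e, a + b + c + 2 * d + 2 * e],
    ![f, 2 * b + c + 2 * d + e + f, a + 2 * b + d + 2 * e + f],
    ![a + 2 * b + 2 * c + 2 * d + 2 * f, a + c + d + e + 2 * f, 2 * a + 2 * b + c + 2 * e + 2 * f]]
    p.1 p.2

theorem tenc_eq_sum (a b c d e f : ZMod 3) :
    tenc a b c d e f = a • tenc 1 0 0 0 0 0 + b • tenc 0 1 0 0 0 0 + c • tenc 0 0 1 0 0 0 +
      d • tenc 0 0 0 1 0 0 + e • tenc 0 0 0 0 1 0 + f • tenc 0 0 0 0 0 1 := by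
    funext p
    obtain ⟨i, r⟩ := p
    have hr : r = 0 ∨ r = 1 ∨ r = 2 := by revert r; decide
    simp only [Pi.add_apply, Pi.smul_apply, smul_eq_mul]
    fin_cases i <;> rcases hr with rfl | rfl | rfl
    · show a = a * 1 + b * 0 + c * 0 + d * 0 + e * 0 + f * 0; ring
    · show b = a * 0 + b * 1 + c * 0 + d * 0 + e * 0 + f * 0; ring
    · show c = a * 0 + b * 0 + c * 1 + d * 0 + e * 0 + f * 0; ring
    · show d = a * 0 + b * 0 + c * 0 + d * 1 + e * 0 + f * 0; ring
    · show e = a * 0 + b * 0 + c * 0 + d * 0 + e * 1 + f * 0; ring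
    · show a + b + c + 2 * d + 2 * e = a * 1 + b * 1 + c * 1 + d * 2 + e * 2 + f * 0; ring
    · show f = a * 0 + b * 0 + c * 0 + d * 0 + e * 0 + f * 1; ring
    · show 2 * b + c + 2 * d + e + f = a * 0 + b * 2 + c * 1 + d * 2 + e * 1 + f * 1; ring
    · show a + 2 * b + d + 2 * e + f = a * 1 + b * 2 + c * 0 + d * 1 + e * 2 + f * 1; ring
    · show a + 2 * b + 2 * c + 2 * d + 2 * f = a * 1 + b * 2 + c * 2 + d * 2 + e * 0 + f * 2; ring
    · show a + c + d + e + 2 * f = a * 1 + b * 0 + c * 1 + d * 1 + e * 1 + f * 2; ring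
    · show 2 * a + 2 * b + c + 2 * e + 2 * f = a * 2 + b * 2 + c * 1 + d * 0 + e * 2 + f * 2; ring

theorem tenc_mem (a b c d e f : ZMod 3) : tenc a b c d e f ∈ ternaryGolayCode := by
  rw [tenc_eq_sum]
  refine add_mem (add_mem (add_mem (add_mem (add_mem ?_ ?_) ?_) ?_) ?_) ?_ <;>
    exact Submodule.smul_mem _ _ (by decide +kernel)

theorem eq_tenc {x : ArrayPt → ZMod 3} (hx : x ∈ ternaryGolayCode) :
    x = tenc (x (0, 0)) (x (0, 1)) (x (0, 2)) (x (1, 0)) (x (1, 1)) (x (2, 0)) := by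
  obtain ⟨s, h1, h2⟩ := mem_code_iff.1 hx
  have h3 : (3 : ZMod 3) = 0 := rfl
  have c0 : x (0, 0) + x (0, 1) + x (0, 2) = -s := (sum_zmod3 _).symm.trans (h1 0)
  have c1 : x (1, 0) + x (1, 1) + x (1, 2) = -s := (sum_zmod3 _).symm.trans (h1 1)
  have c2 : x (2, 0) + x (2, 1) + x (2, 2) = -s := (sum_zmod3 _).symm.trans (h1 2)
  have c3 : x (3, 0) + x (3, 1) + x (3, 2) = -s := (sum_zmod3 _).symm.trans (h1 3)
  have t0 : x (0, 0) + x (1, 0) + x (2, 0) + x (3, 0) = s :=
    (Fin.sum_univ_four fun i => x (i, 0 * ![0, 1, 1, 1] i + 0 * ![1, 0, 1, 2] i)).symm.trans (h2 0 0)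
  have t1 : x (0, 1) + x (1, 0) + x (2, 1) + x (3, 2) = s :=
    (Fin.sum_univ_four fun i => x (i, 0 * ![0, 1, 1, 1] i + 1 * ![1, 0, 1, 2] i)).symm.trans (h2 0 1)
  have t2 : x (0, 0) + x (1, 1) + x (2, 1) + x (3, 1) = s :=
    (Fin.sum_univ_four fun i => x (i, 1 * ![0, 1, 1, 1] i + 0 * ![1, 0, 1, 2] i)).symm.trans (h2 1 0)
  have e5 : x (0, 0) + x (0, 1) + x (0, 2) + 2 * x (1, 0) + 2 * x (1, 1) = x (1, 2) := by
    linear_combination c0 + 2 * c1 + (-x (1, 2) - s) * h3
  have e7 : 2 * x (0, 1) + x (0, 2) + 2 * x (1, 0) + x (1, 1) + x (2, 0) = x (2, 1) := by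
    linear_combination c0 + 2 * c3 + t0 + t1 + t2 +
      (-x (0, 0) - x (2, 1) - x (3, 0) - x (3, 1) - x (3, 2)) * h3
  have e8 : x (0, 0) + 2 * x (0, 1) + x (1, 0) + 2 * x (1, 1) + x (2, 0) = x (2, 2) := by
    linear_combination 2 * c2 + c3 + 2 * t0 + 2 * t1 + 2 * t2 +
      (-x (0, 0) - x (1, 0) - x (2, 0) - 2 * x (2, 1) - x (2, 2) - x (3, 0) - x (3, 1) - x (3, 2)
        + s) * h3
  have e9 : x (0, 0) + 2 * x (0, 1) + 2 * x (0, 2) + 2 * x (1, 0) + 2 * x (2, 0) = x (3, 0) := by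
    linear_combination 2 * c0 + 2 * t0 + (-x (0, 0) - x (3, 0)) * h3
  have e10 : x (0, 0) + x (0, 2) + x (1, 0) + x (1, 1) + 2 * x (2, 0) = x (3, 1) := by
    linear_combination c0 + c3 + 2 * t0 + 2 * t1 + t2 +
      (-x (0, 0) - x (0, 1) - x (1, 0) - x (2, 1) - x (3, 0) - x (3, 1) - x (3, 2) + s) * h3
  have e11 : 2 * x (0, 0) + 2 * x (0, 1) + x (0, 2) + 2 * x (1, 1) + 2 * x (2, 0) = x (3, 2) := by
    linear_combination c0 + c3 + 2 * t0 + t1 + 2 * t2 +
      (-x (0, 0) - x (1, 0) - x (2, 1) - x (3, 0) - x (3, 1) - x (3, 2) + s) * h3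
  funext p
  obtain ⟨i, r⟩ := p
  have hr : r = 0 ∨ r = 1 ∨ r = 2 := by revert r; decide
  fin_cases i <;> rcases hr with rfl | rfl | rfl
  exacts [rfl, rfl, rfl, rfl, rfl, e5.symm, rfl, e7.symm, e8.symm, e9.symm, e10.symm, e11.symm]

/-- A property of all code words. -/
theorem forall_code {P : (ArrayPt → ZMod 3) → Prop} (h : ∀ a b c d e f, P (tenc a b c d e f)) :
    ∀ x ∈ ternaryGolayCode, P x := fun x hx => by
  rw [eq_tenc hx]
  exact h _ _ _ _ _ _

/-- The parameter space of the encoder. -/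
abbrev Par : Type := ZMod 3 × ZMod 3 × ZMod 3 × ZMod 3 × ZMod 3 × ZMod 3

/-- The encoder on tuples. -/
def tencP (k : Par) : ArrayPt → ZMod 3 :=
  tenc k.1 k.2.1 k.2.2.1 k.2.2.2.1 k.2.2.2.2.1 k.2.2.2.2.2

theorem ncard_code_filter (P : (ArrayPt → ZMod 3) → Prop) [DecidablePred P] :
    {x | x ∈ ternaryGolayCode ∧ P x}.ncard =
      (Finset.univ.filter fun k : Par => P (tencP k)).card := by
  rw [← Set.ncard_coe_finset]
  symm
  apply Set.ncard_congr (fun k _ => tencP k)
  · intro k hk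
    exact ⟨tenc_mem _ _ _ _ _ _, (Finset.mem_filter.1 hk).2⟩
  · rintro ⟨a, b, c, d, e, f⟩ ⟨a', b', c', d', e', f'⟩ - - h
    have h0 : a = a' := congrFun h (0, 0)
    have h1 : b = b' := congrFun h (0, 1)
    have h2 : c = c' := congrFun h (0, 2)
    have h3 : d = d' := congrFun h (1, 0)
    have h4 : e = e' := congrFun h (1, 1)
    have h5 : f = f' := congrFun h (2, 0)
    rw [h0, h1, h2, h3, h4, h5]
  · rintro x ⟨hx, hP⟩
    have := eq_tenc hx
    refine ⟨(x (0, 0), x (0, 1), x (0, 2), x (1, 0), x (1, 1), x (2, 0)), ?_, this.symm⟩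
    rw [Finset.mem_coe, Finset.mem_filter]
    exact ⟨Finset.mem_univ _, by rwa [this] at hP⟩

theorem card_code : Nat.card ternaryGolayCode = 729 := by
  have := ncard_code_filter (fun _ => True)
  simp only [and_true, Finset.filter_true, Finset.card_univ, Fintype.card_prod, ZMod.card] at this
  exact this

/-- The weight of an encoded word, computed on natural numbers. -/
def wtN (a b c d e f : ℕ) : ℕ :=
  let z : ℕ → ℕ := fun n => cond (Nat.beq (Nat.mod n 3) 0) 0 1
  z a + z b + z c + z d + z e + z (a + b + c + 2 * d + 2 * e) + z f + z (2 * b + c + 2 * d + e + f) +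
    z (a + 2 * b + d + 2 * e + f) + z (a + 2 * b + 2 * c + 2 * d + 2 * f) +
    z (a + c + d + e + 2 * f) + z (2 * a + 2 * b + c + 2 * e + 2 * f)

theorem card_supp_tenc (a b c d e f : ZMod 3) :
    (ternarySupport (tenc a b c d e f)).card = wtN a.val b.val c.val d.val e.val f.val := by
  have hz : ∀ (n : ℕ) (x : ZMod 3), x = n →
      (if x ≠ 0 then 1 else 0) = cond (Nat.beq (Nat.mod n 3) 0) 0 1 := by
    rintro n x rfl
    rw [← ZMod.natCast_mod]
    have h3 : n % 3 = 0 ∨ n % 3 = 1 ∨ n % 3 = 2 := by omega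
    show _ = cond (Nat.beq (n % 3) 0) 0 1
    rcases h3 with h | h | h <;> rw [h] <;> rfl
  rw [ternarySupport, Finset.card_filter, Fintype.sum_prod_type, Fin.sum_univ_four]
  have s3 : ∀ g : ZMod 3 → ℕ, ∑ r, g r = g 0 + g 1 + g 2 := fun g => Fin.sum_univ_three g
  simp only [s3, ← add_assoc, wtN]
  refine congrArg₂ _ (congrArg₂ _ (congrArg₂ _ (congrArg₂ _ (congrArg₂ _ (congrArg₂ _ (congrArg₂ _
    (congrArg₂ _ (congrArg₂ _ (congrArg₂ _ (congrArg₂ _ ?_ ?_) ?_) ?_) ?_) ?_) ?_) ?_) ?_) ?_) ?_) ?_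
  all_goals
    apply hz
    push_cast
    simp only [ZMod.natCast_val, ZMod.cast_id', id]
    rfl

theorem weight_code : ∀ x ∈ ternaryGolayCode, x ≠ 0 → (ternarySupport x).card = 6 ∨
    (ternarySupport x).card = 9 ∨ (ternarySupport x).card = 12 := by
  have h : ∀ x ∈ ternaryGolayCode, (ternarySupport x).card = 0 ∨ (ternarySupport x).card = 6 ∨
      (ternarySupport x).card = 9 ∨ (ternarySupport x).card = 12 := by
    apply forall_code
    simp only [card_supp_tenc]
    decide +kernel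
  intro x hx h0
  refine (h x hx).resolve_left fun e => h0 ?_
  funext p
  by_contra hp
  have : p ∈ ternarySupport x := by simpa [ternarySupport] using hp
  rw [Finset.card_eq_zero.1 e] at this
  simp at this

theorem ncard_weight (n : ℕ) : {x | x ∈ ternaryGolayCode ∧ (ternarySupport x).card = n}.ncard =
    (Finset.univ.filter fun k : Par => wtN k.1.val k.2.1.val k.2.2.1.val k.2.2.2.1.val
      k.2.2.2.2.1.val k.2.2.2.2.2.val = n).card := by
  rw [ncard_code_filter]
  simp only [tencP, card_supp_tenc]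

theorem ncard_six : {x | x ∈ ternaryGolayCode ∧ (ternarySupport x).card = 6}.ncard = 264 :=
  (ncard_weight _).trans (by decide +kernel)

theorem ncard_nine : {x | x ∈ ternaryGolayCode ∧ (ternarySupport x).card = 9}.ncard = 440 :=
  (ncard_weight _).trans (by decide +kernel)

theorem ncard_twelve : {x | x ∈ ternaryGolayCode ∧ (ternarySupport x).card = 12}.ncard = 24 :=
  (ncard_weight _).trans (by decide +kernel)

theorem mem_supp {α : Type*} [Fintype α] [DecidableEq α] {x : α → ZMod 3} {p : α} :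
    p ∈ ternarySupport x ↔ x p ≠ 0 := by simp [ternarySupport]

theorem card_supp_add_sub {α : Type*} [Fintype α] [DecidableEq α] (x y : α → ZMod 3) :
    (ternarySupport (x + y)).card + (ternarySupport (x - y)).card +
      3 * (ternarySupport x ∩ ternarySupport y).card =
      2 * (ternarySupport x).card + 2 * (ternarySupport y).card := by
  have e : ternarySupport x ∩ ternarySupport y =
      Finset.univ.filter fun p => x p ≠ 0 ∧ y p ≠ 0 := by
    ext p; simp [mem_supp]
  rw [e]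
  simp only [ternarySupport, Finset.card_filter, Finset.mul_sum, ← Finset.sum_add_distrib]
  apply Finset.sum_congr rfl
  intro p _
  have : ∀ a b : ZMod 3, ((if a + b ≠ 0 then 1 else 0) + if a - b ≠ 0 then 1 else 0) +
      3 * (if a ≠ 0 ∧ b ≠ 0 then 1 else 0) =
      2 * (if a ≠ 0 then 1 else 0) + 2 * (if b ≠ 0 then 1 else 0) := by decide
  exact this (x p) (y p)

theorem supp_neg {α : Type*} [Fintype α] [DecidableEq α] (x : α → ZMod 3) :
    ternarySupport (-x) = ternarySupport x := by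
  ext p; simp [mem_supp]

/-- Two words of weight six whose supports share five points agree up to sign. -/
theorem eq_or_eq_neg_of_five_le {x y : ArrayPt → ZMod 3} (hx : x ∈ ternaryGolayCode)
    (hy : y ∈ ternaryGolayCode) (h6 : (ternarySupport x).card = 6)
    (h6' : (ternarySupport y).card = 6) (h : 5 ≤ (ternarySupport x ∩ ternarySupport y).card) :
    y = x ∨ y = -x := by
  have h1 := card_supp_add_sub x y
  by_contra hne
  rw [not_or] at hne
  have h2 := weight_code _ (ternaryGolayCode.add_mem hx hy)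
    (fun e => hne.2 (eq_neg_of_add_eq_zero_right e))
  have h3 := weight_code _ (ternaryGolayCode.sub_mem hx hy)
    (fun e => hne.1 (sub_eq_zero.1 e).symm)
  omega

/-- The hexads: supports of the words of weight six. -/
abbrev hexads : Set (Finset ArrayPt) :=
  {h : Finset ArrayPt | ∃ x ∈ ternaryGolayCode, ternarySupport x = h ∧ h.card = 6}

theorem ne_neg_self {x : ArrayPt → ZMod 3} (h6 : (ternarySupport x).card = 6) : x ≠ -x := by
  intro e
  obtain ⟨p, hp⟩ : (ternarySupport x).Nonempty := Finset.card_pos.1 (by omega)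
  have h1 := mem_supp.1 hp
  have h2 : x p = -x p := congrFun e p
  revert h1 h2
  generalize x p = a
  revert a
  decide

theorem ncard_hexads : hexads.ncard = 132 := by
  classical
  have h := Finset.card_mul_eq_card_mul (s := (Set.toFinite hexads).toFinset)
    (t := (Set.toFinite {x | x ∈ ternaryGolayCode ∧ (ternarySupport x).card = 6}).toFinset)
    (fun h x => ternarySupport x = h) (m := 2) (n := 1) ?_ ?_
  · rw [← Set.ncard_eq_toFinset_card, ← Set.ncard_eq_toFinset_card, ncard_six] at h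
    omega
  · intro h hh
    obtain ⟨x, hx, rfl, h6⟩ := (Set.Finite.mem_toFinset _).1 hh
    rw [Finset.card_eq_two]
    refine ⟨x, -x, ne_neg_self h6, ?_⟩
    ext y
    simp only [Finset.mem_bipartiteAbove, Set.Finite.mem_toFinset, Set.mem_ofPred_eq,
      Finset.mem_insert, Finset.mem_singleton]
    constructor
    · rintro ⟨⟨hy, h6'⟩, e⟩
      exact eq_or_eq_neg_of_five_le hx hy h6 h6' (by rw [e, Finset.inter_self]; omega)
    · rintro (rfl | rfl)
      · exact ⟨⟨hx, h6⟩, rfl⟩
      · exact ⟨⟨ternaryGolayCode.neg_mem hx, by rwa [supp_neg]⟩, supp_neg x⟩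
  · intro x hx
    rw [Set.Finite.mem_toFinset] at hx
    rw [Finset.card_eq_one]
    refine ⟨ternarySupport x, ?_⟩
    ext h
    simp only [Finset.mem_bipartiteBelow, Set.Finite.mem_toFinset, Finset.mem_singleton]
    exact ⟨fun h => h.2.symm, by rintro rfl; exact ⟨⟨x, hx.1, rfl, hx.2⟩, rfl⟩⟩

theorem hexads_isSteinerSystem : IsSteinerSystem 5 6 hexads := by
  apply isSteinerSystem_of_card
  · rintro _ ⟨x, -, rfl, h⟩
    exact h
  · rintro _ ⟨x, hx, rfl, h6⟩ _ ⟨y, hy, rfl, h6'⟩ hne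
    by_contra hlt
    rcases eq_or_eq_neg_of_five_le hx hy h6 h6' (by omega) with rfl | rfl
    · exact hne rfl
    · exact hne (supp_neg x).symm
  · rw [ncard_hexads]
    decide +kernel

theorem supp_monomialMap {α : Type*} [Fintype α] [DecidableEq α] (σ : Equiv.Perm α)
    (c : α → (ZMod 3)ˣ) (x : α → ZMod 3) :
    ternarySupport (monomialMap σ c x) = σ • ternarySupport x := by
  have : Fact (Nat.Prime 3) := ⟨Nat.prime_three⟩
  ext p
  rw [mem_perm_smul_finset, mem_supp, mem_supp, monomialMap]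
  simp

/-- The diagonal automorphisms of the code are the scalars. -/
theorem diag_const (c : ArrayPt → (ZMod 3)ˣ)
    (h : ∀ x ∈ ternaryGolayCode, monomialMap 1 c x ∈ ternaryGolayCode) (p q : ArrayPt) :
    c p = c q := by
  obtain ⟨t, hst, -, ht⟩ := Finset.exists_subsuperset_card_eq (n := 5)
    (Finset.subset_univ ({p, q} : Finset ArrayPt)) (Finset.card_le_two.trans (by norm_num))
    (by decide)
  obtain ⟨_, ⟨⟨x, hx, rfl, h6⟩, hsub⟩, -⟩ := hexads_isSteinerSystem.2 t ht
  have hp := mem_supp.1 (hsub (hst (Finset.mem_insert_self _ _)))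
  have hq := mem_supp.1 (hsub (hst (Finset.mem_insert_of_mem (Finset.mem_singleton_self _))))
  have hs : ternarySupport (monomialMap 1 c x) = ternarySupport x := by
    rw [supp_monomialMap, one_smul]
  apply Units.ext
  rcases eq_or_eq_neg_of_five_le hx (h x hx) h6 (by rw [hs, h6])
    (by rw [hs, Finset.inter_self]; omega) with e | e
  · have e1 : (c p : ZMod 3) * x p = x p := congrFun e p
    have e2 : (c q : ZMod 3) * x q = x q := congrFun e q
    revert hp hq e1 e2
    generalize x p = a, x q = b, (c p : ZMod 3) = u, (c q : ZMod 3) = v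
    revert a b u v
    decide
  · have e1 : (c p : ZMod 3) * x p = -x p := congrFun e p
    have e2 : (c q : ZMod 3) * x q = -x q := congrFun e q
    revert hp hq e1 e2
    generalize x p = a, x q = b, (c p : ZMod 3) = u, (c q : ZMod 3) = v
    revert a b u v
    decide

theorem diag_eq (c : ArrayPt → (ZMod 3)ˣ)
    (h : ∀ x ∈ ternaryGolayCode, monomialMap 1 c x ∈ ternaryGolayCode) :
    (∀ p, c p = 1) ∨ (∀ p, c p = -1) := by
  have hu : ∀ u : (ZMod 3)ˣ, u = 1 ∨ u = -1 := by decide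
  rcases hu (c (0, 0)) with e | e
  · exact Or.inl fun p => (diag_const c h p _).trans e
  · exact Or.inr fun p => (diag_const c h p _).trans e

end Cfsg.Lib.Spor.Tern
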