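import Cfsg.Agent.Spor.GolayChain
import Cfsg.Agent.Spor.GeoDodecad

/-! The quartets of a dodecad. -/

set_option autoImplicit false

namespace Cfsg.Lib.Spor.Orb

open Cfsg Cfsg.Lib.Spor MulAction
open scoped Pointwise

theorem smul_mem_hexadsOn (g : M24) {d h : Finset GolayPt} (hh : h ∈ hexadsOn d) :
    g • h ∈ hexadsOn (g • d) := by
  obtain ⟨h1, o, ho, rfl⟩ := hh
  exact ⟨(Finset.card_smul_finset _ _).trans h1, g • o, smul_mem_octads' g ho,
    Finset.smul_finset_inter.symm⟩

theorem smul_mem_quartets (g : M24) {d : Finset GolayPt} {Q : Finset (Finset GolayPt)}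
    (hQ : Q ∈ quartets d) : g • Q ∈ quartets (g • d) := by
  obtain ⟨h1, h2, h3⟩ := hQ
  refine ⟨(Finset.card_smul_finset _ _).trans h1, fun t ht => ?_, fun t ht u hu hne => ?_⟩
  · obtain ⟨t', ht', rfl⟩ := Finset.mem_smul_finset.1 ht
    exact ⟨(Finset.card_smul_finset _ _).trans (h2 t' ht').1, Finset.smul_finset_subset_smul_finset
      (h2 t' ht').2⟩
  · obtain ⟨t', ht', rfl⟩ := Finset.mem_smul_finset.1 ht
    obtain ⟨u', hu', rfl⟩ := Finset.mem_smul_finset.1 hu
    rw [← Finset.smul_finset_union]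
    exact smul_mem_hexadsOn g (h3 t' ht' u' hu' fun e => hne (e ▸ rfl))

/-- The mask is a hexad of the base dodecad. -/
def isHex (m : ℕ) : Bool :=
  Nat.beq (popc m) 6 && anyLT 4096 fun k => forceN (enc k) fun o =>
    Nat.beq (Nat.land o 8245261) m && Nat.beq (popc o) 8

theorem isHex_iff {m : ℕ} (hm : m < 2 ^ 24) :
    maskSet m ∈ hexadsOn (maskSet 8245261) ↔ isHex m = true := by
  rw [isHex, Bool.and_eq_true, Nat.beq_eq, ← card_maskSet, anyLT_iff]
  refine and_congr_right fun _ => ⟨?_, ?_⟩
  · rintro ⟨o, ⟨ho, h8⟩, e⟩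
    obtain ⟨k, hk, rfl⟩ := mem_golaySets_iff_enc.1 ho
    refine ⟨k, hk, ?_⟩
    rw [forceN_eq, Bool.and_eq_true, Nat.beq_eq, Nat.beq_eq, ← card_maskSet]
    rw [← maskSet_and] at e
    exact ⟨maskSet_injOn (Nat.and_lt_two_pow _ (by norm_num)) hm e, h8⟩
  · rintro ⟨k, hk, h⟩
    rw [forceN_eq, Bool.and_eq_true, Nat.beq_eq, Nat.beq_eq, ← card_maskSet] at h
    exact ⟨_, ⟨mem_golaySets_iff_enc.2 ⟨k, hk, rfl⟩, h.2⟩, by rw [← maskSet_and, ← h.1]; rfl⟩

/-- The packed family is a quartet of the base dodecad. -/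
def isQuart (s : ℕ) : Bool :=
  famOk 4 s && allLT 4 fun i => Nat.beq (popc (fld s i)) 3 &&
    Nat.beq (Nat.land (fld s i) 8245261) (fld s i) &&
    allLT 4 fun j => Nat.beq i j || isHex (Nat.lor (fld s i) (fld s j))

theorem famOk_of_isQuart {s : ℕ} (h : isQuart s = true) : famOk 4 s = true :=
  (Bool.and_eq_true_iff.1 h).1

theorem mem_quartets_of {s : ℕ} (h : isQuart s = true) : fam 4 s ∈ quartets (maskSet 8245261) := by
  simp only [isQuart, Bool.and_eq_true, allLT_iff, Nat.beq_eq, Bool.or_eq_true] at h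
  refine ⟨card_fam h.1, fun t ht => ?_, fun t ht u hu hne => ?_⟩
  · obtain ⟨i, hi, rfl⟩ := mem_fam.1 ht
    exact ⟨(card_maskSet _).trans (h.2 i hi).1.1, (maskSet_subset_iff (fld_lt _ _)).2 (h.2 i hi).1.2⟩
  · obtain ⟨i, hi, rfl⟩ := mem_fam.1 ht
    obtain ⟨j, hj, rfl⟩ := mem_fam.1 hu
    rcases (h.2 i hi).2 j hj with rfl | h1
    · exact absurd rfl hne
    · rw [← maskSet_or]
      exact (isHex_iff (Nat.or_lt_two_pow (fld_lt _ _) (fld_lt _ _))).2 h1

def quart0 : ℕ := 25996741562863876545315868681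

theorem isQuart_quart0 : isQuart quart0 = true := by decide +kernel

theorem quart0_mem : fam 4 quart0 ∈ quartets (maskSet 8245261) := mem_quartets_of isQuart_quart0

theorem t0_mem : maskSet 4105 ∈ fam 4 quart0 := mem_fam.2 ⟨0, by norm_num, by decide +kernel⟩

theorem u0_mem : maskSet 114688 ∈ fam 4 quart0 := mem_fam.2 ⟨1, by norm_num, by decide +kernel⟩

theorem disjoint_of_hexad {d t u : Finset GolayPt} (ht : t.card = 3) (hu : u.card = 3)
    (h : t ∪ u ∈ hexadsOn d) : Disjoint t u :=
  Finset.card_union_eq_card_add_card.1 (by rw [h.1, ht, hu])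

theorem quart0_unique {Q : Finset (Finset GolayPt)} (hQ : Q ∈ quartets (maskSet 8245261))
    (ht : maskSet 4105 ∈ Q) (hu : maskSet 114688 ∈ Q) : Q = fam 4 quart0 := by
  refine Finset.eq_of_subset_of_card_le (fun v hv => ?_) (by rw [quart0_mem.1, hQ.1])
  by_cases a : v = maskSet 4105
  · exact a ▸ t0_mem
  by_cases b : v = maskSet 114688
  · exact b ▸ u0_mem
  have h1 := hQ.2.2 _ ht _ hv (Ne.symm a)
  have h2 := hQ.2.2 _ hu _ hv (Ne.symm b)
  have h3 := disjoint_of_hexad (hQ.2.1 _ ht).1 (hQ.2.1 _ hv).1 h1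
  obtain ⟨h4, o, ho, e⟩ := h1
  have h5 : v = symmDiff (o ∩ maskSet 8245261) (maskSet 4105) := by
    rw [e, ← Finset.sup_eq_union, ← h3.symmDiff_eq_sup, symmDiff_comm, symmDiff_symmDiff_cancel_left]
  have key := forall_golaySets (fun o => o.card = 8 → (o ∩ maskSet 8245261).card = 6 →
      maskSet 114688 ∪ symmDiff (o ∩ maskSet 8245261) (maskSet 4105) ∈ hexadsOn (maskSet 8245261) →
      (symmDiff (o ∩ maskSet 8245261) (maskSet 4105)).card = 3 →
      symmDiff (o ∩ maskSet 8245261) (maskSet 4105) ∈ fam 4 quart0)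
    (fun m => forceN (Nat.xor (Nat.land m 8245261) 4105) fun v =>
      !Nat.beq (popc (Nat.land m 8245261)) 6 || (!Nat.beq (popc v) 3 ||
        (!isHex (Nat.lor 114688 v) || anyLT 4 fun i => Nat.beq (fld quart0 i) v)))
    (fun m _ hf _ a1 a3 a4 => by
      rw [← maskSet_and] at a1
      rw [← maskSet_and, ← maskSet_xor] at a3 a4 ⊢
      rw [← maskSet_or, isHex_iff (Nat.or_lt_two_pow (by norm_num)
        (Nat.xor_lt_two_pow (Nat.and_lt_two_pow _ (by norm_num)) (by norm_num)))] at a3
      rw [card_maskSet] at a1 a4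
      rw [forceN_eq] at hf
      simp only [Bool.or_eq_true, Bool.not_eq_true', anyLT_iff, Nat.beq_eq] at hf
      rcases hf with hf | hf | hf | ⟨i, hi, hf⟩
      · exact absurd (Nat.beq_eq ▸ a1 : Nat.beq (popc (Nat.land m 8245261)) 6 = true)
           (by rw [hf]; decide)
      · exact absurd (Nat.beq_eq ▸ a4 : Nat.beq (popc (Nat.xor (Nat.land m 8245261) 4105)) 3 = true)
          (by rw [hf]; decide)
      · exact absurd a3 (by rw [show isHex (114688 ||| (m &&& 8245261 ^^^ 4105)) = false from hf]; decide)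
      · exact mem_fam.2 ⟨i, hi, by rw [hf]; rfl⟩)
    (by decide +kernel) o ho.1 ho.2 (e ▸ h4) (h5 ▸ h2) (h5 ▸ (hQ.2.1 _ hv).1)
  exact h5 ▸ key

def gDO : List ℕ :=
  [360362743948291394134926245452306723, 439644862021082880999555259559957646, 440885969965853753726741117184084384, 958894869704968813731582858707980591, 483759182115535895431766261532559664, 569314109273595381396313470961551568, 276107832826367075687264662029994286, 709507432071723253318567602627793187]

theorem gDO_spec : ∀ g ∈ gDO, pkM24 g = true ∧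
    m24 g ∈ stabilizer M24 (maskSet 8245261, maskSet 118953) :=
  gens_mem (chk := fun g => fixSet g 8245261 && fixSet g 118953) (by decide +kernel)
    fun g h h1 => by
      rw [Bool.and_eq_true] at h1
      exact Prod.ext (smul_of_fixSet h h1.1) (smul_of_fixSet h h1.2)

theorem trans_hex_split {d : Finset GolayPt} (hd : d ∈ dodecads) {t u : Finset GolayPt}
    (ht : t.card = 3) (hu : u.card = 3) (hh : t ∪ u ∈ hexadsOn d) :
    ∃ g : M24, g • maskSet 8245261 = d ∧ g • maskSet 4105 = t ∧ g • maskSet 114688 = u := by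
  have hdis := disjoint_of_hexad ht hu hh
  obtain ⟨h6, o, ho, e⟩ := hh
  have ho0 : maskSet 118953 ∈ octads := mem_octads_of (by decide +kernel)
  obtain ⟨x, hx⟩ := trans_pair (a := maskSet 8245261) (b := d) (x := maskSet 118953) (y := o)
    (trans_dodecads dod0_mem hd) fun g hg => (rank_dod_oct hd).trans _ (smul_mem_octads' g ho0) _ ho
      (by rw [← hg, card_inter_smul, card_inter_maskSet, hg, Finset.inter_comm, e, h6]
          decide +kernel)
  have hx1 : x • maskSet 8245261 = d := congrArg Prod.fst hx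
  have hx2 : x • maskSet 118953 = o := congrArg Prod.snd hx
  have e0 : maskSet 118953 ∩ maskSet 8245261 = maskSet 4105 ∪ maskSet 114688 := by
    rw [← maskSet_and, ← maskSet_or]; rfl
  obtain ⟨g, hg, e1⟩ := trans_of_lower (H := stabilizer M24 (maskSet 8245261, maskSet 118953))
    (A := ↑(Finset.powersetCard 3 (maskSet 118953 ∩ maskSet 8245261))) (Set.toFinite _)
    (fun g hg y hy => by
      have a1 : g • maskSet 8245261 = maskSet 8245261 := congrArg Prod.fst hg
      have a2 : g • maskSet 118953 = maskSet 118953 := congrArg Prod.snd hg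
      rw [Finset.mem_coe, Finset.mem_powersetCard] at hy ⊢
      refine ⟨?_, (Finset.card_smul_finset _ _).trans hy.2⟩
      rw [← a1, ← a2, ← Finset.smul_finset_inter]
      exact Finset.smul_finset_subset_smul_finset hy.1) (x := maskSet 4105)
    (by rw [Finset.mem_coe, Finset.mem_powersetCard, e0, card_maskSet]
        exact ⟨Finset.subset_union_left, by decide +kernel⟩)
    (by rw [Set.ncard_coe_finset, Finset.card_powersetCard, card_inter_maskSet]
        exact le_trans (by decide +kernel) (le_orbit_set gDO_spec 47 0xa81d60d159678a0 20 (by norm_num)))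
    (y := x⁻¹ • t)
    (by rw [Finset.mem_coe, Finset.mem_powersetCard]
        refine ⟨?_, (Finset.card_smul_finset _ _).trans ht⟩
        rw [← inv_smul_smul x (maskSet 118953 ∩ maskSet 8245261), Finset.smul_finset_inter, hx1, hx2, e]
        exact Finset.smul_finset_subset_smul_finset Finset.subset_union_left)
  have a1 : g • maskSet 8245261 = maskSet 8245261 := congrArg Prod.fst hg
  have a2 : g • maskSet 118953 = maskSet 118953 := congrArg Prod.snd hg
  have b1 : (x * g) • maskSet 4105 = t := by rw [mul_smul, e1, smul_inv_smul]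
  refine ⟨x * g, by rw [mul_smul, a1, hx1], b1, ?_⟩
  have b2 : (x * g) • (maskSet 118953 ∩ maskSet 8245261) = t ∪ u := by
    rw [Finset.smul_finset_inter, mul_smul, mul_smul, a1, a2, hx1, hx2, e]
  have b3 : maskSet 114688 = (maskSet 118953 ∩ maskSet 8245261) \ maskSet 4105 := by
    rw [e0, Finset.union_sdiff_cancel_left]
    rw [Finset.disjoint_iff_inter_eq_empty, ← maskSet_and]; exact maskSet_zero
  rw [b3, Finset.smul_finset_sdiff, b1, b2, Finset.union_sdiff_cancel_left hdis]

theorem existsUnique_quartet {d : Finset GolayPt} (hd : d ∈ dodecads) {t u : Finset GolayPt}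
    (ht : t.card = 3) (hu : u.card = 3) (hh : t ∪ u ∈ hexadsOn d) :
    ∃ g : M24, g • maskSet 8245261 = d ∧ t ∈ g • fam 4 quart0 ∧ u ∈ g • fam 4 quart0 ∧
      ∀ Q ∈ quartets d, t ∈ Q → u ∈ Q → Q = g • fam 4 quart0 := by
  obtain ⟨g, rfl, rfl, rfl⟩ := trans_hex_split hd ht hu hh
  refine ⟨g, rfl, Finset.smul_mem_smul_finset t0_mem, Finset.smul_mem_smul_finset u0_mem,
    fun Q hQ h1 h2 => ?_⟩
  have h3 := smul_mem_quartets g⁻¹ hQ
  rw [inv_smul_smul] at h3
  rw [← quart0_unique h3 (Finset.mem_inv_smul_finset_iff.2 h1)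
    (Finset.mem_inv_smul_finset_iff.2 h2), smul_inv_smul]

theorem trans_quartet {d : Finset GolayPt} (hd : d ∈ dodecads) {Q : Finset (Finset GolayPt)}
    (hQ : Q ∈ quartets d) : ∃ g : M24, g • (maskSet 8245261, fam 4 quart0) = (d, Q) := by
  obtain ⟨t, ht, u, hu, hne⟩ := Finset.one_lt_card.1 (show 1 < Q.card by rw [hQ.1]; norm_num)
  obtain ⟨g, h1, -, -, h2⟩ := existsUnique_quartet hd (hQ.2.1 t ht).1 (hQ.2.1 u hu).1
    (hQ.2.2 t ht u hu hne)
  exact ⟨g, Prod.ext h1 (h2 Q hQ ht hu).symm⟩

theorem mem_inf_stab {X Y : Type*} [MulAction M24 X] [MulAction M24 Y] (a : X) (b : Y) (g : M24) :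
    g ∈ stabilizer M24 a ⊓ stabilizer M24 b ↔ g • (a, b) = (a, b) := by
  rw [Prod.ext_iff]; rfl

theorem mem_stab_quart {g : ℕ} (h : pkM24 g = true)
    (h1 : (fixSet g 8245261 && fixFam g 4 quart0) = true) :
    m24 g ∈ stabilizer M24 (maskSet 8245261) ⊓ stabilizer M24 (fam 4 quart0) := by
  rw [Bool.and_eq_true] at h1
  exact ⟨smul_of_fixSet h h1.1, smul_of_fixFam h h1.2⟩

def cQ : List (ℕ × List ℕ) :=
  [(0, [984818244535754528103549039458486304, 436172087574789496172334566314979458, 361455976075496038770089199276540323, 729624972084067510368560526450087212, 374580150690791584349992711192303950, 347965776226568095312435572259640527, 58012287074148081580466032818506160, 194086777368483778237940039309474546, 353987170401200618493286521338776307, 334929910805609962383215521403842868, 558677843945499523072955327396282581, 252419010846568709607451295756206646]),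
   (1, [984818244535754528103549039458486304, 60461407840829905377417909480052928, 252500140492905226730506597208013536]),
   (5, [984818244535754528103549039458486304, 983253766558226330312866011687272480, 268195153026948482477577069584812064]),
   (2, [984818244535754528103549039458486304, 273189467157788314835086223841804320]),
   (3, [984818244535754528103549039458486304, 273392529303212241658988754551310368])]

theorem card_quartets_base : (quartets (maskSet 8245261)).ncard = 220 ∧
    Nat.card ↥(stabilizer M24 (maskSet 8245261) ⊓ stabilizer M24 (fam 4 quart0)) = 432 := by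
  have h1 := ncard_orbit_mul (stabilizer M24 (maskSet 8245261)) (fam 4 quart0)
  have h2 : 220 ≤ (orbit (stabilizer M24 (maskSet 8245261)) (fam 4 quart0)).ncard :=
    le_trans (by decide +kernel) (le_orbit_fam gDod_spec 3797
      0x1efbbab9f57cf65f67b99b37975f1482fa4f9ef0b87f79dd57deaf356bdab1211cf077eaa96ac5d4df7e57bfbdf5b9c83beeef77d5bd95ceecaab1e585f017a1f6a8f45f44f45f7cf2f24f99d403725183bcc20d9a8 227
      (famOk_of_isQuart isQuart_quart0))
  have h3 : 432 ≤ _ := le_card_of_chk (fun _ => mem_stab_quart) (l := cQ) (by decide +kernel)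
  have h4 : orbit (stabilizer M24 (maskSet 8245261)) (fam 4 quart0) =
      quartets (maskSet 8245261) := by
    ext Q
    constructor
    · rintro ⟨g, rfl⟩
      have := smul_mem_quartets g.1 quart0_mem
      rwa [mem_stabilizer_iff.1 g.2] at this
    · intro hQ
      obtain ⟨g, hg⟩ := trans_quartet dod0_mem hQ
      exact ⟨⟨g, congrArg Prod.fst hg⟩, congrArg Prod.snd hg⟩
  rw [card_stab_dodecad dod0_mem, h4] at h1
  rw [h4] at h2
  constructor <;> nlinarith

theorem ncard_quartets {d : Finset GolayPt} (hd : d ∈ dodecads) : (quartets d).ncard = 220 := by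
  obtain ⟨g, rfl⟩ := trans_dodecads dod0_mem hd
  rw [← card_quartets_base.1]
  refine ncard_sep_smul g fun s => ⟨fun h => ?_, smul_mem_quartets g⟩
  have := smul_mem_quartets g⁻¹ h
  rwa [inv_smul_smul, inv_smul_smul] at this

def gQ : List ℕ :=
  [374580150690791584349992711192303950, 61148949719071824282852700479631668, 374742409984386842812671963412679093, 556347331410893688498349867123836976, 185117650640289427042437113576052146, 195386139066738858576271264839743788, 70605628148534416905507810971159984, 958655006701825780435276204211584192]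

theorem gQ_spec : ∀ g ∈ gQ, pkM24 g = true ∧
    m24 g ∈ stabilizer M24 (maskSet 8245261, fam 4 quart0) :=
  gens_mem (chk := fun g => fixSet g 8245261 && fixFam g 4 quart0) (by decide +kernel)
    fun _ h h1 => (mem_inf_stab _ _ _).1 (mem_stab_quart h h1)

def dQQ : Fin 5 → ℕ × ℕ × ℕ × ℕ :=
  ![(25996741562863876545315868681, 1, 0x0, 1),
    (22592406607013596521264320521, 17, 0xe731412e8, 12),
    (24913544029640968257769832461, 143, 0xe4aeed2bbea0588d90f0, 27),
    (19903755653365957010619629581, 691, 0x2ccdf7aec747b0db5235d2a51d34d90dc64cf72cd7ae757ba0f852e0, 74),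
    (30020046400004020470282190861, 1711, 0x59ef3715f514d725771a4d0f1bac560acd21982502f7357757aa4c674582b7e9d51acd23c72e05fbb8778, 113)]

theorem rank_quart {d : Finset GolayPt} (hd : d ∈ dodecads) {Q : Finset (Finset GolayPt)}
    (hQ : Q ∈ quartets d) : Rank M24 (d, Q) (quartets d) (hist Q) ![1048588, 262726, 16648, 12679, 4741] ![1, 12, 27, 72, 108] :=
  have h : ∀ i, isQuart (dQQ i).1 = true := by decide +kernel
  rank_fam (𝒜 := fun a : Finset GolayPt × Finset (Finset GolayPt) => quartets a.1)
    (Φ := fun a => hist a.2) (fun g _ _ hy => smul_mem_quartets g hy)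
    (fun g _ _ => hist_smul g _ _) _ _ gQ_spec 4 dQQ
    (by decide +kernel) (fun i => mem_quartets_of (h i))
    (fun i => by
      rw [hist_eq (famOk_of_isQuart isQuart_quart0) (famOk_of_isQuart (h i))]
      revert i; decide +kernel) (by decide)
    (by rw [card_quartets_base.1]; decide) (trans_quartet hd hQ)

theorem hist_self_quart {d : Finset GolayPt} (hd : d ∈ dodecads) {Q : Finset (Finset GolayPt)}
    (hQ : Q ∈ quartets d) : hist Q Q = 1048588 := by
  obtain ⟨g, hg⟩ := trans_quartet hd hQ
  have h2 : g • fam 4 quart0 = Q := congrArg Prod.snd hg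
  rw [← h2, hist_smul, hist_eq (famOk_of_isQuart isQuart_quart0) (famOk_of_isQuart isQuart_quart0)]
  decide +kernel

theorem quart_trans_pt {d : Finset GolayPt} (hd : d ∈ dodecads) {Q : Finset (Finset GolayPt)}
    (hQ : Q ∈ quartets d) {p q : GolayPt} (hp : p ∈ d) (hq : q ∈ d) :
    ∃ g : M24, g • (d, Q) = (d, Q) ∧ g • p = q := by
  obtain ⟨u, hu⟩ := trans_quartet hd hQ
  have hu1 : u • maskSet 8245261 = d := congrArg Prod.fst hu
  have key : ∀ p ∈ d, ∃ g ∈ stabilizer M24 (maskSet 8245261, fam 4 quart0),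
      g • idxPt 0 = u⁻¹ • p := fun p hp =>
    trans_of_lower (A := ↑(maskSet 8245261)) (Set.toFinite _)
      (fun g hg y hy => by
        have a1 : g • maskSet 8245261 = maskSet 8245261 := congrArg Prod.fst hg
        rw [← a1]; exact Finset.smul_mem_smul_finset hy)
      ((idxPt_mem_maskSet (by norm_num)).2 (by decide))
      (by rw [Set.ncard_coe_finset, card_maskSet]
          exact le_trans (by decide +kernel) (le_orbit_pt gQ_spec 0xb0e761c48 12 (by norm_num)))
      (by rw [Finset.mem_coe, ← mem_smul_iff u, smul_inv_smul, hu1]; exact hp)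
  obtain ⟨a, ha, a1⟩ := key p hp
  obtain ⟨b, hb, b1⟩ := key q hq
  refine ⟨u * (b * a⁻¹) * u⁻¹, ?_, ?_⟩
  · rw [← hu, conj_smul_iff]; exact Subgroup.mul_mem _ hb (Subgroup.inv_mem _ ha)
  · rw [mul_smul, mul_smul, mul_smul, ← a1, inv_smul_smul, b1, smul_inv_smul]

end Cfsg.Lib.Spor.Orb
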