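import Cfsg.Agent.Spor.HSAut
import Cfsg.Agent.Spor.Co0Order
import Cfsg.Prelude.Def_Spor_Conway

/-! The Higman-Sims group of the Leech lattice as a rank three group on 100 points. -/

set_option autoImplicit false

namespace Cfsg.Lib.Spor.SRG

open MulAction CK

section general

variable {G X : Type*} [Group G] [MulAction G X]

/-- Suborbits of the action of a subgroup on one of its orbits. -/
theorem ncard_orbit_stabilizer_orbit (H : Subgroup G) (x : X) (y : orbit H x) :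
    (orbit (stabilizer H (⟨x, mem_orbit_self x⟩ : orbit H x)) y).ncard =
      (orbit ↥(H ⊓ stabilizer G x) (y : X)).ncard := by
  refine Set.ncard_congr (fun z _ => (z : X)) ?_ (fun _ _ _ _ h => Subtype.ext h) ?_
  · rintro _ ⟨g, rfl⟩
    exact ⟨⟨g.1.1, g.1.2, congrArg Subtype.val g.2⟩, rfl⟩
  · rintro _ ⟨g, rfl⟩
    exact ⟨(⟨g.1, g.2.1⟩ : H) • y, ⟨⟨⟨g.1, g.2.1⟩, Subtype.ext g.2.2⟩, rfl⟩, rfl⟩

/-- The point stabiliser of the action of a subgroup on one of its orbits. -/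
def stabilizerOrbitEquiv (H : Subgroup G) (x : X) :
    stabilizer H (⟨x, mem_orbit_self x⟩ : orbit H x) ≃* ↥(H ⊓ stabilizer G x) where
  toFun g := ⟨g.1.1, g.1.2, congrArg Subtype.val g.2⟩
  invFun g := ⟨⟨g.1, g.2.1⟩, Subtype.ext g.2.2⟩
  left_inv _ := rfl
  right_inv _ := rfl
  map_mul' _ _ := rfl

/-- An action whose point stabiliser is simple and acts nontrivially is faithful. -/
theorem faithful_of_simple_stabilizer (a : X) (hs : IsSimpleGroup (stabilizer G a)) {b : X}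
    (hb : (orbit (stabilizer G a) b).ncard ≠ 1) : FaithfulSMul G X := by
  have key : ∀ g : G, (∀ x : X, g • x = x) → g = 1 := by
    intro g hg
    rcases hs.eq_bot_or_eq_top_of_normal ((toPermHom G X).ker.subgroupOf (stabilizer G a))
      inferInstance with h | h
    · have : (⟨g, hg a⟩ : stabilizer G a) ∈ (toPermHom G X).ker.subgroupOf (stabilizer G a) :=
        Equiv.ext hg
      rw [h, Subgroup.mem_bot] at this
      exact congrArg Subtype.val this
    · refine absurd (Set.ncard_eq_one.2 ⟨b, Set.eq_singleton_iff_unique_mem.2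
        ⟨mem_orbit_self b, ?_⟩⟩) hb
      rintro _ ⟨k, rfl⟩
      have : k ∈ (toPermHom G X).ker.subgroupOf (stabilizer G a) := h ▸ Subgroup.mem_top k
      exact congrArg (fun f : Equiv.Perm X => f b) (MonoidHom.mem_ker.1 this)
  refine ⟨fun {g k} h => ?_⟩
  rw [← inv_mul_eq_one]
  exact key _ fun x => by rw [mul_smul, ← h, inv_smul_smul]

end general

/-- `Spor.HS` as a subgroup of `Co0`. -/
def hsEquiv : Spor.HS ≃* sHS where
  toFun g := ⟨⟨g.1, g.2.1.1⟩, show (⟨g.1, g.2.1.1⟩ : Co0) • (-Spor.leechV) = -Spor.leechV by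
    rw [co0_smul_neg]; exact congrArg Neg.neg g.2.1.2, g.2.2⟩
  invFun g := ⟨g.1.1, ⟨g.1.2, neg_injective ((co0_smul_neg g.1 _).symm.trans g.2.1)⟩, g.2.2⟩
  left_inv _ := rfl
  right_inv _ := rfl
  map_mul' _ _ := rfl

/-- `Spor.McL` as a subgroup of `Co0`. -/
def mclEquiv : Spor.McL ≃* sMcL where
  toFun g := ⟨⟨g.1, g.2.1.1⟩, show (⟨g.1, g.2.1.1⟩ : Co0) • (-Spor.leechV) = -Spor.leechV by
    rw [co0_smul_neg]; exact congrArg Neg.neg g.2.1.2, g.2.2⟩
  invFun g := ⟨g.1.1, ⟨g.1.2, neg_injective ((co0_smul_neg g.1 _).symm.trans g.2.1)⟩, g.2.2⟩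
  left_inv _ := rfl
  right_inv _ := rfl
  map_mul' _ _ := rfl

theorem sHS_rank3 : ∃ b c : orbit sHS uu,
    (orbit (stabilizer sHS (⟨uu, mem_orbit_self uu⟩ : orbit sHS uu)) b).ncard = 22 ∧
    (orbit (stabilizer sHS (⟨uu, mem_orbit_self uu⟩ : orbit sHS uu)) c).ncard = 77 := by
  obtain ⟨x, h1, -, h2, -⟩ := rank_100.exists_reps (H := sHS ⊓ stabilizer Co0 uu)
    (fun g => by rw [← stabilizer_triple]; rfl)
  exact ⟨⟨x 2, orbit_100.1 ▸ h1 2⟩, ⟨x 1, orbit_100.1 ▸ h1 1⟩,
    (ncard_orbit_stabilizer_orbit _ _ _).trans (h2 2),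
    (ncard_orbit_stabilizer_orbit _ _ _).trans (h2 1)⟩

theorem card_orbit_sHS : Nat.card (orbit sHS uu) = 100 := by
  rw [Nat.card_coe_set_eq, orbit_100.1, orbit_100.2]

theorem faithful_sHS : FaithfulSMul sHS (orbit sHS uu) := by
  obtain ⟨b, -, hb, -⟩ := sHS_rank3
  exact faithful_of_simple_stabilizer _ ((stabilizerOrbitEquiv sHS uu).trans
    (MulEquiv.subgroupCongr stab_hs_uu)).isSimpleGroup (b := b) (by rw [hb]; norm_num)

/-- Recognition of `HS` as a rank three group of order 44352000. -/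
theorem isoHS_of_rank3 {G Ω : Type*} [Group G] [MulAction G Ω] [Finite Ω] [FaithfulSMul G Ω]
    [IsPretransitive G Ω] (hΩ : Nat.card Ω = 100) {a b c : Ω}
    (hb : (orbit (stabilizer G a) b).ncard = 22) (hc : (orbit (stabilizer G a) c).ncard = 77)
    (hG : Nat.card G = 44352000) : Spor.IsoHS G := by
  obtain ⟨b', c', hb', hc'⟩ := sHS_rank3
  have := faithful_sHS
  have : Finite (orbit sHS uu) := Nat.finite_of_card_ne_zero (by rw [card_orbit_sHS]; norm_num)
  obtain ⟨-, ⟨e⟩⟩ := hs_equiv_of_rank3 hΩ hb hc hG card_orbit_sHS hb' hc' card_sHS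
  exact ⟨e.trans hsEquiv.symm⟩

theorem isSimpleGroup_sHS : IsSimpleGroup sHS := by
  obtain ⟨b', c', hb', hc'⟩ := sHS_rank3
  have := faithful_sHS
  have : Finite (orbit sHS uu) := Nat.finite_of_card_ne_zero (by rw [card_orbit_sHS]; norm_num)
  exact (hs_equiv_of_rank3 card_orbit_sHS hb' hc' card_sHS card_orbit_sHS hb' hc' card_sHS).1

theorem isSimpleGroup_HS : IsSimpleGroup Spor.HS := by
  have := isSimpleGroup_sHS
  exact hsEquiv.isSimpleGroup

theorem card_HS : Nat.card Spor.HS = 44352000 := (Nat.card_congr hsEquiv.toEquiv).trans card_sHS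

/-- A group of order 44352000 acting faithfully on a Higman-Sims graph is `HS`. -/
theorem isoHS_of_injective {V : Type*} [Finite V] {Γ : SimpleGraph V} (hΓ : IsSRG Γ 100 22 0 6)
    {G : Type*} [Group G] (f : G →* (Γ ≃g Γ)) (hf : Function.Injective f)
    (hG : Nat.card G = 44352000) : Spor.IsoHS G := by
  obtain ⟨b', c', hb', hc'⟩ := sHS_rank3
  have := faithful_sHS
  have : Finite (orbit sHS uu) := Nat.finite_of_card_ne_zero (by rw [card_orbit_sHS]; norm_num)
  obtain ⟨-, ⟨e⟩⟩ := hs_equiv_of_injective hΓ (hs_of_rank3 card_orbit_sHS hb' hc') f hf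
    (toAut _ fun g _ _ => orbGraph_smul_iff g) (toAut_injective _ _) hG card_sHS
  exact ⟨e.trans hsEquiv.symm⟩

end Cfsg.Lib.Spor.SRG
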