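import Cfsg.Agent.Known.SylowCount

/-! Counting Sylow subgroups of order 25 which meet a given one. -/

set_option autoImplicit false

namespace Cfsg.Lib.Spor.R3

open Subgroup Pointwise

variable {J : Type*} [Group J] [Finite J]

theorem card_dvd_ncard_ti {p : ℕ} [Fact p.Prime] (R : Sylow p J) :
    Nat.card (R : Subgroup J) ∣ {Q : Sylow p J | ∀ y ∈ Q, y ∈ R → y = 1}.ncard := by
  let F : SubMulAction (R : Subgroup J) (Sylow p J) :=
    ⟨{Q | ∀ y ∈ Q, y ∈ R → y = 1}, fun g Q hQ y hy hR => by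
      have h1 : (g : J)⁻¹ * y * g ∈ (Q : Subgroup J) := by
        have : y ∈ (MulAut.conj (g : J) • (Q : Subgroup J)) := hy
        rw [mem_pointwise_smul_iff_inv_smul_mem] at this
        simpa using this
      have := hQ _ h1 (mul_mem (mul_mem (inv_mem g.2) hR) g.2)
      simpa [mul_assoc] using congrArg (fun z => (g : J) * z * (g : J)⁻¹) this⟩
  have h : ∀ Q : F, MulAction.stabilizer (R : Subgroup J) Q = ⊥ := fun Q =>
    eq_bot_iff.2 fun g hg => by
      have h1 : (g : J) • Q.1 = Q.1 := congrArg Subtype.val hg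
      have h2 : (g : J) ∈ (R : Subgroup J) ⊓ normalizer Q.1 :=
        ⟨g.2, Sylow.smul_eq_iff_mem_normalizer.1 h1⟩
      rw [R.isPGroup'.inf_normalizer_sylow] at h2
      exact Subtype.ext (Q.2 _ h2.2 g.2)
  have := Nat.card_congr (MulAction.selfEquivOrbitsQuotientProd h)
  rw [Nat.card_prod] at this
  exact ⟨_, (show _ = Nat.card F from rfl).trans (this.trans (mul_comm _ _))⟩

theorem ncard_sylow_mem_le [Fact (Nat.Prime 5)] (R : Sylow 5 J) (hR : Nat.card (R : Subgroup J) = 25)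
    {x : J} (hx : x ∈ R) (hC : Nat.card (centralizer {x}) ≤ 300) (h11 : ¬ 11 ∣ Nat.card J) :
    {Q : Sylow 5 J | x ∈ Q}.ncard ≤ 6 ∧
      (Nat.card (centralizer {x}) < 150 → {Q : Sylow 5 J | x ∈ Q}.ncard ≤ 1) := by
  have h1 : ∀ Q : Sylow 5 J, x ∈ Q → (Q : Subgroup J) ≤ centralizer {x} := fun Q hQ y hy => by
    have := IsPGroup.isMulCommutative_of_card_eq_prime_sq (p := 5) (G := (Q : Subgroup J))
      ((Known.SC.sylow_card_eq Q R).trans hR)
    exact mem_centralizer_singleton_iff.2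
      (congrArg Subtype.val (this.is_comm.comm (⟨y, hy⟩ : (Q : Subgroup J)) ⟨x, hQ⟩))
  have h2 : {Q : Sylow 5 J | x ∈ Q}.ncard ≤ Nat.card (Sylow 5 (centralizer {x})) :=
    Nat.card_le_card_of_injective
      (fun Q : {Q : Sylow 5 J | x ∈ Q} => Q.1.subtype (h1 _ Q.2))
      fun _ _ h => Subtype.ext (Sylow.subtype_injective h)
  have h3 : _ % 5 = 1 % 5 := card_sylow_modEq_one 5 (centralizer {x})
  have h4 := (R.subtype (h1 R hx)).card_dvd_index
  have h5 := (R.subtype (h1 R hx) : Subgroup (centralizer {x})).card_mul_index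
  rw [show Nat.card (R.subtype (h1 R hx) : Subgroup (centralizer {x})) = 25 from
    (Nat.card_congr (subgroupOfEquivOfLe (h1 R hx)).toEquiv).trans hR] at h5
  have h6 : Nat.card (Sylow 5 (centralizer {x})) ≠ 11 := fun h => h11
    ((h ▸ h4).trans ((Dvd.intro_left _ h5).trans (card_subgroup_dvd_card _)))
  have h7 := Nat.le_of_dvd (Nat.pos_of_ne_zero index_ne_zero_of_finite) h4
  omega

theorem exists_big [Fact (Nat.Prime 5)] (R : Sylow 5 J) (hR : Nat.card (R : Subgroup J) = 25)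
    {ι : Type*} {x : ι → J} (hx : ∀ i, x i ∈ R) (hc : ∀ r ∈ R, r ≠ 1 → ∃ i, x i ∈ zpowers r)
    (hC : ∀ i, Nat.card (centralizer {x i}) ≤ 300) (h11 : ¬ 11 ∣ Nat.card J)
    (hn : 14 ≤ Nat.card (Sylow 5 J) % 25) (i j : ι) :
    ∃ k, k ≠ i ∧ k ≠ j ∧ 150 ≤ Nat.card (centralizer {x k}) := by
  by_contra h
  push Not at h
  have h1 := card_dvd_ncard_ti R
  have h2 := Set.ncard_add_ncard_compl {Q : Sylow 5 J | ∀ y ∈ Q, y ∈ R → y = 1}
  have h3 : {Q : Sylow 5 J | ∀ y ∈ Q, y ∈ R → y = 1}ᶜ ⊆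
      insert R ({Q | x i ∈ Q} ∪ {Q | x j ∈ Q}) := fun Q hQ => by
    simp only [Set.mem_compl_iff, Set.mem_ofPred_eq, not_forall] at hQ
    obtain ⟨y, h1, h2, h3⟩ := hQ
    obtain ⟨k, hk⟩ := hc y h2 h3
    have h4 : x k ∈ Q := zpowers_le (H := (Q : Subgroup J)).2 h1 hk
    by_cases e1 : k = i
    · exact Or.inr (Or.inl (e1 ▸ h4))
    by_cases e2 : k = j
    · exact Or.inr (Or.inr (e2 ▸ h4))
    exact Or.inl ((Set.ncard_le_one_iff (Set.toFinite _)).1
      ((ncard_sylow_mem_le R hR (hx k) (hC k) h11).2 (h k e1 e2)) h4 (hx k))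
  have h4 := (Set.ncard_le_ncard h3 (Set.toFinite _)).trans ((Set.ncard_insert_le _ _).trans
    (Nat.add_le_add_right (Set.ncard_union_le _ _) 1))
  have h5 := (ncard_sylow_mem_le R hR (hx i) (hC i) h11).1
  have h6 := (ncard_sylow_mem_le R hR (hx j) (hC j) h11).1
  rw [hR] at h1
  omega

theorem sq_mem_of_card {C K : Subgroup J} (h : K ≤ C) (hc : Nat.card C ≤ 2 * Nat.card K) {y : J}
    (hy : y ∈ C) : y * y ∈ K := by
  have h1 := (K.subgroupOf C).card_mul_index
  rw [Nat.card_congr (subgroupOfEquivOfLe h).toEquiv] at h1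
  have h2 : (K.subgroupOf C).index ≤ 2 :=
    Nat.le_of_mul_le_mul_left (by rw [h1, mul_comm]; exact hc) (Nat.card_pos (α := K))
  have h3 : (K.subgroupOf C).index ≠ 0 := index_ne_zero_of_finite
  rcases (by omega : (K.subgroupOf C).index = 1 ∨ (K.subgroupOf C).index = 2) with h4 | h4
  · exact (index_eq_one.1 h4).ge (mem_top (⟨y * y, mul_mem hy hy⟩ : C))
  · exact mul_self_mem_of_index_two h4 ⟨y, hy⟩

/-- Version for a subgroup `K` of a subgroup `H`. -/
theorem exists_big' [Fact (Nat.Prime 5)] {H K R : Subgroup J} (hK : K ≤ H) (hRK : R ≤ K)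
    (hR : Nat.card R = 25) (hK' : Nat.card K = 604800) (hN : Nat.card (normalizer (R : Set J)) = 600)
    {ι : Type*} {x : ι → J} (hx : ∀ i, x i ∈ R) (hc : ∀ r ∈ R, r ≠ 1 → ∃ i, x i ∈ zpowers r)
    (hC : ∀ i, Nat.card ↥(centralizer {x i} ⊓ H) ≤ 300) (i j : ι) :
    ∃ k, k ≠ i ∧ k ≠ j ∧ ∀ y ∈ centralizer {x k} ⊓ H, y * y ∈ K := by
  have h1 : Nat.card (R.subgroupOf K) = 5 ^ 2 :=
    (Nat.card_congr (subgroupOfEquivOfLe hRK).toEquiv).trans hR
  have h2 := (R.subgroupOf K).card_mul_index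
  rw [h1, hK'] at h2
  let P : Sylow 5 K := (IsPGroup.of_card h1).toSylow (by omega)
  have h3 : ∀ i, Nat.card (centralizer {(⟨x i, hRK (hx i)⟩ : K)}) =
      Nat.card ↥(centralizer {x i} ⊓ K) := fun i => by
    rw [← Nat.card_congr (subgroupOfEquivOfLe (inf_le_right (a := centralizer {x i}))).toEquiv]
    congr 2
    ext y
    simp [mem_subgroupOf, mem_centralizer_singleton_iff, Subtype.ext_iff]
  have h4 : Nat.card (normalizer ((P : Subgroup K) : Set K)) ∣ 600 := by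
    rw [← hN, ← card_map_of_injective K.subtype_injective]
    refine card_dvd_of_le ?_
    have := le_normalizer_map (H := (P : Subgroup K)) K.subtype
    rwa [show (P : Subgroup K).map K.subtype = R from map_subgroupOf_eq_of_le hRK] at this
  have h5 := Known.SC.card_normalizer_mul_card_sylow P
  have h6 : _ % 5 = 1 % 5 := card_sylow_modEq_one 5 K
  obtain ⟨d, hd⟩ : 25 ∣ Nat.card (normalizer ((P : Subgroup K) : Set K)) :=
    (show _ = 25 from h1) ▸ card_dvd_of_le (le_normalizer (H := (P : Subgroup K)))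
  rw [hd] at h4 h5
  have h7 : d ∣ 24 := Nat.dvd_of_mul_dvd_mul_left (by norm_num : 0 < 25) h4
  have h8 := Nat.le_of_dvd (by norm_num) h7
  obtain ⟨k, a1, a2, a3⟩ := exists_big P h1 (x := fun i => ⟨x i, hRK (hx i)⟩) hx
    (fun r hr r1 => (hc r hr fun e => r1 (Subtype.ext e)).imp fun _ ⟨m, hm⟩ => ⟨m, Subtype.ext hm⟩)
    (fun i => (h3 i).trans_le ((card_le_of_le (inf_le_inf_left _ hK)).trans (hC i)))
    (by rw [hK']; norm_num) (by rw [hK'] at h5; interval_cases d <;> omega) i j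
  refine ⟨k, a1, a2, fun y hy => (sq_mem_of_card (inf_le_inf_left _ hK) ?_ hy).2⟩
  have := hC k
  rw [h3] at a3
  omega

end Cfsg.Lib.Spor.R3
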