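import Cfsg.Agent.Spor.SuzWM
import Cfsg.Agent.Spor.WMSub
import Cfsg.Agent.Known.G24Mult

/-! The point stabiliser in the Suzuki group is `G₂(4)`. -/

set_option autoImplicit false
set_option maxRecDepth 100000

namespace Cfsg.Lib.Spor.SuzP

open Cfsg.Lib.Spor.Bulk Cfsg.Lib.Spor.WM Cfsg.Lib.Known

noncomputable def g_T : FT := (.node (nat_lit 4) (.node (nat_lit 2) (.node (nat_lit 1) (.leaf id) (.leaf (lk t1))) (.node (nat_lit 3) (.leaf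
    (lk t2)) (.leaf (lk t3)))) (.node (nat_lit 6) (.node (nat_lit 5) (.leaf (lk t4)) (.leaf (lk t5))) (.node
    (nat_lit 7) (.leaf (lk t6)) (.node (nat_lit 8) (.leaf (lk t7)) (.leaf id)))))
theorem g_good : Good ρ g_T 6 63 base :=
  ⟨(.node (.node (.node (.leaf (acts_id ρ)) (.leaf t1_ok)) (.node (.leaf t2_ok) (.leaf t3_ok))) (.node (.node
    (.leaf t4_ok) (.leaf t5_ok)) (.node (.leaf t6_ok) (.node (.leaf t7_ok) (.leaf (acts_id ρ)))))), acts_id ρ, by decide, rfl, isBase⟩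
theorem g_acts : ∀ l < 8, Acts ρ (g_T.fn l) (g0 l) := fun l hl => by
  interval_cases l
  exacts [sat.zero ▸ acts_id ρ, t1_g, t2_g, t3_g, t4_g, t5_g, t6_g, t7_g]
theorem equiv_G24 : Nonempty (gW g0 [[1],[2],[3],[4],[5],[6]] ≃* Lie.chevG2.group Class.GF4) := by
  obtain ⟨a, ha⟩ := g24p_pres
  have : Finite (Lie.chevG2.group Class.GF4) := Nat.finite_of_card_ne_zero (by rw [g24_card]; norm_num)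
  refine g_good.equiv_of_pres ha (by norm_num) g_acts
    [[3,4,3,2,1,2,1,6,2,1,2,5,3,4,3,5,2,3,4,3,2,5,4,3,2,1,6,2,1,3],[3,1,2,6,1,2,3,4,5,2,3,4,3,2,5,3,4,3,2,1,2,6,1,
  2,1,5,2,3,4,3],[5,4,3,2,6,4,5,4,2,3,4,2,3,1,2,5,4,6,2,1,3,2,4,3,4,5,4,3,2],[2,6,3,4,2,3,4,5,1,2,3,4,3,2,4,1,3,
  2,3,4,3,2,5,4,6,2],[2,1,2,3,2,6,4,1,2,1,6,3,4,5,3,4,3,2,1,6,2,1,2,3,4,2,3,4,3,2,1],[6,4,3,4,5,2,1,2,3,4,2,3,1,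
  2,5,4,1,3,4,3,6,2,1,2,3,2,1,4,3,2],[3,2,6,2,1,2,3,4,5,4,3,4,2,3,1,2,4,5,3,4,3,2,1,6,2,3,2,4,3,2,4,5,4,6,2]]
    [[3,4,3,2,1,2,1,6,2,1,2,5,3,4,3,5,2,3,4,3,2,5,4,3,2,1,6,2,1,3],[3,1,2,6,1,2,3,4,5,2,3,4,3,2,5,3,4,3,2,1,2,6,1,
  2,1,5,2,3,4,3],[5,4,3,2,6,4,5,4,2,3,4,2,3,1,2,5,4,6,2,1,3,2,4,3,4,5,4,3,2],[2,6,3,4,2,3,4,5,1,2,3,4,3,2,4,1,3,
  2,3,4,3,2,5,4,6,2],[2,1,2,3,2,6,4,1,2,1,6,3,4,5,3,4,3,2,1,6,2,1,2,3,4,2,3,4,3,2,1],[6,4,3,4,5,2,1,2,3,4,2,3,1,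
  2,5,4,1,3,4,3,6,2,1,2,3,2,1,4,3,2],[3,2,6,2,1,2,3,4,5,4,3,4,2,3,1,2,4,5,3,4,3,2,1,6,2,3,2,4,3,2,4,5,4,6,2]]
    [[5,3,7,3,7,4,7,3,6,4,7,1,1,7,3,1,4],[5,1,7,2,4,7,1,4,7,2,2,2,6],[2,6,1,5,2,5,5,1,5],[1,3,1,4,7,3,2,2,2,7,4,2,
  3,2],[6,3,6,2,4,7,1,7,1,4,2,3],[5,2,6,2,5,3,6,7,6,3,5,1,3,7,3,6,7]] (by decide +kernel) ?_
  rw [g24_card, show gW g0 [[1],[2],[3],[4],[5],[6]] = _ from gW_sing g0 [1,2,3,4,5,6],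
    ← Subgroup.card_map_of_injective injective, map_gL ρ_g0 (by decide +kernel)]
  exact low_abcdef

end Cfsg.Lib.Spor.SuzP
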