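import Cfsg.Agent.Spor.R3SuzK
import Cfsg.Agent.Spor.R3Five
import Cfsg.Agent.Spor.SuzG24

/-! Recognition of the Suzuki group as a rank three group. -/

set_option autoImplicit false

namespace Cfsg.Lib.Spor.R3S

open Cfsg.Lib.Spor.Bulk Cfsg.Lib.Spor.WM Cfsg.Lib.Spor.SuzP Cfsg.Lib.Spor.SzK Cfsg.Lib.Spor.SuzL
open Cfsg.Lib.Spor.R3 Cfsg.Lib.Spor.SRG Subgroup MulAction

theorem params {V : Type*} [Finite V] {Γ : SimpleGraph V} {l m : ℕ} (h : IsSRG Γ 1782 416 l m) :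
    l = 100 ∧ m = 96 := by
  classical
  have := Fintype.ofFinite V
  have h1 := (isSRG_iff.1 h).param_eq Γ (by norm_num)
  have h2 := h.lambda_lt (by norm_num) (by norm_num)
  have h3 : l = 415 ∧ m = 0 ∨ l = 310 ∧ m = 32 ∨ l = 205 ∧ m = 64 ∨ l = 100 ∧ m = 96 := by omega
  rcases h3 with ⟨rfl, rfl⟩ | ⟨rfl, rfl⟩ | ⟨rfl, rfl⟩ | h3
  · exact absurd (h.trace_cond 139 (by norm_num) 1 0 (by decide +kernel) (by decide +kernel)
      (by decide +kernel)) (by decide +kernel)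
  · exact absurd (h.trace_cond 563 (by norm_num) 424 445 (by decide +kernel) (by decide +kernel)
      (by decide +kernel)) (by decide +kernel)
  · exact absurd (h.trace_cond 61 (by norm_num) 21 18 (by decide +kernel) (by decide +kernel)
      (by decide +kernel)) (by decide +kernel)
  · exact h3

theorem ctx : Ctx ρ e0 sz_T 11 8 tb base :=
  ⟨sz_nets, sz_w, fun l hl => (congrArg ρ (e0_eq l hl)).trans (ρ_g0 l hl),
    fun l => ft_ok l (Nat.zero_le l), isBase, by decide⟩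

/-- the base point -/
def pa : PK.Via ρ := (⟨0, by norm_num⟩ : Fin 1782)
/-- a neighbour -/
def pb : PK.Via ρ := (⟨995, by norm_num⟩ : Fin 1782)
/-- a point at distance two -/
def pc : PK.Via ρ := (⟨1, by norm_num⟩ : Fin 1782)

theorem pa_eq_1 : type_of% @pa.eq_1 := @pa.eq_1
theorem pb_eq_1 : type_of% @pb.eq_1 := @pb.eq_1
theorem pc_eq_1 : type_of% @pc.eq_1 := @pc.eq_1

instance instFiniteVia : Finite (PK.Via ρ) := inferInstanceAs (Finite (Fin 1782))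

instance instTransVia : IsPretransitive Cfsg.Spor.Suz (PK.Via ρ) := ⟨fun a b => by
  obtain ⟨x, rfl⟩ := model.trans a
  obtain ⟨y, rfl⟩ := model.trans b
  exact ⟨y * x⁻¹, show ρ (y * x⁻¹) _ = _ by simp⟩⟩

instance instFaithVia : FaithfulSMul Cfsg.Spor.Suz (PK.Via ρ) :=
  ⟨fun h => injective (Equiv.ext h)⟩

instance instFiniteSuz : Finite Cfsg.Spor.Suz := ctx.finite

theorem stab_g : stabilizer Cfsg.Spor.Suz pa = gW g0 six := Subgroup.ext fun x => (model.stab x).symm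

theorem stab_e : stabilizer Cfsg.Spor.Suz pa = gW e0 six :=
  stab_g.trans (((map_id _).symm.trans (map_gW (f := MonoidHom.id _) (k := 8)
    (fun l hl => (e0_eq l hl).symm) (by decide +kernel))))

theorem card_stab : Nat.card (stabilizer Cfsg.Spor.Suz pa) = 251596800 := by
  obtain ⟨f⟩ := equiv_G24
  rw [stab_g, ← Known.g24_card]
  exact Nat.card_congr f.toEquiv

theorem orbit_eq (x : PK.Via ρ) :
    orbit (stabilizer Cfsg.Spor.Suz pa) x = orb ρ (gW e0 six) x := by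
  rw [stab_e]
  ext q
  exact ⟨fun ⟨x, hx⟩ => ⟨x, x.2, hx⟩, fun ⟨x, h, hx⟩ => ⟨⟨x, h⟩, hx⟩⟩

theorem orbit_b : orbit (stabilizer Cfsg.Spor.Suz pa) pb = bset 1782 mD :=
  (orbit_eq _).trans (orb_eq ctx (by decide +kernel) (band_iff'.1 (band_iff'.1 k_D).1).1)

theorem orbit_c : orbit (stabilizer Cfsg.Spor.Suz pa) pc = bset 1782 mE :=
  (orbit_eq _).trans (orb_eq ctx (by decide +kernel) (band_iff'.1 (band_iff'.1 k_D).1).2)

/-- the graph -/
noncomputable def gr : SimpleGraph (PK.Via ρ) := orbGraph Cfsg.Spor.Suz pa pb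

theorem gr_eq_1 : type_of% @gr.eq_1 := @gr.eq_1

theorem mod0 : Mod Cfsg.Spor.Suz gr pa pb pc 416 1365 :=
  mod_orbGraph ((congrArg Set.ncard orbit_b).trans ((ncard_bset sz_w mD).trans
      (Nat.eq_of_beq_eq_true (band_iff'.1 (band_iff'.1 k_D).2).1)))
    ((congrArg Set.ncard orbit_c).trans ((ncard_bset sz_w mE).trans
      (Nat.eq_of_beq_eq_true (band_iff'.1 (band_iff'.1 k_D).2).2)))
    (by norm_num) (by norm_num) (by norm_num) (Nat.card_fin 1782)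

theorem gr0 : Gr ρ gr 0 mD :=
  ⟨mod0.inv, fun x y h => by
    obtain rfl : x = pa := Fin.ext h
    exact (mod0.adj y).trans (orbit_b ▸ Iff.rfl)⟩

theorem mem_of_fx0 {W : List ℕ} (h : fx0 W = true) : wv e0 W ∈ stabilizer Cfsg.Spor.Suz pa :=
  Fin.ext ((ctx.ap_eq W pa).symm.trans (Nat.eq_of_beq_eq_true h))

theorem six_cases (p : Fin 6 → Prop) (h : ∀ i j, ∃ k, k ≠ i ∧ k ≠ j ∧ p k) :
    (p 0 ∧ p 1 ∨ p 0 ∧ p 2 ∨ p 1 ∧ p 2) ∨ p 3 ∧ p 4 ∨ p 3 ∧ p 5 ∨ p 4 ∧ p 5 := by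
  classical
  have : ∀ q : Fin 6 → Bool, (∀ i j, ∃ k, k ≠ i ∧ k ≠ j ∧ q k = true) →
      (q 0 = true ∧ q 1 = true ∨ q 0 = true ∧ q 2 = true ∨ q 1 = true ∧ q 2 = true) ∨
        q 3 = true ∧ q 4 = true ∨ q 3 = true ∧ q 5 = true ∨ q 4 = true ∧ q 5 = true := by
    decide +kernel
  simpa using this (fun i => decide (p i)) (by simpa using h)

theorem card_R : Nat.card (gL e0 lP) = 5 ^ 2 := ctx.card_pc Nat.prime_five (ctx.pc k_pP) k_nP

theorem card_NR : Nat.card (normalizer (gL e0 lP : Set Cfsg.Spor.Suz)) = 600 := by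
  have := Fact.mk Nat.prime_five
  have h := (gL e0 lP).card_mul_index
  rw [card_R, card] at h
  exact (md0.five ((IsPGroup.of_card card_R).toSylow (by omega))).2.1

theorem wl_replicate (W : List ℕ) (m : ℕ) : wl e0 (List.replicate m W) = wv e0 W ^ m := by
  induction m with
  | zero => simp [wl]
  | succ m ih => rw [List.replicate_succ, wl, ih, pow_succ]

theorem cov {r : Cfsg.Spor.Suz} (hr : r ∈ gL e0 lP) (h1 : r ≠ 1) :
    ∃ i : Fin 6, wv e0 (getN [] xs i) ∈ zpowers r := by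
  obtain ⟨W, i, e1, e2, -, h⟩ := ctx.forall_nf (by norm_num) (ctx.pc k_pP) k_cov hr
  rcases orB_iff.1 h with h | h
  · rw [Nat.eq_of_beq_eq_true h, nf_zero] at e2
    exact absurd e2.symm h1
  simp only [notB_iff, allL_iff, not_forall, not_not, ctx.eqB_iff, wl_replicate, e1] at h
  obtain ⟨X, hX, m, -, h⟩ := h
  obtain ⟨j, hj, rfl⟩ := List.getElem_of_mem hX
  refine ⟨⟨j, hj⟩, ?_⟩
  rw [getN_eq, List.getD_eq_getElem _ _ hj, ← (h.trans (one_mul _))]
  exact pow_mem (mem_zpowers r) m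

theorem fix_of_five {K : Subgroup Cfsg.Spor.Suz} (hc : Nat.card K = 604800)
    (h : ∀ W ∈ [[1], [2], [3], [4], [5]], wv e0 W ∈ K) : ∀ s ∈ K, s • pb = pb := by
  have h1 : gL e0 [1, 2, 3, 4, 5] ≤ K := gL_le (by simpa [wv_one] using h)
  have h2 := low_abcde
  rw [← map_gL ctx.hρ (by decide +kernel), card_map_of_injective injective] at h2
  rw [← eq_of_le_of_card_ge h1 (hc.trans_le h2)]
  exact gL_le (K := stabilizer _ pb) fun l hl =>
    Fin.ext ((ctx.acts l pb).symm.trans (Nat.eq_of_beq_eq_true (allL_iff.1 k_fx l hl)))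

theorem fix_b {K : Subgroup Cfsg.Spor.Suz} (hK : K ≤ stabilizer _ pa) (hR : gL e0 lP ≤ K)
    (hc : Nat.card K = 604800) : ∀ s ∈ K, s • pb = pb := by
  have := Fact.mk Nat.prime_five
  have hk := k_cen
  simp only [band_iff', Nat.beq_eq] at hk
  have h1 := six_cases (fun i => wv e0 (getN [] ys i ++ getN [] ys i) ∈ K) fun i j => by
    obtain ⟨k, a1, a2, a3⟩ := exists_big' hK hR card_R hc card_NR
      (x := fun i : Fin 6 => wv e0 (getN [] xs i))
      (fun i => gW_le_gL (hk i).2.2 (mem_gW List.mem_cons_self)) (fun _ => cov) (fun i => by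
        have := (ctx.cent_in (N := centralizer {wv e0 (getN [] xs i)} ⊓ stabilizer _ pa) inf_le_right
          (fun _ => mem_of_fx0) (by simp) (hk i).1.1).2
        rw [(hk i).1.2.1, (hk i).1.2.2] at this
        exact this card_stab.le) i j
    exact ⟨k, a1, a2, wv_append e0 _ _ ▸ a3 _
      ⟨ctx.com (hk k).2.1.1 _ List.mem_cons_self, mem_of_fx0 (hk k).2.1.2⟩⟩
  have h2 : ∀ {i j : ℕ}, wv e0 (getN [] ys i ++ getN [] ys i) ∈ K ∧
      wv e0 (getN [] ys j ++ getN [] ys j) ∈ K → ∀ V ∈ gns i j, wv e0 V ∈ K := fun h =>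
    List.forall_mem_cons.2 ⟨wv_one e0 _ ▸ hR (mem_gL (by decide)), List.forall_mem_cons.2
      ⟨wv_one e0 _ ▸ hR (mem_gL (by decide)), List.forall_mem_cons.2 ⟨h.1, by simpa using h.2⟩⟩⟩
  have h3 : ¬ 13 ∣ Nat.card K := by rw [hc]; norm_num
  rcases h1 with (h | h | h) | h | h | h
  · exact absurd (dvd_of_ordB ctx (h2 h) (by norm_num) k_l01) h3
  · exact absurd (dvd_of_ordB ctx (h2 h) (by norm_num) k_l02) h3
  · exact absurd (dvd_of_ordB ctx (h2 h) (by norm_num) k_l12) h3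
  · exact fix_of_five hc (mem_of_exB ctx (h2 h) k_s34)
  · exact fix_of_five hc (mem_of_exB ctx (h2 h) k_s35)
  · exact fix_of_five hc (mem_of_exB ctx (h2 h) k_s45)

theorem exists_b {J : Subgroup Cfsg.Spor.Suz} (hJ : J ≤ stabilizer _ pa)
    (hc : Nat.card J * 416 = Nat.card (stabilizer Cfsg.Spor.Suz pa)) :
    ∃ y, gr.Adj pa y ∧ ∀ s ∈ J, s • y = y := by
  rw [card_stab] at hc
  obtain ⟨h, a1, K, a2, a3, a4, a5⟩ := exists_conj_sub (m := 2) Nat.prime_five hJ (by omega)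
    (by rw [card_stab]; norm_num) (Q := gL e0 lP) (gL_le fun l hl => wv_one e0 l ▸ mem_of_fx0
      (allL_iff.1 (by decide +kernel : allL (fun l => fx0 [l]) lP = true) l hl))
    (IsPGroup.of_card card_R)
  refine ⟨h • pb, (mod0.adj _).2 ⟨⟨h, a1⟩, rfl⟩, fun s hs => ?_⟩
  have := fix_b a3 a2 (by omega) (h⁻¹ * s * h) ((a5 _).2 (by simpa [mul_assoc] using hs))
  rwa [mul_smul, mul_smul, inv_smul_eq_iff] at this

theorem fix_c {K : Subgroup Cfsg.Spor.Suz} (hK : K ≤ stabilizer _ pa)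
    (hU : gW e0 (cU.map Prod.fst) ≤ K) {Y : Set (PK.Via ρ)} (h1 : ∀ y ∈ Y, gr.Adj pa y)
    (h2 : Y.ncard = 96) (h3 : InvS K Y) : ∀ s ∈ K, s • pc = pc := by
  have hl := (band_iff'.1 (band_iff'.1 k_Ug).2).1
  obtain ⟨A, a1, h⟩ := gr0.parts ctx hl (forall_mem_gW e0 _) k_mu
  obtain ⟨B, a2, h⟩ := gr0.parts ctx hl (forall_mem_gW e0 _) h
  obtain ⟨a3, h⟩ := band_iff'.1 h
  obtain ⟨M, a4, h⟩ := a1.sub h (Y := Y) (fun g hg => h3 g (hU hg))
    fun y hy => (gr0.adj pa y rfl).1 (h1 y hy)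
  have a5 : Inv ρ K M := inv_of_bset a4 h3
  have a6 := fun t M => gr0.inv_lev sz_w hU (a1.append a2) a3 t (M := M)
  have a7 : Inv ρ K mE := inv_of_bset orbit_c.symm fun g hg _ ⟨x, hx⟩ =>
    ⟨⟨g, hK hg⟩ * x, (mul_smul _ _ _).trans (congrArg (g • ·) hx)⟩
  intro s hs
  refine fix_of_inv (c := pc) ?_ hs
  simp only [muB, orB_iff, notB_iff, Nat.beq_eq, Known.PC.frc_eq] at h
  rcases h with h | h | h
  · exact absurd ((ncard_bset sz_w M).symm.trans (a4 ▸ h2)) h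
  · exact h ▸ a7.land (a6 _ _ a5)
  · exact h ▸ (a6 _ _ a5).land (a6 _ _ (a6 _ _ a5))

theorem exists_c {J : Subgroup Cfsg.Spor.Suz} (hJ : J ≤ stabilizer _ pa)
    (hc : Nat.card J * 1365 = Nat.card (stabilizer Cfsg.Spor.Suz pa)) {Y : Set (PK.Via ρ)}
    (h1 : ∀ y ∈ Y, gr.Adj pa y) (h2 : Y.ncard = 96) (h3 : InvS J Y) :
    ∃ y, (y ≠ pa ∧ ¬ gr.Adj pa y) ∧ ∀ s ∈ J, s • y = y := by
  rw [card_stab] at hc
  obtain ⟨b1, -, b2⟩ := (band_iff'.1 k_Ug).imp_right band_iff'.1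
  obtain ⟨h, a1, K, a2, a3, a4, a5⟩ := exists_conj_sub (m := 12) Nat.prime_two hJ (by omega)
    (by rw [card_stab]; norm_num) (Q := gW e0 (cU.map Prod.fst))
    (gW_le fun W hW => mem_of_fx0 (allL_iff.1 b2 W hW))
    ((IsPGroup.of_card md0.cardS).to_le (gW_le (mem_of_exB ctx
      (fun V hV => gW_sing e0 lS ▸ mem_gW hV) b1)))
  refine ⟨h • pc, (mod0.nadj _).2 ⟨⟨h, a1⟩, rfl⟩, fun s hs => ?_⟩
  have := fix_c a3 a2 (Y := (h • ·) ⁻¹' Y)
    (fun y hy => (mod0.inv h _ _).1 (by rw [show h • pa = pa from a1]; exact h1 _ hy))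
    ((Set.ncard_preimage_of_injective_subset_range (MulAction.injective h)
      fun u _ => MulAction.surjective h u).trans h2)
    (fun g hg y hy => by simpa [mul_smul] using h3 _ ((a5 g).1 hg) _ hy)
    (h⁻¹ * s * h) ((a5 _).2 (by simpa [mul_assoc] using hs))
  rwa [mul_smul, mul_smul, inv_smul_eq_iff] at this

theorem isoSuz_of_rank3 {G Ω : Type*} [Group G] [MulAction G Ω] [Finite Ω] [FaithfulSMul G Ω]
    [IsPretransitive G Ω] (hΩ : Nat.card Ω = 1782) {a b c : Ω}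
    (hb : (orbit (stabilizer G a) b).ncard = 416) (hc : (orbit (stabilizer G a) c).ncard = 1365)
    (e : stabilizer G a ≃* Lie.chevG2.group Class.GF4) : Cfsg.Spor.IsoSuz G := by
  obtain ⟨f⟩ := equiv_G24
  have e := e.trans (f.symm.trans (MulEquiv.subgroupCongr stab_g.symm))
  have M := mod_orbGraph hb hc (by norm_num) (by norm_num) (by norm_num) hΩ
  obtain ⟨l, m, hΓ⟩ := orbGraph_isSRG hb hc (by norm_num) (by norm_num) (by norm_num) hΩ
  obtain ⟨rfl, rfl⟩ := params hΓ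
  obtain ⟨b₁, a1, a2⟩ := exists_fix e b fun J hJ _ h => exists_b hJ (hb ▸ h)
  obtain ⟨Y, a3, a4, a5⟩ := exists_mu (mod0.change a1 mod0.nadj_c) M e a2
  obtain ⟨c₁, a6, a7⟩ := exists_fix e c fun J hJ h' h => exists_c hJ (hc ▸ h) a3
    (a4.trans (hΓ.nadj _ _ M.nadj_c.1.symm M.nadj_c.2)) fun s hs => by
      obtain ⟨g, h1, rfl⟩ := h' s hs
      exact a5 g h1
  obtain ⟨φ⟩ := exists_iso mod0 M hΓ e a1 a6 a2 a7
    (fun Y h1 h2 => gr0.nbr ctx (a₀ := pa) (x := pb) rfl k_J Y (fun g g1 g2 => h1 g ⟨g1, g2⟩)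
      (iff_of_true h2 rfl))
    (fun Y h1 h2 => gr0.nbr ctx (a₀ := pa) (x := pc) rfl k_P Y (fun g g1 g2 => h1 g ⟨g1, g2⟩)
      (iff_of_false h2 (by simp)))
  have : Finite (gr ≃g gr) := Finite.of_injective _ (autP_inj (Γ := gr))
  exact equiv_of_iso simple (by rw [card]; norm_num) mod0.inv M.inv φ
    ((gr0.aut ctx k_A).trans (by rw [card]; decide +kernel))
    (card_eq_of_stab e (hΩ.trans (Nat.card_fin 1782).symm))

end Cfsg.Lib.Spor.R3S
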