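import Cfsg.Agent.Spor.Fi24WM

/-! Upper bounds for the Schur multiplier. -/

set_option autoImplicit false
set_option maxRecDepth 100000
set_option Elab.async false

namespace Cfsg.Lib.Spor.F24

open Cfsg.Lib.Spor.Bulk Cfsg.Lib.Spor.WM Cfsg.Lib.Known Cfsg.Lib.Spor.Fi24P

def m5_c : PC.Cert where
  p := 5
  q := 5
  m := 1
  n := 2
  r := 0
  S := 20
  W := 24
  F := 29
  L := 5
  NL := 1
  FV := 1028
  T := 0x20000000000000000000000000000000000000000000000000000000000000000000000000000000000000000000000000000000000000000000000000000000000000000000000000000000000000000000000000000000000000000000000000000000000000000000000000000000000000000000000000000000000000000000000000000000000000000000000000000000000000000000000000000000000000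
  cons := []
  fus := [(0x8420842100000, 0x20000100000, [(0x210842, 0x0), (0x108421, 0x0), (0x22, 0x41)])]
  Ss := [[], [], []]
  zetas := []
  rows := [(33, 0x2a39, 0x0),
    (65, 0x15e1, 0x0),
    (66, 0x5f39, 0x0)]
  zrows := []
theorem m5_chk : PC.check m5_c = true := by decide +kernel
noncomputable def m5_cs : List ℕ := [0,86644115668780705863244488552118621717194367757725879564524610373,
  1404332900037666672943625095609293898576604906188514113404639]
noncomputable def m5_xs : List ℕ := [863036229530096849986063409640700766292089795229185185797624]
theorem m5_fus : gO.fus m5_cs m5_c m5_xs = true := by decide +kernel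
theorem m5_pc0 : gO.pc m5_cs m5_c 0 2 = true := by decide +kernel
theorem m5_ch : gO.chain 1255205709190661721292800 m5_cs m5_c [(406, 306936, [(4, 2)]), (1486, 306936, [(4, 1)])] = true := by decide +kernel
theorem pBound_5 : PBound Cfsg.Spor.Fi24' 5 1 0 :=
  g_has.pBound' card_commutator (c := m5_c) (g_good.fm_in _) m5_chk m5_fus
    ((Ops.PcUpTo.zero gO m5_cs m5_c).step m5_pc0) m5_ch

end Cfsg.Lib.Spor.F24
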