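import Cfsg.Agent.Spor.F24G2
import Cfsg.Agent.Spor.FmCore
import Cfsg.Agent.Spor.FxSym
import Cfsg.Agent.Spor.Fi24Fact

set_option autoImplicit false
set_option maxRecDepth 100000
set_option Elab.async false

namespace Cfsg.Lib.Spor.F24.G2

open Cfsg.Lib.Spor.Bulk Cfsg.Lib.Spor.Fm Subgroup

/-! Type M(24): the normaliser of a subgroup of order 13. -/

noncomputable def x13 : List ℕ := (wd (nat_lit 0x1b7654f85f1f58f9845eb487e1e784bea7697b15))
noncomputable def sw : List ℕ := (wd (nat_lit 0x12a5f4d5f89cf7d1d7f436548d7eb1be7d8d93d1d31d32123d19d9c))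
def L6 : List ℕ := [0,1,2,12,296546,302287]
noncomputable def s6 : ℕ := setL L6
noncomputable def s3 : ℕ := setL [0,1,2]
theorem x_fix : C.fixB x13 L6 = true := by decide +kernel
noncomputable def cX_s : Sp := ⟨[0,2,12,302287], [x13], []⟩
noncomputable def cX_p0 : List Step := [.set (.fa (.fa (.dif (.and (.and (.nb (.c 0)) (.nb (.c 2))) (.nb (.c 12))) (.one (.c 12))) .v (.im 0 .v)) .v (.im 0 (.im 0 .v))) (setL (dig 19 (nat_lit 0x46c08721288fd50e188160141ab48352b06a400a4400bcc0179002ec805d8c08b48115b019e00262c04c18096400e3401c340382806f900dee014f802958052400a4600f8c01f1003d80079e00f34016d802d50058600820005500073))),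
  .orb (.dif (.st 0) (.fa (.st 0) .v (.im 0 (.im 0 (.im 0 (.im 0 (.im 0 (.im 0 .v)))))))) 170 13 [(wd (nat_lit 0x1b7654f85f1f58f9845eb487e1e784bea7697b15))] (.tr [10880,4636800,85888,46784,114112,870400,114240,45248,1442112,383168,3737920,1847552])]
theorem cX_c0 : chkL C cX_p0 cX_s cX_s = true := by decide +kernel
noncomputable def cX_p1 : List Step := [.sing (.dif (.dif (.fa (.and (.and (.and (.and .all (.nb (.c 2))) (.nb (.th (.c 170) (.th (.c 12) (.c 302287))))) (.nb (.th (.th (.c 302287) (.im 0 (.c 170))) (.im 0 (.im 0 (.im 0 (.c 170))))))) (.nb (.th (.th (.th (.c 12) (.c 302287)) (.im 0 (.c 170))) (.th (.c 170) (.im 0 (.im 0 (.im 0 (.im 0 (.c 170))))))))) (.th (.th (.c 302287) (.im 0 (.c 170))) (.im 0 (.im 0 (.im 0 (.im 0 (.im 0 (.c 170))))))) .v) (.fa (.fa (.and (.and (.and (.and .all (.nb (.c 2))) (.nb (.th (.c 170) (.th (.c 12) (.c 302287))))) (.nb (.th (.th (.c 302287) (.im 0 (.c 170))) (.im 0 (.im 0 (.im 0 (.c 170))))))) (.nb (.th (.th (.th (.c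 12) (.c 302287)) (.im 0 (.c 170))) (.th (.c 170) (.im 0 (.im 0 (.im 0 (.im 0 (.c 170))))))))) (.th (.th (.c 302287) (.im 0 (.c 170))) (.im 0 (.im 0 (.im 0 (.im 0 (.im 0 (.c 170))))))) .v) (.c 12) .v)) (.fa (.dif (.fa (.and (.and (.and (.and .all (.nb (.c 2))) (.nb (.th (.c 170) (.th (.c 12) (.c 302287))))) (.nb (.th (.th (.c 302287) (.im 0 (.c 170))) (.im 0 (.im 0 (.im 0 (.c 170))))))) (.nb (.th (.th (.th (.c 12) (.c 302287)) (.im 0 (.c 170))) (.th (.c 170) (.im 0 (.im 0 (.im 0 (.im 0 (.c 170))))))))) (.th (.th (.c 302287) (.im 0 (.c 170))) (.im 0 (.im 0 (.im 0 (.im 0 (.im 0 (.c 170))))))) .v) (.fa (.fa (.and (.and (.and (.and .all (.nb (.c 2))) (.nb (.th (.c 170) (.th (.c 12) (.c 302287))))) (.nb (.th (.th (.c 302287) (.im 0 (.c 170))) (.im 0 (.im 0 (.im 0 (.c 170))))))) (.nb (.th (.th (.th (.c 12) (.c 302287)) (.im 0 (.c 170))) (.th (.c 170) (.im 0 (.im 0 (.im 0 (.im 0 (.c 170))))))))) (.th (.th (.c 302287) (.im 0 (.c 170))) (.im 0 (.im 0 (.im 0 (.im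 0 (.im 0 (.c 170))))))) .v) (.c 12) .v)) (.c 302287) .v)) 142918,
  .der (.th (.th (.c 302287) (.im 0 (.im 0 (.c 170)))) (.th (.th (.c 142918) (.im 0 (.im 0 (.c 142918)))) (.th (.th (.th (.c 302287) (.c 170)) (.th (.c 142918) (.im 0 (.c 170)))) (.th (.c 302287) (.th (.c 0) (.im 0 (.c 142918))))))) 96815,
  .der (.th (.c 302287) (.th (.th (.im 0 (.c 142918)) (.th (.c 142918) (.th (.c 0) (.c 2)))) (.th (.th (.c 142918) (.im 0 (.im 0 (.c 142918)))) (.th (.im 0 (.im 0 (.c 170))) (.th (.c 142918) (.th (.c 302287) (.c 170))))))) 268387,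
  .der (.th (.th (.th (.c 170) (.th (.c 12) (.c 302287))) (.im 0 (.im 0 (.c 170)))) (.th (.c 12) (.th (.th (.th (.c 170) (.c 142918)) (.th (.c 0) (.im 0 (.c 142918)))) (.th (.im 0 (.c 142918)) (.th (.c 302287) (.im 0 (.c 170))))))) 249436,
  .der (.th (.th (.im 0 (.im 0 (.c 142918))) (.th (.c 142918) (.im 0 (.c 142918)))) (.th (.th (.th (.c 302287) (.c 170)) (.th (.c 12) (.im 0 (.c 142918)))) (.th (.th (.th (.c 12) (.c 302287)) (.th (.c 0) (.im 0 (.c 142918)))) (.th (.c 170) (.th (.c 12) (.c 142918)))))) 97608,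
  .der (.th (.th (.th (.c 0) (.c 2)) (.th (.c 142918) (.im 0 (.c 142918)))) (.th (.th (.c 142918) (.th (.c 0) (.c 2))) (.th (.th (.th (.c 302287) (.c 170)) (.th (.c 12) (.im 0 (.c 142918)))) (.th (.c 302287) (.c 142918))))) 49347,
  .der (.th (.th (.th (.c 0) (.c 2)) (.th (.c 142918) (.im 0 (.c 142918)))) (.th (.c 12) (.th (.th (.c 142918) (.im 0 (.c 170))) (.th (.c 142918) (.th (.c 302287) (.c 170)))))) 234143]
theorem cX_c1 : chkL C cX_p1 (coreL cX_p0 cX_s) (nextL cX_p0 cX_s) = true := by decide +kernel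
noncomputable def cX_p : List Step := (cX_p0 ++ cX_p1)
theorem cX_c : chkL C cX_p cX_s cX_s = true := (chkL_append cX_c0 cX_c1)
theorem cX {G : Type*} [Group G] {D : Set G} (M : Mdl G D C) : M.Ctl ⟨[0,2,12,302287], [x13], []⟩ [x13] 13 :=
  (Mdl.Ctl.of_chain cX_c M.isBase_base (by decide +kernel)).1.mono (by decide +kernel) (by decide +kernel)
noncomputable def cA_s : Sp := ⟨[], [], [s6]⟩
noncomputable def cA_p0 : List Step := [.orb (.st 0) 0 6 [(wd (nat_lit 0x12a5f4d5f89cf7d1d7f436548d7eb1be7d8d93d1d31d32123d19d9c)), [11], [12], (wd (nat_lit 0xdf3e1e3fd))] (.tr [0,1,771,64,66]),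
  .orb (.dif (.st 0) (.nb (.c 0))) 2 2 [[12]] (.tr [128]),
  .orb (.dif (.and (.st 0) (.nb (.c 0))) (.one (.c 0))) 12 3 [[2], (wd (nat_lit 0xdf3e1e3fd))] (.tr [769,18978944]),
  .orb (.dif (.and (.st 0) (.nb (.c 0))) (.nb (.c 12))) 302287 2 [[2]] (.tr [19346368])]
theorem cA_c0 : chkL C cA_p0 cA_s cA_s = true := by decide +kernel
noncomputable def cA_p : List Step := cA_p0
theorem cA_c : chkL C cA_p cA_s cA_s = true := cA_c0
noncomputable def cB_s : Sp := ⟨[], [], [s6, s3]⟩
noncomputable def cB_p0 : List Step := [.orb (.st 1) 0 3 [[11], [12]] (.tr [0,65]),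
  .orb (.dif (.st 0) (.nb (.c 0))) 2 2 [[12]] (.tr [128]),
  .orb (.dif (.and (.st 0) (.nb (.c 0))) (.one (.c 0))) 12 3 [[2], (wd (nat_lit 0xdf3e1e3fd))] (.tr [769,18978944]),
  .orb (.dif (.and (.st 0) (.nb (.c 0))) (.nb (.c 12))) 302287 2 [[2]] (.tr [19346368])]
theorem cB_c0 : chkL C cB_p0 cB_s cB_s = true := by decide +kernel
noncomputable def cB_p : List Step := cB_p0
theorem cB_c : chkL C cB_p cB_s cB_s = true := cB_c0
theorem cB_t : C.prodB s6 (gensL cB_p) [[5],[1],[1],[25],[604575],[25]] = true := by decide +kernel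
noncomputable def cS : List Step := [.set (.or (.or (.one (.c 0)) (.or (.one (.c 2)) (.one (.th (.c 0) (.c 2))))) (.or (.one (.c 12)) (.or (.one (.c 302287)) (.one (.th (.c 12) (.c 302287)))))) s6, .set (.or (.one (.c 0)) (.or (.one (.c 2)) (.one (.th (.c 0) (.c 2))))) s3]
theorem cS_c : chkL C cS ⟨[0,2,12,302287], [], []⟩ ⟨[0,2,12,302287], [], []⟩ = true := by decide +kernel
theorem x_ord : band (C.eqW (pwr x13 13) []) (bnot (C.eqW x13 [])) = true := by decide +kernel
theorem x_mem : C.memB ⟨[0,2,12,302287], [], []⟩ x13 = true := by decide +kernel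
theorem sw_x : C.eqW (x13 ++ sw) (sw ++ pwr x13 11) = true := by decide +kernel
theorem sw_0 : Nat.beq (C.ev sw 0) 12 = true := by decide +kernel
theorem t_mem : allL (fun p => C.memB cB_s (C.tw p)) [0,12,302287,2] = true := by decide +kernel
theorem tr_eq : band (Nat.beq (C.tr 0 2) 1) (Nat.beq (C.tr 12 302287) 296546) = true := by decide +kernel
theorem adjs : band (band (bnot (C.adj 0 2)) (bnot (C.adj 12 302287))) (band (band (C.adj 0 12) (C.adj 0 302287)) (band (C.adj 2 12) (C.adj 2 302287))) = true := by decide +kernel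

variable {G : Type*} [Group G] {D : Set G} (M : Mdl G D C)

/-- the product of the two symmetric groups -/
abbrev TT : Subgroup G := closure {M.t 0, M.t 12, M.t 302287, M.t 2}

/-- its centraliser -/
noncomputable abbrev KK : Subgroup G := M.grp ⟨[0,2,12,302287], [], []⟩

theorem cen_T : centralizer (TT M : Set G) = KK M := by
  rw [TT, centralizer_closure, ← K_eq]

theorem six : D ∩ (centralizer (zpowers (M.el x13) : Set G) : Set G) = M.t '' {p | p ∈ L6} := M.inter_cen x_fix

theorem T_eq : closure (M.tS s6) = TT M := by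
  rw [s6, M.tS_fixB x_fix, six]
  refine le_antisymm ((closure_le _).2 ?_) (closure_mono ?_)
  · have h0 : M.t 0 ∈ TT M := subset_closure (by simp)
    have h1 : M.t 12 ∈ TT M := subset_closure (by simp)
    have h2 : M.t 302287 ∈ TT M := subset_closure (by simp)
    have h3 : M.t 2 ∈ TT M := subset_closure (by simp)
    rintro _ ⟨p, hp, rfl⟩
    simp only [L6, List.mem_cons, List.not_mem_nil, or_false, Set.mem_ofPred_eq] at hp
    rcases hp with rfl | rfl | rfl | rfl | rfl | rfl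
    · exact h0
    · rw [← Nat.eq_of_beq_eq_true (band_left tr_eq), M.t_tr (by decide) (by decide)]
      exact mul_mem (mul_mem h0 h3) h0
    · exact h3
    · exact h1
    · rw [← Nat.eq_of_beq_eq_true (band_right tr_eq), M.t_tr (by decide) (by decide)]
      exact mul_mem (mul_mem h1 h2) h1
    · exact h2
  · rintro _ (rfl | rfl | rfl | rfl) <;> exact ⟨_, by simp [L6], rfl⟩

theorem K_set : KK M = M.grp ⟨[0,2,12,302287], [], [s6, s3]⟩ := (M.chain_spec rfl cS_c).1

theorem K_A : M.grp (nextL cA_p cA_s) = KK M :=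
  le_antisymm (M.grp_le_of_sub (by decide +kernel)) ((K_set M).le.trans (M.grp_le_of_sub (by decide +kernel)))

theorem K_B : M.grp (nextL cB_p cB_s) = KK M :=
  le_antisymm (M.grp_le_of_sub (by decide +kernel)) ((K_set M).le.trans (M.grp_le_of_sub (by decide +kernel)))

theorem index_BA : (M.grp cB_s).relIndex (M.grp cA_s) = 2 := by
  have := M.fin
  have h1 := (M.chain_spec rfl cA_c).2.2.2.2
  have h2 := (M.chain_spec rfl cB_c).2.2.2.2
  rw [K_A, cK M, show multL cA_p = 72 by decide +kernel] at h1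
  rw [K_B, cK M, show multL cB_p = 36 by decide +kernel] at h2
  have h3 := ((M.grp cB_s).subgroupOf (M.grp cA_s)).card_mul_index
  rw [Nat.card_congr (subgroupOfEquivOfLe (M.grp_le_of_sub (by decide +kernel))).toEquiv, h1, h2] at h3
  rw [relIndex]
  omega

theorem x_K : zpowers (M.el x13) ≤ KK M := (zpowers_le).2 (M.mem_of_memB x_mem)

theorem card_B : Nat.card (zpowers (M.el x13)) = 13 := by
  have : Fact (Nat.Prime 13) := ⟨by norm_num⟩
  rw [Nat.card_zpowers, M.orderOf_el x_ord]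

theorem cen_B : KK M ⊓ centralizer (zpowers (M.el x13) : Set G) = zpowers (M.el x13) := by
  have := M.fin
  refine le_antisymm ?_ (le_inf (x_K M) (le_centralizer _))
  rw [← M.grp_cen, ← M.gW_one]
  exact fun y hy => (cX M).1 ⟨hy.1.1, hy.2.2.1, forall_mem_nil'⟩

theorem norm_le : normalizer (zpowers (M.el x13) : Set G) ≤ normalizer (KK M : Set G) := by
  have e : KK M = centralizer (D ∩ (centralizer (zpowers (M.el x13) : Set G) : Set G)) := by
    rw [← cen_T, ← T_eq, centralizer_closure, s6, M.tS_fixB x_fix]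
  have key : ∀ g ∈ normalizer (zpowers (M.el x13) : Set G), ∀ k ∈ KK M, g * k * g⁻¹ ∈ KK M := by
    intro g hg k hk
    rw [e] at hk ⊢
    intro d hd
    have h1 := hk (g⁻¹ * d * g) ⟨by simpa using (M.conj_mem_iff g⁻¹ d).2 hd.1, fun z hz => by
      have h2 := hd.2 (g * z * g⁻¹) ((mem_normalizer_iff.1 hg z).1 hz)
      calc z * (g⁻¹ * d * g) = g⁻¹ * (g * z * g⁻¹ * d) * g := by group
        _ = _ := by rw [h2]; group⟩
    calc d * (g * k * g⁻¹) = g * (g⁻¹ * d * g * k) * g⁻¹ := by group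
      _ = _ := by rw [h1]; group
  intro g hg
  refine mem_normalizer_iff.2 fun k => ⟨key g hg k, fun h => ?_⟩
  simpa [mul_assoc] using key g⁻¹ (inv_mem hg) _ h

theorem card_F : Nat.card ↥(KK M ⊓ normalizer (zpowers (M.el x13) : Set G)) = 78 := by
  have := M.fin
  have : Fact (Nat.Prime 13) := ⟨by norm_num⟩
  have h1 : Nat.card ((zpowers (M.el x13)).subgroupOf (KK M)) = 13 := by
    rw [Nat.card_congr (subgroupOfEquivOfLe (x_K M)).toEquiv, card_B]
  have h2 : centralizer ((zpowers (M.el x13)).subgroupOf (KK M) : Set (KK M)) =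
      (zpowers (M.el x13)).subgroupOf (KK M) := by
    refine le_antisymm (fun y hy => ?_) fun y hy z hz => Subtype.ext ?_
    · rw [mem_subgroupOf, ← cen_B]
      exact ⟨y.2, fun z hz => congrArg Subtype.val (hy ⟨z, x_K M hz⟩ hz)⟩
    · exact le_centralizer (zpowers (M.el x13)) hy z hz
  have h3 := card_normalizer_of_prime (c := 1) (a := 326592) h1 (by rw [h2, h1]) (by rw [cK M]) (by norm_num)
  rw [← subgroupOf_normalizer_eq (x_K M), ← inf_subgroupOf_left,
    Nat.card_congr (subgroupOfEquivOfLe inf_le_left).toEquiv] at h3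
  exact h3

theorem index_F : (((KK M ⊓ normalizer (zpowers (M.el x13) : Set G)) ⊔ TT M).subgroupOf
    (normalizer (zpowers (M.el x13) : Set G))).index = 2 := by
  have := M.fin
  have hT : TT M ≤ normalizer (zpowers (M.el x13) : Set G) :=
    ((le_centralizer_iff.1 (cen_T M).ge).trans (centralizer_le (x_K M))).trans (centralizer_le_normalizer _)
  have hN : normalizer (zpowers (M.el x13) : Set G) ≤ M.grp cA_s := M.normalizer_le_grp (band_right x_fix)
  have e : ((KK M ⊓ normalizer (zpowers (M.el x13) : Set G)) ⊔ TT M).subgroupOf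
      (normalizer (zpowers (M.el x13) : Set G)) = (M.grp cB_s).subgroupOf _ := by
    refine le_antisymm (comap_mono (sup_le (inf_le_left.trans ?_) ((closure_le _).2 ?_))) fun y hy => ?_
    · exact (K_B M).ge.trans (M.chain_spec rfl cB_c).2.1
    · have k : ∀ p ∈ [0,12,302287,2], p < C.n → M.t p ∈ M.grp cB_s := fun p hp h =>
        M.el_tw h ▸ M.mem_of_memB (allL_iff.1 t_mem p hp)
      rintro _ (rfl | rfl | rfl | rfl) <;> exact k _ (by simp) (by decide)
    · obtain ⟨z, h1, h2⟩ := (M.chain_spec rfl cB_c).2.2.2.1 y hy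
      have h3 : z ∈ TT M := T_eq M ▸ M.gW_le_of_prodB cB_t h1
      rw [K_B] at h2
      have h4 := mul_mem (mem_sup_right (S := KK M ⊓ normalizer (zpowers (M.el x13) : Set G)) h3)
        (mem_sup_left (T := TT M) (mem_inf.2 ⟨h2, mul_mem (inv_mem (hT h3)) y.2⟩))
      rw [mul_inv_cancel_left] at h4
      exact h4
  rw [e]
  change (M.grp cB_s).relIndex _ = 2
  have h1 := relIndex_le_of_le_right (H := M.grp cB_s) hN (by rw [index_BA]; norm_num)
  have h2 : (M.grp cB_s).relIndex (normalizer (zpowers (M.el x13) : Set G)) ≠ 0 := index_ne_zero_of_finite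
  have h3 : (M.grp cB_s).relIndex (normalizer (zpowers (M.el x13) : Set G)) ≠ 1 := fun h => by
    have h4 : M.el sw ∈ normalizer (zpowers (M.el x13) : Set G) :=
      mem_normalizer_zpowers ((M.conj_el_eq sw_x).trans (M.el_pwr _ _))
    have h5 := (relIndex_eq_one.1 h h4).2.2 s3 (by simp [cB_s]) 0 (by decide)
    rw [M.act_el _ (by decide), Nat.eq_of_beq_eq_true sw_0] at h5
    revert h5
    decide +kernel
  rw [index_BA] at h1
  omega

theorem exists_conj {B : Subgroup G} (h : B ≤ KK M) (hB : Nat.card B = 13) :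
    ∃ k ∈ KK M, B = zpowers ((M.conj k).el x13) := by
  have := M.fin
  have : Fact (Nat.Prime 13) := ⟨by norm_num⟩
  obtain ⟨k, hk⟩ := exists_conj_of_prime (G := KK M) (p := 13) (a := 326592) (by rw [cK M]) (by norm_num)
    (A := (zpowers (M.el x13)).subgroupOf (KK M)) (B := B.subgroupOf (KK M))
    (by rw [Nat.card_congr (subgroupOfEquivOfLe (x_K M)).toEquiv, card_B])
    (by rw [Nat.card_congr (subgroupOfEquivOfLe h).toEquiv, hB])
  refine ⟨k, k.2, ?_⟩
  rw [← M.map_zpowers_el]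
  have h1 := congrArg (Subgroup.map (KK M).subtype) hk
  rw [map_subgroupOf_eq_of_le h, map_map] at h1
  rw [← h1]
  conv_rhs => rw [← map_subgroupOf_eq_of_le (x_K M), map_map]
  rfl

end Cfsg.Lib.Spor.F24.G2
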