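import Cfsg.Agent.Spor.FisGrp
import Cfsg.Agent.Spor.Fi22Two
import Cfsg.Agent.Trans.GenFitting

/-! Centralisers of subgroups given by generators. -/

set_option autoImplicit false

namespace Cfsg.Lib.Spor.Fis

open Bulk Equiv

theorem genFit_eq_ker {G H : Type*} [Group G] [Group H] [Finite G] {p : ℕ} [Fact p.Prime] (φ : G →* H)
    (hr : φ.range = ⊤) (hH : pCore p H = ⊥) (hk : IsPGroup p φ.ker)
    (hc : Subgroup.centralizer (φ.ker : Set G) ≤ φ.ker) : generalizedFittingSubgroup G = φ.ker := by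
  rw [← pCore_eq_ker φ hr hH hk] at hc ⊢
  exact Trans.genFitting_eq_pCore_iff.2 hc

theorem centralizer_subgroupOf_le {G : Type*} [Group G] {O C : Subgroup G} (h : O ≤ C)
    (hc : Subgroup.centralizer (O : Set G) ≤ O) :
    Subgroup.centralizer (O.subgroupOf C : Set C) ≤ O.subgroupOf C :=
  fun _ hx => hc fun y hy => congrArg Subtype.val (hx ⟨y, h hy⟩ hy)

variable {n : ℕ} {Q : QD n} {C : Subgroup (Perm (Fin n))}

/-- the centraliser of the group generated by the words -/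
noncomputable abbrev QD.cg (Q : QD n) (Ws : List (List ℕ)) : Subgroup (Perm (Fin n)) :=
  Subgroup.centralizer (Q.gen Ws : Set (Perm (Fin n)))

theorem Cen.gen (C : Subgroup (Perm (Fin n))) {Ws : List (List ℕ)} {W : List ℕ} (h : W ∈ Ws) :
    Cen Q (C ⊓ Q.cg Ws) W := fun _ hc => Subgroup.mem_centralizer_singleton_iff.1 (centralizer_gen.1 hc.2 W h)

theorem Cen.ofMem (C : Subgroup (Perm (Fin n))) {Ws : List (List ℕ)} {W : List ℕ}
    (h : allL (tb (headMask Ws)) W = true) : Cen Q (C ⊓ Q.cg Ws) W :=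
  fun _ hc => (hc.2 _ ((Mem.gen Ws).letIn.wv h)).symm

/-- the points commuting with all points of an invariant set -/
theorem Inv.rad (ht : ∀ p, Q.t p ∈ Q.A) (hA : C ≤ Q.A) {F : ℕ} (hF : Inv C F) (vs us : List (List ℕ))
    (h : seq F (band (band (Nat.beq (Bulk.dif (Q.pts vs) F) 0) (Nat.beq (Bulk.dif (Q.cap vs) (Q.pts us)) 0))
      (allL (fun u => Nat.beq (Bulk.dif F (Q.nbm u)) 0) us)) = true) : Inv C (Q.pts us) := by
  rw [seq_eq] at h
  have key : ∀ c ∈ C, ∀ p : Fin n, (Q.pts us).testBit p = true → (Q.pts us).testBit (c p) = true :=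
    fun c hc p hp => rad_le ht vs (band_left h) _ fun x hx => by
      obtain ⟨x, rfl⟩ := c.surjective x
      obtain ⟨u, hu, rfl⟩ := (Q.testBit_pts us p).1 hp
      exact (QD.fix_conj (hA hc)).2 ((Q.testBit_nbm u x).1
        (testBit_of_dif (allL_iff.1 (band_right h) u hu) ((hF hc x).symm.trans hx)))
  intro c hc p
  rw [Bool.eq_iff_iff]
  exact ⟨fun h => by simpa using key c⁻¹ (inv_mem hc) _ h, key c hc p⟩

theorem Mem.cg {Z : ℕ} (hZ : Rigid Q Z) {Ks Ws : List (List ℕ)}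
    (h : allL (fun K => allL (fun W => Q.eqW Z (K ++ W) (W ++ K)) Ws) Ks = true) : Mem Q (Q.cg Ws) Ks :=
  fun K hK => centralizer_gen.2 fun W hW =>
    Subgroup.mem_centralizer_singleton_iff.2 (hZ.commute (allL_iff.1 (allL_iff.1 h K hK) W hW))

theorem QD.not_mem_centralizer (Q : QD n) {Z : ℕ} {A B : List ℕ} (h : Q.neW Z (A ++ B) (B ++ A) = true) :
    Q.ev A ∉ Subgroup.centralizer {Q.ev B} := fun e => by
  have := Q.ne_of_neW h
  rw [Q.ev_append, Q.ev_append] at this
  exact this (Subgroup.mem_centralizer_singleton_iff.1 e).symm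

theorem Mdl.centralizer_pb {t : Fin n → Perm (Fin n)} {G₀ : Subgroup (Perm (Fin n))} {G : Type*} [Group G]
    {D : Set G} (M : Mdl t G₀ G D) (h : C ≤ G₀) :
    Subgroup.centralizer (M.pb C : Set G) = M.pb (G₀ ⊓ Subgroup.centralizer (C : Set (Perm (Fin n)))) := by
  rw [inf_comm, M.pb_inf_G₀, ← M.pb_centralizer, ← Subgroup.coe_map, M.map_pb, inf_eq_left.2 h]

end Cfsg.Lib.Spor.Fis
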