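import Cfsg.Agent.SporChar.J4DZ
import Cfsg.Agent.SporChar.J4DE
import Cfsg.Agent.S5565
import Cfsg.Agent.Inst.S1703
import Cfsg.Agent.Inst.S5629
import Cfsg.Agent.Walter.Basic
import Cfsg.Agent.Solv.FixedPointFree
import Cfsg.Agent.Spor.JDce

/-! Orders of subgroups of groups of type `J₄`: Sylow counts. -/

set_option autoImplicit false
set_option maxRecDepth 100000

namespace Cfsg.Lib.Spor.J4X

open Subgroup Cfsg.Lib.Spor.Bulk Cfsg.Lib.Spor.JD Cfsg.Lib.SporChar Cfsg.Lib.SporChar.J4C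
  Cfsg.Lib.SporChar.J4D Cfsg.Lib.Solv
open scoped Pointwise

variable {G : Type*} [Group G] [Finite G]

omit [Finite G] in
theorem card_subOf (K M : Subgroup G) : Nat.card (K.subgroupOf M) = Nat.card ↥(M ⊓ K) := by
  rw [← inf_subgroupOf_left, card_subgroupOf_of_le inf_le_left]

/-- Sylow's count in a subgroup. -/
theorem cong {M P : Subgroup G} {q k : ℕ} (hq : q.Prime) (hP : P ≤ M) (h1 : Nat.card P = q ^ k)
    (h2 : ¬ q ^ (k + 1) ∣ Nat.card M) :
    ∃ n, n % q = 1 ∧ Nat.card ↥(M ⊓ normalizer (P : Set G)) * n = Nat.card M := by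
  obtain ⟨m, hm⟩ := h1 ▸ card_dvd_of_le hP
  obtain ⟨n, h3, h4⟩ := sylow_cong (G := M) (P := P.subgroupOf M) hq
    ((card_subgroupOf_of_le hP).trans h1) hm fun e => h2 (hm ▸ pow_succ q k ▸ Nat.mul_dvd_mul_left _ e)
  exact ⟨n, h3, by rw [← h4, ← subgroupOf_normalizer_eq hP, card_subOf]⟩

theorem burn0 {s : G} {p q : ℕ} (hp : p.Prime) (ho : orderOf s = p) (h2 : ¬ p ^ 2 ∣ Nat.card G)
    (hc : normalizer (zpowers s : Set G) ≤ centralizer {s}) [Fact q.Prime] (hqp : q ≠ p)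
    (hd : ¬ q ∣ Nat.card (centralizer ({s} : Set G))) (Q : Sylow q G) : Nat.card Q % p = 1 := by
  have := Fact.mk hp
  have h1 : Nat.card (zpowers s) = p ^ 1 := by rw [Nat.card_zpowers, ho, pow_one]
  let P := (IsPGroup.of_card h1).toSylow (fun e => h2 (by
    rw [← (zpowers s).card_mul_index, h1, pow_one, pow_two]; exact Nat.mul_dvd_mul_left _ e))
  have hP : normalizer (P : Set G) ≤ centralizer (P : Set G) :=
    hc.trans (Known.SC.centralizer_zpowers s).ge
  have h3 := MonoidHom.ker_transferSylow_isComplement' P hP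
  have h4 : (Q : Subgroup G) ≤ (MonoidHom.transferSylow P hP).ker := fun a ha => by
    obtain ⟨i, e1⟩ := Q.isPGroup' ⟨a, ha⟩
    obtain ⟨j, e2⟩ := P.isPGroup' (MonoidHom.transferSylow P hP a)
    refine orderOf_eq_one_iff.1 (Nat.eq_one_of_dvd_coprimes
      (Nat.Coprime.pow i j ((Nat.coprime_primes Fact.out hp).2 hqp))
      (orderOf_dvd_of_pow_eq_one ?_) (orderOf_dvd_of_pow_eq_one e2))
    rw [← map_pow, show a ^ q ^ i = 1 from congrArg Subtype.val e1, map_one]
  have h5 := Q.normalizer_sup_eq_top' h4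
  have h6 : p ∣ Nat.card (normalizer (Q : Set G)) := by
    have e := relIndex_sup_right (H := normalizer (Q : Set G)) (K := (MonoidHom.transferSylow P hP).ker)
    rw [h5, relIndex_top_right, h3.symm.index_eq_card] at e
    rw [← show Nat.card P = p from h1.trans (pow_one p), e]
    exact relIndex_dvd_card _ _
  obtain ⟨t, ht, e⟩ := exists_order hp h6
  obtain ⟨k, -, e1⟩ := exists_conj_cent (K := ⊤) hp (by rwa [card_top]) (mem_top s) (mem_top t) ho e
  have h7 := Fpf.card_modEq_one (K := Q) (H := zpowers t) (zpowers_le.2 ht) fun h hh h0 => by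
    by_contra h8
    obtain ⟨i, hi, e2⟩ := (Q.isPGroup'.to_le (inf_le_left : (Q : Subgroup G) ⊓ centralizer {h} ≤ Q)
      ).nontrivial_iff_card.1 ((nontrivial_iff_ne_bot _).2 h8)
    refine hd ?_
    rw [← card_cent_of_zp (e1.trans (Known.SC.zpowers_eq_of_card_prime hp
      (by rw [Nat.card_zpowers, e]) hh h0).symm)]
    exact (dvd_pow_self q hi.ne').trans (e2 ▸ card_dvd_of_le inf_le_right)
  rw [Nat.card_zpowers, e] at h7
  exact Eq.trans h7 (Nat.mod_eq_of_lt hp.one_lt)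

theorem card_sylow_gcd {q k m : ℕ} [Fact q.Prime] (h : Nat.card G ∣ q ^ k * m) (hm : ¬ q ∣ m)
    (Q : Sylow q G) : Nat.card Q = Nat.gcd (Nat.card G) (q ^ k) := by
  have hq : q.Prime := Fact.out
  obtain ⟨i, hi⟩ := IsPGroup.iff_card.1 Q.isPGroup'
  refine Nat.dvd_antisymm (Nat.dvd_gcd (card_subgroup_dvd_card _) ?_) ?_
  · exact (hi ▸ Nat.Coprime.pow_left i ((Nat.Prime.coprime_iff_not_dvd hq).2 hm)).dvd_of_dvd_mul_right
      ((card_subgroup_dvd_card _).trans h)
  · obtain ⟨j, -, hj⟩ := (Nat.dvd_prime_pow hq).1 (Nat.gcd_dvd_right (Nat.card G) (q ^ k))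
    rw [hj]
    exact Q.pow_dvd_card_of_pow_dvd_card (hj ▸ Nat.gcd_dvd_left _ _)

/-- Burnside's transfer theorem as a congruence for the orders of the Sylow subgroups. -/
theorem burn {M : Subgroup G} {s : G} {p q k m : ℕ} (hp : p.Prime) (hs : s ∈ M) (ho : orderOf s = p)
    (h2 : ¬ p ^ 2 ∣ Nat.card M) (hc : M ⊓ normalizer (zpowers s : Set G) ≤ centralizer {s})
    (hq : q.Prime) (hqp : q ≠ p) (hd : ¬ q ∣ Nat.card ↥(M ⊓ centralizer ({s} : Set G)))
    (h : Nat.card M ∣ q ^ k * m) (hm : ¬ q ∣ m) : Nat.gcd (Nat.card M) (q ^ k) % p = 1 := by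
  have := Fact.mk hq
  have e : centralizer {(⟨s, hs⟩ : M)} = (centralizer {s}).subgroupOf M := by
    ext a; simp [mem_subgroupOf, mem_centralizer_singleton_iff, Subtype.ext_iff]
  have e2 : zpowers (⟨s, hs⟩ : M) = (zpowers s).subgroupOf M := by
    ext a; exact ⟨fun ⟨i, e⟩ => ⟨i, congrArg Subtype.val e⟩, fun ⟨i, e⟩ => ⟨i, Subtype.ext e⟩⟩
  rw [← card_sylow_gcd h hm default]
  refine burn0 (s := ⟨s, hs⟩) hp (by rw [← ho, ← Subgroup.orderOf_coe]) h2 ?_ hqp
    (by rwa [e, card_subOf]) _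
  rw [e, e2, ← subgroupOf_normalizer_eq (zpowers_le.2 hs)]
  exact fun a ha => hc ⟨a.2, ha⟩

/-- prime, Sylow order, `|N(P) : P|`, the divisors of it -/
def tab : List (ℕ × ℕ × ℕ × List ℕ) :=
  [(43, 1, 14, [1, 2, 7, 14]), (37, 1, 12, [1, 2, 3, 4, 6, 12]), (31, 1, 10, [1, 2, 5, 10]),
   (29, 1, 28, [1, 2, 4, 7, 14, 28]), (23, 1, 22, [1, 2, 11, 22]),
   (7, 1, 360, [1, 2, 3, 4, 5, 6, 8, 9, 10, 12, 15, 18, 20, 24, 30, 36, 40, 45, 60, 72, 90, 120, 180, 360]),
   (5, 1, 5376, [1, 2, 3, 4, 6, 7, 8, 12, 14, 16, 21, 24, 28, 32, 42, 48, 56, 64, 84, 96, 112, 128, 168,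
     192, 224, 256, 336, 384, 448, 672, 768, 896, 1344, 1792, 2688, 5376]),
   (3, 3, 32, [1, 2, 4, 8, 16, 32]),
   (11, 3, 240, [1, 2, 3, 4, 5, 6, 8, 10, 12, 15, 16, 20, 24, 30, 40, 48, 60, 80, 120, 240])]

/-- the prime powers in the order -/
def pws : List (ℕ × ℕ) :=
  [(2, 21), (3, 3), (5, 1), (7, 1), (11, 3), (23, 1), (29, 1), (31, 1), (37, 1), (43, 1)]

theorem tab_spec : ∀ x ∈ tab, x.1.Prime ∧ ¬ x.1 ^ (x.2.1 + 1) ∣ 86775571046077562880 ∧
    ∀ e ≤ x.2.2.1, x.2.2.1 % e = 0 → e ∈ x.2.2.2 := by decide +kernel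

theorem pws_spec : ∀ x ∈ pws, x.1.Prime ∧ x.1 ^ x.2 ∣ 86775571046077562880 ∧
    ¬ x.1 ∣ 86775571046077562880 / x.1 ^ x.2 := by decide +kernel

variable (G) in
/-- The facts on the Sylow subgroups of `J₄` that are used. -/
structure Fx : Prop where
  card : Nat.card G = 86775571046077562880
  nrm : ∀ x ∈ tab, ∀ P : Subgroup G, Nat.card P = x.1 ^ x.2.1 →
    Nat.card (normalizer (P : Set G)) = x.1 ^ x.2.1 * x.2.2.1
  cen : ∀ a : G, orderOf a ∈ bigP → Nat.card (centralizer ({a} : Set G)) = orderOf a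
  ti : ∀ U : Subgroup G, Nat.card U = 11 ^ 3 → ∀ a, a ≠ 1 → a ∈ U → ∀ k,
    k⁻¹ * a * k ∈ normalizer (U : Set G) → k ∈ normalizer (U : Set G)
  n11 : ∀ a : G, orderOf a = 11 → 3 ∣ Nat.card (centralizer ({a} : Set G)) → ∃ U : Subgroup G,
    Nat.card U = 11 ^ 3 ∧ normalizer (zpowers a : Set G) = normalizer (U : Set G)

/-- the orders of the Sylow subgroups for primes not dividing `c` are `1` modulo `p` -/
noncomputable def burnB (n p c : ℕ) : Bool :=
  allL (fun x => cnd (Nat.beq x.1 p) true (cnd (Nat.beq (Nat.mod c x.1) 0) true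
    (Nat.beq (Nat.mod (Nat.gcd n (Nat.pow x.1 x.2)) p) 1))) pws

/-- `n = d * k` with `k ≡ 1` modulo `r` -/
noncomputable def cg (n d r : ℕ) : Bool :=
  band (Nat.beq (Nat.mod n d) 0) (Nat.beq (Nat.mod (Nat.div n d) r) 1)

theorem cg_of {n d r k : ℕ} (h : d * k = n) (h1 : k % r = 1) (hn : 0 < n) : cg n d r = true := by
  subst h
  have h2 : 0 < d := Nat.pos_of_mul_pos_right hn
  show band (Nat.beq (d * k % d) 0) (Nat.beq (d * k / d % r) 1) = true
  rw [Nat.mul_mod_right, Nat.mul_div_cancel_left _ h2, h1]; rfl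

/-- some element -/
noncomputable def anyL (f : ℕ → Bool) (L : List ℕ) : Bool :=
  List.rec false (fun a _ r => cnd (f a) true r) L

theorem anyL_of {f : ℕ → Bool} {L : List ℕ} {a : ℕ} (ha : a ∈ L) (h : f a = true) : anyL f L = true := by
  induction L with
  | nil => simp at ha
  | cons b L ih =>
    show cnd (f b) true (anyL f L) = true
    rcases List.mem_cons.1 ha with rfl | ha
    · rw [h]; rfl
    · rw [ih ha]; cases f b <;> rfl

/-- the Sylow count for one prime -/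
noncomputable def ok1 (n : ℕ) (x : ℕ × ℕ × ℕ × List ℕ) : Bool :=
  frc (Nat.pow x.1 x.2.1) fun q => cnd (Nat.beq (Nat.mod n q) 0) (anyL (fun e => band
    (cg n (Nat.mul q e) x.1) (cnd (Nat.blt x.1 20) true (cnd (Nat.beq e 1) (burnB n x.1 1) true)))
      x.2.2.2) true

/-- the count for the trivial intersection prime -/
noncomputable def ok11 (n : ℕ) : Bool := frc (Nat.gcd n 1331) fun q => cnd (Nat.beq q 1) true
  (anyL (fun e => cg n (Nat.mul q e) q)
    [1, 2, 3, 4, 5, 6, 8, 10, 12, 15, 16, 20, 24, 30, 40, 48, 60, 80, 120, 240])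

/-- the conditions on the order of a subgroup -/
noncomputable def okB (n : ℕ) : Bool := band (allL (ok1 n) tab) (ok11 n)

/-- all divisors -/
noncomputable def allDiv (f : ℕ → Bool) (L : List (ℕ × ℕ)) : ℕ → Bool :=
  List.rec f (fun x _ r a => allLT (Nat.succ x.2) fun i => frc (Nat.mul a (Nat.pow x.1 i)) r) L

theorem allDiv_sound {f : ℕ → Bool} {L : List (ℕ × ℕ)} (hp : ∀ x ∈ L, x.1.Prime) {a m : ℕ}
    (h : allDiv f L a = true) (hm : m ∣ (L.map fun x => x.1 ^ x.2).prod) : f (a * m) = true := by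
  induction L generalizing a m with
  | nil => rw [Nat.eq_one_of_dvd_one hm, mul_one]; exact h
  | cons x L ih =>
    obtain ⟨b, c, hb, hc, rfl⟩ := (Nat.dvd_mul ..).1 hm
    obtain ⟨i, hi, rfl⟩ := (Nat.dvd_prime_pow (hp x List.mem_cons_self)).1 hb
    rw [← mul_assoc]
    exact ih (fun y hy => hp y (List.mem_cons_of_mem _ hy)) (allLT_iff.1 (show allLT (Nat.succ x.2)
      (fun i => frc (Nat.mul a (Nat.pow x.1 i)) (allDiv f L)) = true from h) i (Nat.lt_succ_of_le hi)) hc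

namespace Fx

variable (h : Fx G)
include h

omit [Finite G] in
theorem dvd (K : Subgroup G) : Nat.card K ∣ 86775571046077562880 := h.card ▸ K.card_subgroup_dvd_card

theorem burnB_of {M : Subgroup G} {s : G} {p c : ℕ} (hp : p.Prime) (hs : s ∈ M) (ho : orderOf s = p)
    (h2 : ¬ p ^ 2 ∣ 86775571046077562880) (hc : M ⊓ normalizer (zpowers s : Set G) ≤ centralizer {s})
    (hd : Nat.card ↥(M ⊓ centralizer ({s} : Set G)) ∣ p * c) : burnB (Nat.card M) p c = true := by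
  refine allL_iff.2 fun x hx => ?_
  obtain ⟨a1, a2, a3⟩ := pws_spec x hx
  cases e1 : Nat.beq x.1 p
  · cases e2 : Nat.beq (Nat.mod c x.1) 0
    · have e3 := Nat.ne_of_beq_eq_false e1
      refine Nat.beq_eq.mpr (burn hp hs ho (fun e => h2 (e.trans (h.dvd M))) hc a1 e3 (fun e => ?_)
        (by rw [Nat.mul_div_cancel' a2]; exact h.dvd M) a3)
      rcases (Nat.Prime.dvd_mul a1).1 (e.trans hd) with e4 | e4
      · exact e3 ((Nat.prime_dvd_prime_iff_eq a1 hp).1 e4)
      · exact Nat.ne_of_beq_eq_false e2 (Nat.mod_eq_zero_of_dvd e4)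
    · rfl
  · rfl

/-- Sylow's count with the order of the normalizer. -/
theorem cong' {x : ℕ × ℕ × ℕ × List ℕ} (hx : x ∈ tab) {M P : Subgroup G} (hP : P ≤ M)
    (h1 : Nat.card P = x.1 ^ x.2.1) : ∃ e ∈ x.2.2.2, Nat.card ↥(M ⊓ normalizer (P : Set G)) =
      x.1 ^ x.2.1 * e ∧ cg (Nat.card M) (x.1 ^ x.2.1 * e) x.1 = true := by
  obtain ⟨a1, a2, a3⟩ := tab_spec x hx
  obtain ⟨n, h2, h3⟩ := cong a1 hP h1 fun e => a2 (e.trans (h.dvd M))
  obtain ⟨e, he⟩ := h1 ▸ card_dvd_of_le (le_inf hP le_normalizer : P ≤ M ⊓ normalizer (P : Set G))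
  have h4 := card_dvd_of_le (inf_le_right : M ⊓ normalizer (P : Set G) ≤ _)
  have h5 := h.nrm x hx P h1
  rw [h5, he, Nat.mul_dvd_mul_iff_left (pow_pos a1.pos _)] at h4
  exact ⟨e, a3 e (Nat.le_of_dvd (Nat.pos_of_mul_pos_left (h5 ▸ Nat.card_pos)) h4)
    (Nat.mod_eq_zero_of_dvd h4), he, cg_of (he ▸ h3) h2 Nat.card_pos⟩

theorem ok1_of (M : Subgroup G) {x : ℕ × ℕ × ℕ × List ℕ} (hx : x ∈ tab) : ok1 (Nat.card M) x = true := by
  obtain ⟨a1, a2, -⟩ := tab_spec x hx
  have := Fact.mk a1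
  unfold ok1
  rw [frc_eq]
  cases e1 : Nat.beq (Nat.mod (Nat.card M) (Nat.pow x.1 x.2.1)) 0
  · rfl
  obtain ⟨P, hP⟩ := Sylow.exists_subgroup_card_pow_prime x.1 (Nat.dvd_of_mod_eq_zero (beq e1))
  have h1 := (card_map_subtype P).trans hP
  obtain ⟨e, b1, b2, b3⟩ := h.cong' hx (map_subtype_le P) h1
  refine anyL_of b1 ?_
  rw [show cg (Nat.card M) (Nat.mul (Nat.pow x.1 x.2.1) e) x.1 = true from b3]
  cases e2 : Nat.blt x.1 20
  · cases e3 : Nat.beq e 1
    · rfl
    obtain ⟨c1, c2⟩ := (by decide : ∀ x ∈ tab, Nat.blt x.1 20 = false → x.2.1 = 1 ∧ x.1 ∈ bigP) x hx e2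
    rw [c1, pow_one] at h1
    rw [c1, beq e3, pow_one, mul_one] at b2
    rw [c1] at a2
    obtain ⟨s, hs, ho⟩ := exists_order (K := P.map M.subtype) a1 (h1 ▸ dvd_rfl)
    have e4 := eq_of_le_of_card_ge (zpowers_le.2 hs) (by rw [Nat.card_zpowers, ho, h1])
    refine h.burnB_of a1 (map_subtype_le P hs) ho a2 ?_ ?_
    · rw [e4, ← eq_of_le_of_card_ge (le_inf (map_subtype_le P) le_normalizer) (by rw [b2, h1]), ← e4]
      exact zpowers_le.2 (mem_centralizer_singleton_iff.2 rfl)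
    · rw [mul_one, ← ho, ← h.cen s (ho ▸ c2)]
      exact card_dvd_of_le inf_le_right
  · rfl

/-- The count of Sylow `11`-subgroups. -/
theorem cong11 {M U : Subgroup G} (hU : Nat.card U = 11 ^ 3) :
    ∃ n, n ≡ 1 [MOD Nat.card ↥(M ⊓ U)] ∧ Nat.card ↥(M ⊓ normalizer (U : Set G)) * n = Nat.card M := by
  have h1 := Walter.index_modEq_one_of_semiregular (A := U.subgroupOf M)
    (N := (normalizer (U : Set G)).subgroupOf M) (subgroupOf_mono _ le_normalizer)
    fun a ha h0 k hk => h.ti U hU a (fun e => h0 (Subtype.ext e)) ha k hk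
  exact ⟨_, card_subOf U M ▸ h1, by rw [← card_subOf, card_mul_index]⟩

theorem exists_U {W : Subgroup G} (hW : IsPGroup 11 W) : ∃ U, W ≤ U ∧ Nat.card U = 11 ^ 3 :=
  have : Fact (Nat.Prime 11) := ⟨by norm_num⟩
  let ⟨U, hU⟩ := hW.exists_le_sylow
  ⟨U, hU, Known.SC.sylow_card_eq_pow U (m := 65195770883604480) (by rw [h.card]; norm_num) (by norm_num)⟩

theorem ok11_of (M : Subgroup G) : ok11 (Nat.card M) = true := by
  have : Fact (Nat.Prime 11) := ⟨by norm_num⟩
  let W : Sylow 11 M := default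
  have h1 := card_sylow_gcd (k := 3) (m := 65195770883604480) (h.dvd M) (by norm_num) W
  obtain ⟨U, h2, hU⟩ := h.exists_U (W.isPGroup'.map M.subtype)
  have h3 : Nat.card ↥(M ⊓ U) = Nat.gcd (Nat.card M) 1331 :=
    Nat.dvd_antisymm (Nat.dvd_gcd (card_dvd_of_le inf_le_left) (by
      rw [show 1331 = 11 ^ 3 from rfl, ← hU]; exact card_dvd_of_le inf_le_right)) (by
      rw [show 1331 = 11 ^ 3 from rfl, ← h1, ← card_map_subtype]
      exact card_dvd_of_le (le_inf (map_subtype_le _) h2))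
  obtain ⟨n, h4, h5⟩ := h.cong11 (M := M) hU
  obtain ⟨e, he⟩ := card_dvd_of_le (inf_le_inf_left M (le_normalizer : U ≤ _))
  have h6 : ¬ 11 ∣ e := fun e1 => W.not_dvd_index (by
    have e2 := (W : Subgroup M).card_mul_index
    rw [h1, ← show 1331 = 11 ^ 3 from rfl, ← h3, ← h5, he, mul_assoc,
      Nat.mul_right_inj Nat.card_pos.ne'] at e2
    exact e2 ▸ e1.mul_right _)
  have h7 : e ∣ 11 ^ 3 * 240 := (Dvd.intro_left _ he.symm).trans ((card_dvd_of_le inf_le_right).trans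
    (h.nrm (11, 3, 240, _) (by simp [tab]; rfl) U hU).dvd)
  have h8 := (Nat.Coprime.pow_right 3 ((Nat.Prime.coprime_iff_not_dvd this.out).2 h6).symm
    ).dvd_of_dvd_mul_left h7
  unfold ok11
  rw [frc_eq, ← h3]
  cases e1 : Nat.beq (Nat.card ↥(M ⊓ U)) 1
  · rw [cnd_false]
    refine anyL_of (a := e) ?_ (cg_of (d := Nat.card ↥(M ⊓ U) * e) (r := Nat.card ↥(M ⊓ U))
      (he ▸ h5) (Eq.trans h4 (Nat.mod_eq_of_lt ?_)) Nat.card_pos)
    · exact (tab_spec (11, 3, 240, _) (by simp [tab])).2.2 e (Nat.le_of_dvd (by norm_num) h8)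
        (Nat.mod_eq_zero_of_dvd h8)
    · have := Nat.ne_of_beq_eq_false e1
      have : 0 < Nat.card ↥(M ⊓ U) := Nat.card_pos
      omega
  · rfl

theorem okB_of (M : Subgroup G) : okB (Nat.card M) = true := by
  rw [okB, allL_iff.2 fun x hx => h.ok1_of M hx, h.ok11_of]; rfl

/-- The order of `M` is a multiple of `a` that passes the Sylow counts. -/
theorem arith {M : Subgroup G} {a : ℕ} (ha : a ∣ Nat.card M) (L : List (ℕ × ℕ)) (f : ℕ → Bool)
    (e : (∀ x ∈ L, x.1 ∈ pws.map Prod.fst) ∧ a * (L.map fun x => x.1 ^ x.2).prod = 86775571046077562880 ∧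
      allDiv (fun n => cnd (f n) true (cnd (okB n) false true)) L a = true) : f (Nat.card M) = true := by
  obtain ⟨m, hm⟩ := ha
  have h1 := h.dvd M
  rw [← e.2.1, hm, Nat.mul_dvd_mul_iff_left (Nat.pos_of_mul_pos_right (hm ▸ Nat.card_pos))] at h1
  have h2 := allDiv_sound (fun x hx => by
    obtain ⟨y, hy, e1⟩ := List.mem_map.1 (e.1 x hx)
    exact e1 ▸ (pws_spec y hy).1) e.2.2 h1
  rw [← hm, h.okB_of] at h2
  revert h2
  cases f (Nat.card M) <;> simp [cnd]

/-- index at most two -/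
noncomputable def _root_.Cfsg.Lib.Spor.J4X.big (n : ℕ) : Bool := Nat.ble 43387785523038781440 n

theorem top_of [IsSimpleGroup G] {M : Subgroup G} (e : big (Nat.card M) = true) : M = ⊤ := by
  have h1 := M.card_mul_index
  have h2 := Nat.le_of_ble_eq_true e
  rw [h.card] at h1
  have h3 : M.index = 1 ∨ M.index = 2 := by
    have : M.index ≠ 0 := index_ne_zero_of_finite
    have : M.index < 3 := by
      by_contra! e
      have := Nat.mul_le_mul h2 e
      omega
    omega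
  refine h3.elim index_eq_one.1 fun e1 => ((normal_of_index_eq_two e1).eq_bot_or_eq_top).resolve_left ?_
  rintro rfl
  rw [card_bot] at h2
  omega

end Fx

theorem nrm_of {p k n : ℕ} [Fact p.Prime] (P0 : Sylow p G) (h : ¬ p ^ (k + 1) ∣ Nat.card G)
    (h0 : Nat.card (normalizer ((P0 : Subgroup G) : Set G)) = n) (P : Subgroup G)
    (hP : Nat.card P = p ^ k) : Nat.card (normalizer (P : Set G)) = n := by
  have h1 := Known.SC.card_normalizer_mul_card_sylow ((IsPGroup.of_card hP).toSylow fun e => h (by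
    rw [← P.card_mul_index, hP, pow_succ]; exact Nat.mul_dvd_mul_left _ e))
  exact Nat.eq_of_mul_eq_mul_right Nat.card_pos (h1.trans
    (h0 ▸ (Known.SC.card_normalizer_mul_card_sylow P0).symm))

theorem el_ti {z x g w : G} {Q U : Subgroup G} {p ρ : G → Equiv.Perm GolayPt} {v : Finset GolayPt → G}
    {κ : M24 →* G} (h : El z x g w Q U p v ρ κ) {a : G} (h0 : a ≠ 1) (ha : a ∈ U) (c : G)
    (hc : c⁻¹ * a * c ∈ normalizer (U : Set G)) : c ∈ normalizer (U : Set G) := by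
  have k1 : ∀ b ∈ U, c⁻¹ * b * c ∈ normalizer (U : Set G) → c⁻¹ * b * c ∈ U := fun b hb e => by
    refine h.le_U (S := zpowers _) ?_ (zpowers_le.2 e) (mem_zpowers _)
    have := isPGroup_conj_smul ((IsPGroup.of_card h.cardU).to_le (zpowers_le.2 hb)) c⁻¹
    rwa [conj_smul_zpowers, inv_inv] at this
  have h1 := k1 a ha hc
  have h2 : centralizer {c⁻¹ * a * c} ≤ normalizer (U : Set G) := by
    by_cases e : c⁻¹ * a * c ∈ zpowers g
    · obtain ⟨n, hn, e1⟩ := h.conj_g e fun e1 => h0 (conj_eq_one_iff.1 (by rwa [inv_inv]))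
      exact fun y hy => by
        convert mul_mem (mul_mem hn (h.normU (cent_conj_mem (e1 ▸ hy)))) (inv_mem hn) using 1; group
    · obtain ⟨n, hn, e1⟩ := h.cnt_w.1 _ h1 e
      exact fun y hy => by
        convert mul_mem (mul_mem hn (h.cnt_w.2 (cent_conj_mem (e1 ▸ hy)))) (inv_mem hn) using 1; group
  have h3 := k1 g h.gU (h2 (mem_centralizer_singleton_iff.2 (by
    rw [(by group : c⁻¹ * g * c * (c⁻¹ * a * c) = c⁻¹ * (g * a) * c),
      ← mem_centralizer_singleton_iff.1 (h.U_le ha)]; group)))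
  rw [← inv_mem_iff, ← h.norm_eq]
  refine mem_norm_zp (by_contra fun e => ?_)
  rw [inv_inv] at e
  obtain ⟨n, -, e1⟩ := h.cnt_w.1 _ h3 e
  exact h.not_mem_zp (mem_zpowers g) h.g_ne (isConj_iff.2 ⟨c * n, by
    rw [mul_inv_rev, ← mul_assoc, mul_assoc c, mul_assoc c, e1]; group⟩)

theorem fx_of [IsSimpleGroup G] (hJ : IsOfJankoFourType G) : Fx G := by
  obtain ⟨z, x, g, w, U, p, v, ρ, κ, t, -, h⟩ := J4D.exists_el hJ
  obtain ⟨φ, k⟩ := h.fw.exists_pw
  refine ⟨h.card, fun y hy P hP => ?_, fun a ha => by rw [h.big_cent ha rfl, Nat.card_zpowers], fun U' hU a h0 ha c hc => ?_,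
    fun a ha h3 => ?_⟩
  · have hq := tab_spec y hy
    have := Fact.mk hq.1
    simp only [tab, List.mem_cons, List.not_mem_nil, or_false] at hy
    rcases hy with rfl | rfl | rfl | rfl | rfl | rfl | rfl | rfl | rfl
    iterate 5 exact nrm_of default (h.card ▸ hq.2.1) (h.big_sylow (by decide) (by decide) _).2 P hP
    · exact (k.seven hP).2.2.2
    · exact (k.five' hP).2.2.2
    · obtain ⟨S, h1, h2, hx, hn⟩ := Agent.S5565.exists_S h.toSp
      exact nrm_of S (h.card ▸ hq.2.1) (Agent.S5565.card_norm h.toSp (h.card_sylow S) h1 h2 hx hn) P hP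
    · have : Fact (Nat.Prime 11) := ⟨by norm_num⟩
      exact nrm_of ((IsPGroup.of_card h.cardU).toSylow (h.not_dvd_index h.cardU))
        (h.card ▸ hq.2.1) h.cardN P hP
  · obtain ⟨n, -, hn⟩ := h.exists_conj_le h.cardU (IsPGroup.of_card hU) le_top le_top
    have e : U' = MulAut.conj n⁻¹ • U := eq_of_le_of_card_ge (fun s hs => by
      simpa [mem_pointwise_smul_iff_inv_smul_mem] using hn s hs) (by rw [card_conj_smul, hU, h.cardU])
    rw [e, ← conj_smul_normalizer, mem_pointwise_smul_iff_inv_smul_mem] at hc ⊢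
    have := el_ti h (a := n * a * n⁻¹) (fun e1 => h0 (conj_eq_one_iff.1 e1)) (hn a ha) (n * c * n⁻¹)
      (by simpa [mul_assoc] using hc)
    simpa using this
  · rcases h.classes (IsPGroup.of_card (n := 1) (G := zpowers a) (by
      rw [Nat.card_zpowers, ha, pow_one])) with e | e | e
    · simp [e] at ha
    · obtain ⟨c, rfl⟩ := isConj_iff.1 e
      exact ⟨MulAut.conj c • U, (card_conj_smul _ _).trans h.cardU, by
        rw [← conj_smul_normalizer, ← h.norm_eq, conj_smul_normalizer, conj_smul_zpowers]⟩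
    · rw [card_cent_of_conj e, h.cw] at h3
      omega

end Cfsg.Lib.Spor.J4X
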