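import Cfsg.Agent.Spor.J4MxA
import Cfsg.Agent.S0242
import Cfsg.Agent.S5570
import Cfsg.Agent.S5574

/-! Three maximal `2`-local subgroups of groups of type `J₄`. -/

set_option autoImplicit false
set_option maxRecDepth 100000

namespace Cfsg.Lib.Spor.J4X

open Subgroup Cfsg.Lib.Spor.Bulk Cfsg.Lib.Spor.JD Cfsg.Lib.SporChar Cfsg.Lib.SporChar.J4C
  Cfsg.Lib.SporChar.J4D Cfsg.Lib.Solv MulAction
open scoped Pointwise

variable {G : Type*} [Group G] [Finite G]

theorem normal_of_core {A : Subgroup G} (hA : IsPGroup 2 A) (hc : centralizer (A : Set G) ≤ A)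
    (irr : ∀ W ≤ A, normalizer (A : Set G) ≤ normalizer (W : Set G) → W = ⊥ ∨ W = A)
    (h : A ⊓ (normalizer (A : Set G)).normalCore ≠ ⊥) : A.Normal := by
  have : Fact (Nat.Prime 2) := ⟨Nat.prime_two⟩
  set K := (normalizer (A : Set G)).normalCore
  have h1 : A ≤ K := inf_eq_left.1 ((irr _ inf_le_left
    (le_normalizer_inf le_rfl (normalizer_eq_top K ▸ le_top))).resolve_left h)
  let S : Sylow 2 K := default
  have h2 : ∀ k : G, (MulAut.conj k • A).subgroupOf K ≤ S := fun k =>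
    have : ((MulAut.conj k • A).subgroupOf K).Normal := normal_subgroupOf_of_le_normalizer (by
      rw [← conj_smul_normalizer]
      exact fun y hy => mem_conj_smul.2 (normalCore_le _ ((normalCore_normal _).conj_mem' y hy k)))
    IsPGroup.le_sylow_of_normal (N := (MulAut.conj k • A).subgroupOf K)
      (isPGroup_conj_smul hA k).comap_subtype S
  have h3 : Nontrivial S := (nontrivial_iff_ne_bot _).2 fun e => h (eq_bot_iff.2 fun a ha =>
    congrArg Subtype.val (mem_bot.1 (e.le (h2 1 (x := ⟨a, ha.2⟩) (by simpa [mem_subgroupOf] using ha.1)))))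
  obtain ⟨y, hy⟩ := @exists_ne _ S.isPGroup'.center_nontrivial 1
  refine ((irr _ (normalCore_le A) (normalizer_eq_top A.normalCore ▸ le_top)).resolve_left
    fun e => hy ?_) ▸ normalCore_normal A
  refine Subtype.ext (Subtype.ext (Subtype.ext (mem_bot.1 (e.le fun k => hc fun a ha => ?_))))
  have h4 : k⁻¹ * a * k ∈ K := (normalCore_normal _).conj_mem' a (h1 ha) k
  have h5 := congrArg (fun s : S => ((s : K) : G)) (mem_center_iff.1 y.2 ⟨⟨_, h4⟩, h2 k⁻¹
    (mem_subgroupOf.2 (mem_conj_smul.2 (by simpa [mul_assoc] using ha)))⟩)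
  simp only [coe_mul] at h5
  calc a * (k * y * k⁻¹) = k * (k⁻¹ * a * k * y) * k⁻¹ := by group
    _ = _ := by rw [h5]; group

omit [Finite G] in
theorem card_fix_mod {Ω : Type*} [Finite Ω] [MulAction G Ω] {P : Subgroup G} {p : ℕ} (hp : p.Prime)
    (h : IsPGroup p P) : Nat.card Ω % p = {ω : Ω | ∀ g ∈ P, g • ω = ω}.ncard % p := by
  have := Fact.mk hp
  refine (h.card_modEq_card_fixedPoints Ω).trans ?_
  rw [← Nat.card_coe_set_eq]
  congr 3
  ext ω
  exact ⟨fun h g hg => h ⟨g, hg⟩, fun h g => h g g.2⟩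

omit [Finite G] in
theorem fix33 {Ω : Type*} [Finite Ω] [MulAction G Ω] (hΩ : Nat.card Ω = 33) {A : Subgroup G} {r : G}
    (hA : Nat.card A = 2 ^ 10) (hr : r ∈ normalizer (A : Set G)) (ho : orderOf r = 31)
    (hc : ∀ a ∈ A, r * a * r⁻¹ = a → a = 1) {b : Ω} (h1 : ∀ a ∈ A, a • b = b) (h2 : r • b = b) :
    ∃ a ∈ A, a ≠ 1 ∧ ∀ ω : Ω, a • ω = ω := by
  have h3 := card_fix_mod (Ω := Ω) (p := 31) (by norm_num) (IsPGroup.of_card (n := 1) (G := zpowers r)
    (by rw [Nat.card_zpowers, ho, pow_one]))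
  obtain ⟨c, hc1, hc2⟩ := Set.exists_ne_of_one_lt_ncard (s := {ω : Ω | ∀ g ∈ zpowers r, g • ω = ω})
    (by omega) b
  have h4 : r • c = c := hc1 r (mem_zpowers r)
  let B := A ⊓ stabilizer G c
  have h5 : ∃ a ∈ B, a ≠ 1 := by
    by_contra! e
    have k1 := card_stab (G := A) c
    rw [(stabilizer A c).eq_bot_iff_forall.2 fun a ha => Subtype.ext (e a ⟨a.2, ha⟩), card_bot, hA] at k1
    have := Set.ncard_le_card (orbit A c)
    omega
  have h6 := card_fix_mod (Ω := Ω) Nat.prime_two ((IsPGroup.of_card hA).to_le (inf_le_left : B ≤ A))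
  set F := {ω : Ω | ∀ g ∈ B, g • ω = ω}
  have h7 : 2 ≤ F.ncard := (Set.ncard_pair hc2).ge.trans (Set.ncard_le_ncard (by
    rintro _ (rfl | rfl)
    exacts [fun g hg => hg.2, fun g hg => h1 g hg.1]))
  have h8 : ∀ n ∈ zpowers r, ∀ g ∈ B, n * g * n⁻¹ ∈ B := fun n hn g hg =>
    ⟨conj_mem_of_mem_normalizer (zpowers_le.2 hr hn) hg.1, (stabilizer G c).mul_mem
      ((stabilizer G c).mul_mem (hc1 n hn) hg.2) (hc1 _ (inv_mem hn))⟩
  have h9 : ∀ ω ∉ F, r • ω = ω := fun ω hω => by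
    have k1 := card_stab (G := zpowers r) ω
    rw [Nat.card_zpowers, ho] at k1
    have k2 : orbit (zpowers r) ω ⊆ Fᶜ := by
      rintro _ ⟨n, rfl⟩ e
      refine hω fun g hg => ?_
      have : ((n : G) * g * (n : G)⁻¹) • (n : G) • ω = (n : G) • ω := e _ (h8 n n.2 g hg)
      rwa [mul_smul, mul_smul, inv_smul_smul, smul_left_cancel_iff] at this
    have k3 := Set.ncard_le_ncard k2
    have k4 := Set.ncard_add_ncard_compl F
    have k5 := (Nat.dvd_prime (by norm_num : Nat.Prime 31)).1 (Dvd.intro_left _ k1)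
    obtain ⟨d, hd⟩ := Set.ncard_eq_one.1 (k5.resolve_right (by omega))
    exact (hd.le ⟨⟨r, mem_zpowers r⟩, rfl⟩).trans (hd.le (mem_orbit_self ω)).symm
  obtain ⟨a, ha, h0⟩ := h5
  refine ⟨r * a * r⁻¹ * a⁻¹, mul_mem (h8 r (mem_zpowers r) a ha).1 (inv_mem ha.1),
    fun e => h0 (hc a ha.1 (mul_inv_eq_one.1 e)), fun ω => ?_⟩
  by_cases e : ω ∈ F
  · exact e _ (mul_mem (h8 r (mem_zpowers r) a ha) (inv_mem ha))
  · have k1 : a⁻¹ • ω ∉ F := fun e1 => e (by
      rwa [show ω = a⁻¹ • ω from (smul_inv_smul a ω).symm.trans (e1 a ha)])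
    rw [mul_smul, mul_smul, mul_smul, inv_smul_eq_iff.2 (h9 _ k1).symm, smul_inv_smul, h9 _ e]

theorem coatom_of {H : Subgroup G} (h0 : H ≠ ⊤)
    (h : ∀ M, H ≤ M → Nat.card M = Nat.card H ∨ M = ⊤) : IsCoatom H :=
  ⟨h0, fun M hM => (h M hM.le).resolve_left fun e => hM.ne (eq_of_le_of_card_ge hM.le e.le)⟩

/-- the order is `a`, or large, or the condition `c` fails -/
noncomputable def fin (a : ℕ) (c : ℕ → Bool) (n : ℕ) : Bool :=
  cnd (Nat.beq n a) true (cnd (big n) true (cnd (c n) false true))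

namespace Fx

variable (h : Fx G)
include h

theorem fin_spec [IsSimpleGroup G] {M : Subgroup G} {a : ℕ} {c : ℕ → Bool}
    (e : fin a c (Nat.card M) = true) (hc : c (Nat.card M) = true) : Nat.card M = a ∨ M = ⊤ := by
  rcases cnd_beq e with ⟨e1, -⟩ | ⟨-, e1⟩
  · exact Or.inl e1
  · refine Or.inr (h.top_of ?_)
    rw [hc] at e1
    revert e1
    cases big (Nat.card M) <;> simp [cnd]

theorem cg_full {x : ℕ × ℕ × ℕ × List ℕ} (hx : x ∈ tab) {M P : Subgroup G}
    (hP : normalizer (P : Set G) ≤ M) (h1 : Nat.card P = x.1 ^ x.2.1) :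
    cg (Nat.card M) (x.1 ^ x.2.1 * x.2.2.1) x.1 = true := by
  obtain ⟨e, -, h2, h3⟩ := h.cong' hx (le_normalizer.trans hP) h1
  rwa [← h2, inf_eq_right.2 hP, h.nrm x hx P h1] at h3

theorem cong2 {x : ℕ × ℕ × ℕ × List ℕ} (hx : x ∈ tab) {H M P : Subgroup G} (hP : P ≤ H) (hH : H ≤ M)
    (h1 : Nat.card P = x.1 ^ x.2.1) : ∃ d ∈ x.2.2.2, ∃ e ∈ x.2.2.2, d ∣ e ∧
      Nat.card ↥(H ⊓ normalizer (P : Set G)) = x.1 ^ x.2.1 * d ∧
      cg (Nat.card H) (x.1 ^ x.2.1 * d) x.1 = true ∧ cg (Nat.card M) (x.1 ^ x.2.1 * e) x.1 = true := by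
  obtain ⟨d, a1, a2, a3⟩ := h.cong' hx hP h1
  obtain ⟨e, b1, b2, b3⟩ := h.cong' hx (hP.trans hH) h1
  have h2 := card_dvd_of_le (inf_le_inf_right (normalizer (P : Set G)) hH)
  rw [a2, b2, Nat.mul_dvd_mul_iff_left (pow_pos (tab_spec x hx).1.pos _)] at h2
  exact ⟨d, a1, e, b1, h2, a2, a3, b3⟩

/-- The count modulo seven over a subgroup in which an element of order seven centralizes an
involution. -/
theorem seven {H M : Subgroup G} {s a : G} (hs : s ∈ H) (ha : a ∈ H) (hH : H ≤ M) (h1 : orderOf s = 7)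
    (h2 : orderOf a = 2) (h3 : a ∈ centralizer {s}) (h4 : Nat.card H / 7 % 7 = 1) :
    anyL (fun e => cg (Nat.card M) (7 * e) 7) [8, 24, 36, 40, 72, 120, 180, 360] = true := by
  obtain ⟨d, a1, e, a2, a3, a4, a5, a6⟩ := h.cong2 (x := (7, 1, 360, _)) (by simp [tab]; rfl)
    (zpowers_le.2 hs) hH (by rw [Nat.card_zpowers, h1]; rfl)
  have h5 := orderOf_dvd_card' (mem_inf.2 ⟨ha, mem_norm_zp (y := s) (by
    rw [mem_cent.1 h3]; exact mem_zpowers s)⟩)
  rw [a4, h2] at h5
  obtain ⟨k, hk⟩ := Nat.dvd_of_mod_eq_zero (beq (band_left a5))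
  have h6 : 7 ^ 1 * d * k / (7 ^ 1 * d) % 7 = 1 := hk ▸ beq (band_right a5)
  have h7 : d % 7 = 1 := by
    have h8 : 0 < d := by clear * - a1; revert d; decide
    rw [Nat.mul_div_cancel_left _ (by positivity)] at h6
    rwa [hk, pow_one, mul_assoc, Nat.mul_div_cancel_left _ (by norm_num), Nat.mul_mod, h6, mul_one,
      Nat.mod_mod] at h4
  exact anyL_of (a := e) (by
    clear * - a1 a2 a3 h5 h7; revert h5 h7 a3; revert e; revert d; decide +kernel) a6

end Fx

variable [IsSimpleGroup G] (hG : ¬ IsMulCommutative G)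
include hG

theorem coatom_cent {z : G} (hJ : IsOfJankoFourTypeAt z) : IsCoatom (centralizer ({z} : Set G)) := by
  have h := fx_of ⟨z, hJ⟩
  have : Fact (Nat.Prime 3) := ⟨Nat.prime_three⟩
  obtain ⟨P, hP⟩ := id hJ
  obtain ⟨x, p, v, ρ, κ, -, ⟨k, -⟩⟩ := J4B.exists_out hP
  have h1 := k.fw.card_H
  refine coatom_of (fun e => by rw [e, card_top, h.card] at h1; omega) fun M hM => ?_
  obtain ⟨S, h2, -⟩ := Agent.S5565.exists_S k
  have h3 := h.cg_full (x := (3, 3, 32, _)) (by simp [tab]; rfl)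
    ((Agent.S5565.result hG z hJ S (h2.trans k.cent_x)).2.2.2.1.trans hM) (k.card_sylow S)
  obtain ⟨s, hs, ho⟩ := exists_order (K := centralizer {z}) (p := 7) (by norm_num) (by rw [h1]; norm_num)
  have h4 := h.seven hs (mem_centralizer_singleton_iff.2 rfl) hM ho k.pre.ord (cent_symm hs)
    (by rw [h1]; norm_num)
  rw [h1]
  refine h.fin_spec (c := fun n => band (cg n 864 3)
    (anyL (fun e => cg n (7 * e) 7) [8, 24, 36, 40, 72, 120, 180, 360])) (h.arith
    (h1 ▸ card_dvd_of_le hM) [(11, 2), (23, 1), (29, 1), (31, 1), (37, 1), (43, 1)] _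
    (by decide +kernel)) (by rw [h4]; exact congrArg (band · true) h3)

theorem coatom_pentad (hJ : IsOfJankoFourType G) : ∃ L : Subgroup G, IsSpecial 2 L ∧
    Nat.card L = 2 ^ 15 ∧ Nat.card (center L) = 8 ∧ IsCoatom (normalizer (L : Set G)) := by
  have h := fx_of hJ
  have : Fact (Nat.Prime 5) := ⟨by norm_num⟩
  have : Fact (Nat.Prime 7) := ⟨by norm_num⟩
  obtain ⟨L, a1, a2, a3, ⟨e⟩, -, -, -, ⟨Q, hQ⟩, ⟨S, hS⟩⟩ := Agent.S5574.result hG hJ
  have h1 : Nat.card (normalizer (L : Set G)) = 660602880 := by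
    have := Agent.S0242.result (ZMod.card 2) 3 (by norm_num)
    rw [card_eq_card_quotient_mul_card_subgroup (L.subgroupOf _), card_subgroupOf_of_le le_normalizer,
      a2, Nat.card_congr e.toEquiv, Nat.card_prod, Nat.card_perm, (one_mul _).symm.trans this]
    simp [Fin.prod_univ_succ, Nat.factorial]
  refine ⟨L, a1, a2, a3, coatom_of (fun e => by rw [e, card_top, h.card] at h1; omega) fun M hM => ?_⟩
  have h3 := h.cg_full (x := (5, 1, 5376, _)) (by simp [tab]; rfl) (hQ.trans hM)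
    (Known.SC.sylow_card_eq_pow Q (m := 17355114209215512576) (by rw [h.card]; norm_num) (by norm_num))
  have h4 := h.cg_full (x := (7, 1, 360, _)) (by simp [tab]; rfl) (hS.trans hM)
    (Known.SC.sylow_card_eq_pow S (m := 12396510149439651840) (by rw [h.card]; norm_num) (by norm_num))
  rw [h1]
  refine h.fin_spec (c := fun n => band (cg n 26880 5) (cg n 2520 7)) (h.arith
    (h1 ▸ card_dvd_of_le hM) [(3, 1), (11, 3), (23, 1), (29, 1), (31, 1), (37, 1), (43, 1)] _
    (by decide +kernel)) (by rw [show cg _ 2520 7 = true from h4]; exact congrArg (band · true) h3)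

theorem coatom_ten (hJ : IsOfJankoFourType G) {A : Subgroup G} (a1 : IsElementaryAbelian 2 A)
    (a2 : Nat.card A = 2 ^ 10) (a3 : centralizer (A : Set G) = A) :
    IsCoatom (normalizer (A : Set G)) := by
  have h := fx_of hJ
  obtain ⟨⟨B, b1, b2, b3, ⟨e⟩⟩, irr⟩ := (Agent.S5570.result hG hJ).2.2 A a1 a2 a3
  have h1 : Nat.card (normalizer (A : Set G)) = 10239344640 := by
    have := Agent.S0242.result (ZMod.card 2) 5 (by norm_num)
    rw [← b3, sup_comm, card_sup_of_disjoint_of_le_normalizer b1 (inf_comm A B ▸ b2),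
      a2, Nat.card_congr e.toEquiv, (one_mul _).symm.trans this]
    simp [Fin.prod_univ_succ]
  refine coatom_of (fun e => by rw [e, card_top, h.card] at h1; omega) fun M hM => ?_
  obtain ⟨s, hs, ho⟩ := exists_order (K := normalizer (A : Set G)) (p := 7) (by norm_num)
    (by rw [h1]; norm_num)
  obtain ⟨r, hr, hro⟩ := exists_order (K := normalizer (A : Set G)) (p := 31) (by norm_num)
    (by rw [h1]; norm_num)
  obtain ⟨a, ha, h0, h2⟩ : ∃ a ∈ A, a ≠ 1 ∧ a ∈ centralizer {s} := by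
    by_contra! e1
    have := Fpf.card_modEq_one (K := A) (zpowers_le.2 hs) fun t ht h0 => eq_bot_iff.2 fun a ha =>
      by_contra fun e2 => e1 a ha.1 e2 (cent_eq_of_mem ht ((Known.SC.zpowers_eq_of_card_prime (p := 7)
        (by norm_num) (by rw [Nat.card_zpowers, ho]) ht h0).ge (mem_zpowers s)) ▸ ha.2)
    rw [a2, Nat.card_zpowers, ho] at this
    exact absurd this (by decide)
  have h3 := h.seven hs (le_normalizer ha) hM ho (orderOf_eq_prime (a1.2 a ha) h0) h2
    (by rw [h1])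
  obtain ⟨d, c1, f, c2, c3, -, c5, c6⟩ := h.cong2 (x := (31, 1, 10, _)) (by simp [tab]; rfl)
    (zpowers_le.2 hr) hM (by rw [Nat.card_zpowers, hro]; rfl)
  rw [h1] at c5 ⊢
  have h4 : anyL (fun e => cg (Nat.card M) (31 * e) 31) [5, 10] = true :=
    anyL_of (a := f) (by clear * - c1 c2 c3 c5; revert c5 c3; revert f; revert d; decide +kernel) c6
  have h5 := h.arith (h1 ▸ card_dvd_of_le hM) [(2, 1), (3, 1), (11, 3), (23, 1), (29, 1), (37, 1), (43, 1)]
    (fun n => cnd (Nat.beq n (10239344640 * 2)) true (cnd (Nat.beq n (10239344640 * 33)) true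
      (fin 10239344640 (fun n => band (anyL (fun e => cg n (31 * e) 31) [5, 10])
    (anyL (fun e => cg n (7 * e) 7) [8, 24, 36, 40, 72, 120, 180, 360])) n))) (by decide +kernel)
  have hA := le_normalizer.trans hM
  have key : A.subgroupOf M ⊓ (normalizer (A.subgroupOf M : Set M)).normalCore ≠ ⊥ →
      Nat.card M = 10239344640 ∨ M = ⊤ := fun k => Or.inl (by
    have := normal_of_core (IsPGroup.of_card a2).comap_subtype (fun c hc => a3.le fun a ha =>
      congrArg Subtype.val (hc ⟨a, hA ha⟩ ha)) (fun W h6 h7 => by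
        refine (irr (W.map M.subtype) (map_le_iff_le_comap.2 h6) fun n hn => le_normalizer_map _
          ⟨⟨n, hM hn⟩, h7 (subgroupOf_normalizer_eq hA ▸ hn), rfl⟩).imp
          (fun e => (map_subtype_inj.1 (e.trans (Subgroup.map_bot _).symm))) fun e => ?_
        rw [← e, comap_map_eq_self_of_injective M.subtype_injective]) k
    rw [← le_antisymm hM ((normal_subgroupOf_iff_le_normalizer hA).1 this), h1])
  have h6 := ((normalizer (A : Set G)).subgroupOf M).card_mul_index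
  rw [card_subgroupOf_of_le hM, h1, subgroupOf_normalizer_eq hA] at h6
  rcases cnd_beq h5 with ⟨e1, -⟩ | ⟨-, e1⟩
  · have := normal_of_index_eq_two (H := normalizer (A.subgroupOf M : Set M)) (by omega)
    refine key fun e2 => h0 (congrArg Subtype.val (mem_bot.1 (e2.le (x := ⟨a, hA ha⟩) ⟨ha, ?_⟩)))
    rw [normalCore_eq_self]
    exact le_normalizer ha
  rcases cnd_beq e1 with ⟨e1, -⟩ | ⟨-, e1⟩
  · have hr' : (⟨r, hM hr⟩ : M) ∈ normalizer (A.subgroupOf M : Set M) := subgroupOf_normalizer_eq hA ▸ hr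
    obtain ⟨b, k1, k2, k3⟩ := fix33 (Ω := M ⧸ normalizer (A.subgroupOf M : Set M))
      (b := ((1 : M) : _ ⧸ _)) (show index _ = 33 by omega) ((card_subgroupOf_of_le hA).trans a2) hr'
      (by rw [← Subgroup.orderOf_coe, hro]) (fun b hb e2 => Subtype.ext (orderOf_eq_one_iff.1
        (Nat.eq_one_of_dvd_coprimes (by norm_num : Nat.Coprime 2 31)
        (orderOf_dvd_of_pow_eq_one (a1.2 b hb)) (by
          rw [← hro, ← h.cen r (by rw [hro]; decide)]
          exact orderOf_dvd_card' (cent_symm (mem_cent.2 (congrArg Subtype.val e2)))))))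
      (fun b hb => QuotientGroup.eq.2 (by simpa using le_normalizer hb))
      (QuotientGroup.eq.2 (by simpa using hr'))
    refine key fun e2 => k2 (mem_bot.1 (e2.le ⟨k1, ?_⟩))
    rw [normalCore_eq_ker]
    exact Equiv.ext k3
  · exact h.fin_spec e1 (by rw [h3, h4]; rfl)

end Cfsg.Lib.Spor.J4X
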