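import Cfsg.Agent.Spor.J4MxB
import Cfsg.Agent.Spor.J4Two
import Cfsg.Agent.Spor.J4Type

/-! Computations with the matrices of degree `112` of `J₄`: words, orders, coset covers. -/

set_option autoImplicit false
set_option maxRecDepth 100000
set_option exponentiation.threshold 20000

namespace Cfsg.Lib.Spor.J4X

open Subgroup Cfsg.Lib.Spor.Bulk Cfsg.Lib.Spor.JD Cfsg.Lib.Spor.J4P Cfsg.Lib.SporChar
  Cfsg.Lib.SporChar.J4C Cfsg.Lib.Solv

section abs
variable {G : Type*} [Group G] [Finite G]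

theorem le_of_pw {K L : Subgroup G} (hK : K ≤ L) {ys : List G} (hy : ∀ y ∈ ys, y ∈ L)
    (hd : ys.Pairwise fun a b => a * b⁻¹ ∉ K) : ys.length * Nat.card K ≤ Nat.card L := by
  have h := Nat.card_le_card_of_injective (fun x : Fin ys.length × K =>
    (⟨x.2 * ys[x.1], L.mul_mem (hK x.2.2) (hy _ (List.getElem_mem _))⟩ : L)) (by
    rintro ⟨i, a⟩ ⟨j, b⟩ e
    have e1 : (a : G) * ys[i] = b * ys[j] := congrArg Subtype.val e
    have e2 : ys[i] * ys[j]⁻¹ ∈ K := by
      rw [show ys[i] * ys[j]⁻¹ = (a : G)⁻¹ * b by rw [eq_inv_mul_iff_mul_eq, ← mul_assoc, e1]; group]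
      exact K.mul_mem (K.inv_mem a.2) b.2
    obtain rfl : i = j := by
      rcases lt_trichotomy i j with h | h | h
      · exact absurd e2 (List.pairwise_iff_getElem.1 hd i j i.2 j.2 h)
      · exact h
      · exact absurd (by simpa using K.inv_mem e2) (List.pairwise_iff_getElem.1 hd j i j.2 i.2 h)
    rw [Subtype.ext (mul_right_cancel e1 : (a : G) = b)])
  simpa using h

theorem cov_of_pw {K L : Subgroup G} (hK : K ≤ L) {ys : List G} (hy : ∀ y ∈ ys, y ∈ L)
    (hd : ys.Pairwise fun a b => a * b⁻¹ ∉ K) (hc : Nat.card L ≤ ys.length * Nat.card K) {g : G}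
    (hg : g ∈ L) : ∃ y ∈ ys, g * y⁻¹ ∈ K := by
  by_contra! h
  have h1 := le_of_pw hK (List.forall_mem_cons.2 ⟨hg, hy⟩) (List.pairwise_cons.2 ⟨h, hd⟩)
  have h2 : 0 < Nat.card K := Nat.card_pos
  rw [List.length_cons, add_mul] at h1
  omega

end abs

/-- `m` is the matrix of an element of `K` -/
def In (K : Subgroup Cfsg.Spor.J4) (m : ℕ) : Prop := ∃ g ∈ K, MR g m

open Classical in
/-- the element with a given matrix -/
noncomputable def el (m : ℕ) : Cfsg.Spor.J4 := if h : In ⊤ m then h.choose else 1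

variable {K : Subgroup Cfsg.Spor.J4} {g h : Cfsg.Spor.J4} {a b : ℕ}

theorem eqB (ha : MR g a) (hb : MR h b) (e : Nat.beq a b = true) : g = h := ψ_injective (ha.eq hb e)

theorem el_eq (ha : MR g a) : el a = g := by
  have h : In ⊤ a := ⟨g, trivial, ha⟩
  rw [el, dif_pos h]
  exact eqB h.choose_spec.2 ha (Nat.beq_refl a)

theorem In.mr (h : In K a) : MR (el a) a := let ⟨_, _, e⟩ := h; el_eq e ▸ e

theorem In.mem (h : In K a) : el a ∈ K := let ⟨_, e1, e⟩ := h; el_eq e ▸ e1

theorem In.mul (ha : In K a) (hb : In K b) : In K (MG.mul2 112 a b) :=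
  ⟨_, K.mul_mem ha.mem hb.mem, ha.mr.mul hb.mr⟩

theorem In.code (ha : In K a) (e : Nat.beq a b = true) : In K b := beq e ▸ ha

theorem in_one : In K mone := ⟨1, K.one_mem, mr_one⟩

theorem in_getN {P : List ℕ} (h : ∀ c ∈ P, In K c) (i : ℕ) : In K (getN mone P i) := mr_getN h i

/-- the loop of `wd` -/
noncomputable def wd1 (P : List ℕ) (n : ℕ) : ℕ → ℕ → ℕ :=
  Nat.rec (fun _ a => a) (fun _ r V a => cnd (Nat.beq V 0) a
    (frc (MG.mul2 112 a (getN mone P (Nat.land V 15))) fun x => frc (Nat.shiftRight V 4) fun U => r U x)) n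

/-- the matrix of a packed word; the letter `l` is entry `l` of `mone :: P` -/
noncomputable def wd (P : List ℕ) (W : ℕ) : ℕ :=
  frc (Nat.shiftRight W 4) fun V => wd1 (mone :: P) V V (getN mone (mone :: P) (Nat.land W 15))

theorem in_wd {P : List ℕ} (h : ∀ c ∈ P, In K c) (W : ℕ) : In K (wd P W) := by
  have h1 := in_getN (List.forall_mem_cons.2 ⟨in_one, h⟩)
  have key : ∀ n V a, In K a → In K (wd1 (mone :: P) n V a) := fun n => by
    induction n with
    | zero => exact fun _ _ h => h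
    | succ n ih =>
      intro V a ha
      show In K (cnd (Nat.beq V 0) a _)
      cases Nat.beq V 0
      exacts [ih _ _ (ha.mul (h1 _)), ha]
  exact key _ _ _ (h1 _)

theorem frc_eq' {β : Type} (x : ℕ) (f : ℕ → β) : frc x f = f x := (frc_eq x f).trans rfl

/-- words in products of five letters -/
noncomputable def wdg (x y Y z t W : ℕ) : ℕ :=
  frc (MG.mul2 112 x y) fun a => frc (MG.mul2 112 x Y) fun b =>
  frc (MG.mul2 112 a a) fun c => frc (MG.mul2 112 a b) fun d =>
  frc (MG.mul2 112 b a) fun e => frc (MG.mul2 112 b b) fun f =>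
  frc (MG.mul2 112 c z) fun c' => frc (MG.mul2 112 d z) fun d' =>
  frc (MG.mul2 112 e z) fun e' => frc (MG.mul2 112 f z) fun f' =>
  wd [c, d, e, f, c', d', e', f', t] W

theorem in_wdg {x y Y z t : ℕ} (hx : In K x) (hy : In K y) (hY : In K Y) (d : In K z) (ht : In K t)
    (W : ℕ) : In K (wdg x y Y z t W) := by
  have a := hx.mul hy
  have b := hx.mul hY
  rw [wdg]
  iterate 10 rw [frc_eq']
  refine in_wd ?_ W
  simp only [List.forall_mem_cons]
  exact ⟨a.mul a, a.mul b, b.mul a, b.mul b, (a.mul a).mul d, (a.mul b).mul d, (b.mul a).mul d,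
    (b.mul b).mul d, ht, by simp⟩

theorem in_wd0 {W : ℕ} (e : Nat.beq (wdg mx my mY J4T.md mt W) a = true) : In ⊤ a :=
  have h : ∀ l < 5, In ⊤ (ml l) := fun _ h => ⟨_, trivial, mr_ml h⟩
  (in_wdg (h 1 (by norm_num)) (h 2 (by norm_num)) (h 3 (by norm_num))
    ⟨_, trivial, (J4T.mr_cs 3).2⟩ (h 4 (by norm_num)) W).code e

/-- the loop of `pw` -/
noncomputable def pw1 (a f : ℕ) : ℕ → ℕ :=
  Nat.rec (fun _ => mone) (fun _ r n => cnd (Nat.beq n 1) a (frc (r (Nat.div n 2)) fun x =>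
    frc (MG.mul2 112 x x) fun y => cnd (Nat.beq (Nat.mod n 2) 0) y (MG.mul2 112 y a))) f

/-- powers -/
noncomputable def pw (a n : ℕ) : ℕ := pw1 a n n

theorem mr_pow (ha : MR g a) (n : ℕ) : MR (g ^ n) (pw a n) := by
  have key : ∀ f n, n ≤ f → MR (g ^ n) (pw1 a f n) := fun f => by
    induction f with
    | zero => intro n hn; rw [Nat.le_zero.1 hn, pow_zero]; exact mr_one
    | succ f ih =>
      intro n hn
      have h1 := ih (n / 2) (by omega)
      have h2 := h1.mul h1
      show MR _ (cnd (Nat.beq n 1) a (cnd (Nat.beq (n % 2) 0) _ _))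
      cases e : Nat.beq n 1
      · cases e1 : Nat.beq (n % 2) 0
        · have := Nat.ne_of_beq_eq_false e1
          rw [show n = n / 2 + n / 2 + 1 by omega, pow_succ, pow_add]
          rw [show (n / 2 + n / 2 + 1) = n by omega]
          exact h2.mul ha
        · have := beq e1
          rw [show g ^ n = g ^ (n / 2) * g ^ (n / 2) by rw [← pow_add]; congr 1; omega]
          exact h2
      · rw [beq e, pow_one]; exact ha
  exact key n n le_rfl

/-- the canonical code -/
noncomputable def cn (a : ℕ) : ℕ := Nat.mod a (Nat.pow 2 12544)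

theorem cn_eq (h : IM.dec a = IM.dec b) : cn a = cn b := Nat.eq_of_testBit_eq fun k => by
  show (a % 2 ^ 12544).testBit k = (b % 2 ^ 12544).testBit k
  rw [Nat.testBit_mod_two_pow, Nat.testBit_mod_two_pow]
  by_cases hk : k < 12544
  · have h2 := MG.bitR_inj (R := ZMod 2) (congrFun (congrFun h ⟨k / 112, by omega⟩) ⟨k % 112, by omega⟩)
    simp only [Equiv.refl_apply, Nat.div_add_mod' k 112] at h2
    rw [h2]
  · simp [hk]

/-- different matrices -/
noncomputable def neB (a b : ℕ) : Bool := cnd (Nat.beq (cn a) (cn b)) false true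

theorem ne_of (ha : MR g a) (hb : MR h b) (e : neB a b = true) : g ≠ h := by
  rintro rfl
  rw [neB, cn_eq (ha.symm.trans hb), Nat.beq_refl] at e
  exact absurd e (by decide)

/-- the order is `n`, with the prime divisors `ps` -/
noncomputable def ordB (a n : ℕ) (ps : List ℕ) : Bool :=
  band (Nat.beq (pw a n) mone) (allL (fun p => neB (pw a (Nat.div n p)) mone) ps)

theorem ord_of (ha : MR g a) {n : ℕ} {ps : List ℕ} (e : ordB a n ps = true)
    (hn : 0 < n ∧ ∀ p ∈ n.primeFactors, p ∈ ps) : orderOf g = n :=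
  orderOf_eq_of_pow_and_pow_div_prime hn.1 (eqB (mr_pow ha n) mr_one (band_left e)) fun p h1 h2 =>
    ne_of (mr_pow ha _) mr_one (allL_iff.1 (band_right e) p (hn.2 p (Nat.mem_primeFactors.2
      ⟨h1, h2, hn.1.ne'⟩)))

/-- words of the prime orders `ps` -/
noncomputable def gen (P ps : List ℕ) : ℕ → Bool :=
  List.rec (fun _ => true) (fun p _ r C => band (frc (wd P (Nat.mod C 4294967296)) fun x =>
    band (neB x mone) (Nat.beq (pw x p) mone)) (r (Nat.shiftRight C 32))) ps

theorem gen_sound {P ps : List ℕ} (h : ∀ c ∈ P, In K c) {C : ℕ} (e : gen P ps C = true) :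
    ∀ p ∈ ps, p.Prime → p ∣ Nat.card K := by
  induction ps generalizing C with
  | nil => simp
  | cons p ps ih =>
    refine List.forall_mem_cons.2 ⟨fun hp => ?_, ih (band_right e)⟩
    have := Fact.mk hp
    have h1 := in_wd h (Nat.mod C 4294967296)
    have h2 := band_left e
    exact orderOf_eq_prime (eqB (mr_pow h1.mr p) mr_one (band_right h2))
      (ne_of h1.mr mr_one (band_left h2)) ▸ orderOf_dvd_card' h1.mem

/-- the stabilizer of the rows of `F` -/
def stb (F : ℕ) : Subgroup Cfsg.Spor.J4 where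
  carrier := {g | IM.dec F * ψm g = IM.dec F}
  mul_mem' {a b} ha hb := by
    show _ * _ = _
    rw [ψm_mul, ← mul_assoc, ha, hb]
  one_mem' := by
    show _ * _ = _
    rw [ψm_one, mul_one]
  inv_mem' {a} ha := by
    show _ * _ = _
    nth_rewrite 1 [← ha]
    rw [mul_assoc, ← ψm_mul, mul_inv_cancel, ψm_one, mul_one]

theorem mem_stb {F : ℕ} (ha : MR g a) (e : Nat.beq (MG.mul2 112 F a) F = true) : g ∈ stb F := by
  show _ * ψm g = _
  rw [show ψm g = IM.dec a from ha, ← J4T.dec_mul2, beq e]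

/-- distinct keys -/
noncomputable def ndp (k : ℕ → ℕ) (L : List ℕ) : List ℕ → Bool :=
  List.rec (fun _ => true) (fun x _ r acc => frc (k x) fun a =>
    band (allL (fun b => cnd (Nat.beq a b) false true) acc) (r (a :: acc))) L

theorem ndp_sound {k : ℕ → ℕ} {L acc : List ℕ} (e : ndp k L acc = true) :
    (∀ x ∈ L, k x ∉ acc) ∧ L.Pairwise fun x y => k x ≠ k y := by
  induction L generalizing acc with
  | nil => simp
  | cons x L ih =>
    obtain ⟨h1, h2⟩ := ih (band_right e)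
    refine ⟨List.forall_mem_cons.2 ⟨fun h => ?_, fun y hy h => h1 y hy (List.mem_cons_of_mem _ h)⟩,
      List.pairwise_cons.2 ⟨fun y hy h => h1 y hy (h ▸ List.mem_cons_self), h2⟩⟩
    have := allL_iff.1 (band_left e) _ h
    rw [Nat.beq_refl] at this
    exact absurd this (by decide)

/-- the words `L` move the rows of `F` differently -/
noncomputable def sepB (F : ℕ) (P L : List ℕ) : Bool :=
  ndp (fun W => frc (wd P W) fun y => cn (MG.mul2 112 F y)) L []

theorem sep_pw {A : Subgroup Cfsg.Spor.J4} {F : ℕ} (hA : A ≤ stb F) {P L : List ℕ}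
    (h : ∀ c ∈ P, In K c) (e : sepB F P L = true) :
    (∀ y ∈ L.map fun W => el (wd P W), y ∈ K) ∧
      (L.map fun W => el (wd P W)).Pairwise fun a b => a * b⁻¹ ∉ A := by
  refine ⟨List.forall_mem_map.2 fun W _ => (in_wd h W).mem, List.pairwise_map.2
    ((ndp_sound e).2.imp fun {V W} h1 h2 => h1 (cn_eq ?_))⟩
  have h3 : IM.dec F * ψm _ = IM.dec F := hA h2
  rw [J4T.dec_mul2, J4T.dec_mul2, ← (in_wd h V).mr, ← (in_wd h W).mr]
  show _ * ψm _ = _ * ψm _
  rw [← inv_mul_cancel_right (el (wd P V)) (el (wd P W)), ψm_mul, ← mul_assoc, h3]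

theorem sep_le {A : Subgroup Cfsg.Spor.J4} {F : ℕ} (hA : A ≤ K ⊓ stb F) {P L : List ℕ}
    (h : ∀ c ∈ P, In K c) (e : sepB F P L = true) : L.length * Nat.card A ≤ Nat.card K :=
  have h1 := sep_pw (hA.trans inf_le_right) h e
  List.length_map (fun W => el (wd P W)) ▸ le_of_pw (hA.trans inf_le_left) h1.1 h1.2

theorem sep_cov {A : Subgroup Cfsg.Spor.J4} {F : ℕ} (hA : A ≤ K ⊓ stb F) {P L : List ℕ}
    (h : ∀ c ∈ P, In K c) (e : sepB F P L = true) (hc : Nat.card K ≤ L.length * Nat.card A)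
    (hg : g ∈ K) : ∃ W ∈ L, g * (el (wd P W))⁻¹ ∈ A := by
  have h1 := sep_pw (hA.trans inf_le_right) h e
  obtain ⟨y, h2, h3⟩ := cov_of_pw (hA.trans inf_le_left) h1.1 h1.2 (by rwa [List.length_map]) hg
  obtain ⟨W, h4, rfl⟩ := List.mem_map.1 h2
  exact ⟨W, h4, h3⟩

/-- `a` conjugates `s` to a power -/
noncomputable def nrmB (s a k : ℕ) : Bool := Nat.beq (MG.mul2 112 a s) (MG.mul2 112 (pw s k) a)

theorem nrm_mem {s k : ℕ} (hs : MR h s) (ha : MR g a) (e : nrmB s a k = true) :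
    g ∈ normalizer (zpowers h : Set Cfsg.Spor.J4) :=
  mem_norm_zp (by
    rw [eqB (ha.mul hs) ((mr_pow hs k).mul ha) e, mul_inv_cancel_right]
    exact pow_mem (mem_zpowers h) k)

/-- commuting matrices -/
noncomputable def comB (s a : ℕ) : Bool := Nat.beq (MG.mul2 112 a s) (MG.mul2 112 s a)

theorem com_mem {s : ℕ} (hs : MR h s) (ha : MR g a) (e : comB s a = true) :
    g ∈ centralizer ({h} : Set Cfsg.Spor.J4) :=
  mem_centralizer_singleton_iff.2 (eqB (ha.mul hs) (hs.mul ha) e)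

/-- every word is good or generates, with `Q`, elements of the orders `ps` -/
noncomputable def brB (P Q ps : List ℕ) (gd : ℕ → Bool) (L : List (ℕ × ℕ)) : Bool :=
  allL (fun x => frc (wd P x.1) fun y => cnd (Nat.beq x.2 0) (gd y) (gen (y :: Q) ps x.2)) L

theorem br_one {M D : Subgroup Cfsg.Spor.J4} {P Q ps : List ℕ} {gd : ℕ → Bool} {L : List (ℕ × ℕ)}
    (h : ∀ c ∈ P, In K c) (hQ : ∀ c ∈ Q, In M c) (hD : ∀ y, In K y → gd y = true → el y ∈ D)
    (e : brB P Q ps gd L = true) {W : ℕ} (hW : W ∈ L.map Prod.fst) (hM : el (wd P W) ∈ M) :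
    el (wd P W) ∈ D ∨ ∀ p ∈ ps, p.Prime → p ∣ Nat.card M := by
  obtain ⟨x, hx, rfl⟩ := List.mem_map.1 hW
  rcases cnd_beq (allL_iff.1 e x hx) with ⟨-, e1⟩ | ⟨-, e1⟩
  · exact Or.inl (hD _ (in_wd h _) e1)
  · exact Or.inr (gen_sound (List.forall_mem_cons.2 ⟨⟨_, hM, (in_wd h _).mr⟩, hQ⟩) e1)

/-- The intersection of `M` with `K` lies in `D`, or the primes `ps` divide the order of `M`. -/
theorem brute {M A D : Subgroup Cfsg.Spor.J4} {F : ℕ} (hA : A ≤ K ⊓ stb F) (hM : A ≤ M ⊓ D)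
    {P Q ps : List ℕ} {gd : ℕ → Bool} {L : List (ℕ × ℕ)}
    (h : ∀ c ∈ P, In K c) (hQ : ∀ c ∈ Q, In M c) (hD : ∀ y, In K y → gd y = true → el y ∈ D)
    (e1 : sepB F P (L.map Prod.fst) = true) (e2 : brB P Q ps gd L = true)
    (hc : Nat.card K ≤ L.length * Nat.card A) : M ⊓ K ≤ D ∨ ∀ p ∈ ps, p.Prime → p ∣ Nat.card M := by
  refine or_iff_not_imp_right.2 fun h0 g hg => ?_
  obtain ⟨W, h1, h2⟩ := sep_cov hA h e1 (by rwa [List.length_map]) hg.2
  have h3 := (br_one h hQ hD e2 h1 ((M.mul_mem_cancel_left (hM h2).1).1 (by simpa using hg.1))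
    ).resolve_right h0
  simpa using D.mul_mem (hM h2).2 h3

theorem fx : Fx Cfsg.Spor.J4 := have := simple_J4; fx_of jankoFour

end Cfsg.Lib.Spor.J4X
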