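import Cfsg.Agent.Known.Label
import Cfsg.Agent.Spor.PresBridge

/-! Central extensions of a commutator subgroup of index two, inverted by the generators. -/

set_option autoImplicit false

namespace Cfsg.Lib.Known

open Cfsg.Lib.Spor.Bulk Subgroup

theorem wv_even_const {H : Type*} [Group H] {u : ℕ → H} {v : H} (hv : v * v = 1) :
    ∀ {W : List ℕ}, (∀ l ∈ W, u l = v) → wv u W = if Even W.length then 1 else v
  | [], _ => by simp
  | l :: W, h => by
    rw [wv_cons, wv_even_const hv fun m hm => h m (List.mem_cons_of_mem _ hm), h l List.mem_cons_self,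
      List.length_cons]
    by_cases e : Even W.length <;> simp [e, Nat.even_add_one, hv]

theorem multDvd_three_of_twisted {G : Type} [Group G] {g : ℕ → G} {k : ℕ} {R : List (List ℕ)}
    (hP : Pres g k idI R) (hperf : ⁅commutator G, commutator G⁆ = commutator G)
    (hG : ∀ l m, 0 < l → l < k → 0 < m → m < k → g l * g m ∈ commutator G)
    {X : Type} [Group X] {x : ℕ → X} {z : X} (hz : orderOf z = 3) (h0 : x 0 = 1)
    (hinv : ∀ l, 0 < l → l < k → x l * z * (x l)⁻¹ = z⁻¹) (hsq : ∀ l < k, x l * x l = 1)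
    (hR : ∀ r ∈ R, wv x r ∈ zpowers z) (hRk : ∀ r ∈ R, ∀ l ∈ r, l < k) {c : ℕ} (hc : 0 < c ∧ c < k)
    (hcon : ∀ l, 0 < l → l < k → ∃ m, 0 < m ∧ m < k ∧ wv x [l, m, l, m] = 1 ∧ wv g [l, m, l, m] = 1 ∧
      wv x [m, c, m, c] = 1 ∧ wv g [m, c, m, c] = 1)
    {W : List ℕ} (hW : ∀ l ∈ W, 0 < l ∧ l < k) (he : Even W.length) (hx : wv x W = z)
    (hg : wv g W = 1) : MultDvd (commutator G) 3 := by
  classical
  let Γ : Subgroup (G × X) := closure ({p | ∃ l < k, (g l, x l) = p} ∪ {(1, z)})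
  let y : ℕ → Γ := fun l => if h : l < k then ⟨(g l, x l), subset_closure (Or.inl ⟨l, h, rfl⟩)⟩ else 1
  let ζ : Γ := ⟨(1, z), subset_closure (Or.inr rfl)⟩
  let σ : Γ →* G := (MonoidHom.fst G X).comp Γ.subtype
  let τ : Γ →* X := (MonoidHom.snd G X).comp Γ.subtype
  have ext : ∀ {a b : Γ}, σ a = σ b → τ a = τ b → a = b := fun h1 h2 => Subtype.ext (Prod.ext h1 h2)
  have σy : ∀ l < k, σ (y l) = g l := fun l hl => by simp [σ, y, hl]
  have τy : ∀ l < k, τ (y l) = x l := fun l hl => by simp [τ, y, hl]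
  have σw : ∀ r : List ℕ, (∀ l ∈ r, l < k) → σ (wv y r) = wv g r := fun r hr => map_wv_of_lt σy hr
  have τw : ∀ r : List ℕ, (∀ l ∈ r, l < k) → τ (wv y r) = wv x r := fun r hr => map_wv_of_lt τy hr
  have ind : ∀ P : Γ → Prop, (∀ l < k, P (y l)) → P ζ → P 1 → (∀ a b, P a → P b → P (a * b)) →
      (∀ a, P a → P a⁻¹) → ∀ a, P a := fun P h1 h2 h3 h4 h5 ⟨a, ha⟩ => by
    induction ha using closure_induction with
    | mem p hp =>
      rcases hp with ⟨l, hl, rfl⟩ | rfl
      · simpa [y, hl] using h1 l hl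
      · exact h2
    | one => exact h3
    | mul a b ha hb iha ihb => exact h4 _ _ iha ihb
    | inv a ha iha => exact h5 _ iha
  have pm : ∀ a : Γ, a * ζ * a⁻¹ = ζ ∨ a * ζ * a⁻¹ = ζ⁻¹ := by
    refine ind _ (fun l hl => ?_) (Or.inl (by simp)) (Or.inl (by simp)) (fun a b ha hb => ?_)
      fun a ha => ?_
    · rcases Nat.eq_zero_or_pos l with rfl | h
      · left
        rw [ext (a := y 0) (b := 1) (by rw [σy 0 hl, hP.sat.zero, map_one]) (by rw [τy 0 hl, h0, map_one])]
        simp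
      · right
        refine ext (by simp [σ, ζ]) ?_
        rw [map_mul, map_mul, map_inv, map_inv, τy l hl]; exact hinv l h hl
    · have e : a * b * ζ * (a * b)⁻¹ = a * (b * ζ * b⁻¹) * a⁻¹ := by group
      have e' : a * ζ⁻¹ * a⁻¹ = (a * ζ * a⁻¹)⁻¹ := by group
      rw [e]
      rcases hb with hb | hb <;> rw [hb]
      · exact ha
      · rw [e']; rcases ha with ha | ha <;> simp [ha]
    · rcases ha with ha | ha
      · left; conv_lhs => rw [← ha]
        group
      · right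
        have : ζ = a * ζ⁻¹ * a⁻¹ := by
          calc ζ = (a * ζ * a⁻¹)⁻¹ := by rw [ha, inv_inv]
            _ = _ := by group
        conv_lhs => rw [this]
        group
  have hZ : (zpowers ζ).Normal := ⟨fun n hn a => by
    obtain ⟨i, rfl⟩ := mem_zpowers_iff.1 hn
    rw [← conj_zpow]
    rcases pm a with h | h <;> rw [h]
    exacts [zpow_mem (mem_zpowers _) _, zpow_mem (inv_mem (mem_zpowers _)) _]⟩
  have ysq : ∀ l < k, y l * y l = 1 := fun l hl => ext
    (by rw [map_mul, σy l hl, map_one]; exact mul_eq_one_iff_eq_inv.2 (hP.sat.inv l hl))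
    (by rw [map_mul, τy l hl, map_one, hsq l hl])
  have y0 : y 0 = 1 := ext (by rw [σy 0 (by omega), hP.sat.zero, map_one]) (by rw [τy 0 (by omega), h0, map_one])
  let π := QuotientGroup.mk' (zpowers ζ)
  have hsat : Sat (fun l => π (y l)) k idI R := by
    refine ⟨by simp [y0], fun l hl => eq_inv_of_mul_eq_one_left (by
      show π (y l) * π (y l) = 1; rw [← map_mul, ysq l hl, map_one]), fun r hr => ?_⟩
    obtain ⟨i, hi⟩ := mem_zpowers_iff.1 (hR r hr)
    rw [← map_wv, ext (a := wv y r) (b := ζ ^ i) (by rw [σw r (hRk r hr), hP.sat.rel r hr, map_zpow]; simp [σ, ζ])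
      (by rw [τw r (hRk r hr), ← hi, map_zpow]; rfl)]
    exact (QuotientGroup.eq_one_iff _).2 (zpow_mem (mem_zpowers _) _)
  obtain ⟨θ, hθ⟩ := hP.lift _ _ hsat
  have hπ : ∀ a, θ (σ a) = π a := ind _ (fun l hl => by rw [σy l hl, hθ l hl])
    (by rw [show σ ζ = 1 from rfl, map_one]; exact ((QuotientGroup.eq_one_iff _).2 (mem_zpowers _)).symm)
    (by simp) (fun a b ha hb => by simp only [map_mul, ha, hb]) fun a ha => by simp only [map_inv, ha]
  have hker : ∀ a, σ a = 1 → a ∈ zpowers ζ := fun a ha =>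
    (QuotientGroup.eq_one_iff _).1 ((hπ a).symm.trans (by rw [ha, map_one]))
  have hs : Function.Surjective σ := by
    rw [← MonoidHom.range_eq_top, eq_top_iff, ← hP.gen, closure_le]
    rintro _ ⟨l, hl, rfl⟩
    exact ⟨y l, σy l hl⟩
  let Γ₀ := (commutator G).comap σ
  have hΓ₀ : Γ₀.map σ = commutator G := map_comap_eq_self_of_surjective hs _
  have cen : ∀ a ∈ Γ₀, a * ζ = ζ * a := by
    have h1 : commutator Γ ≤ centralizer {ζ} := by
      rw [_root_.commutator_def, commutator_le]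
      intro a _ b _
      rw [mem_centralizer_singleton_iff, commutatorElement_def]
      have e : ∀ a : Γ, a * ζ⁻¹ * a⁻¹ = (a * ζ * a⁻¹)⁻¹ := fun a => by group
      have k : a⁻¹ * (b⁻¹ * ζ * b⁻¹⁻¹) * a⁻¹⁻¹ = b⁻¹ * (a⁻¹ * ζ * a⁻¹⁻¹) * b⁻¹⁻¹ := by
        generalize a⁻¹ = a', b⁻¹ = b'
        rcases pm a' with h | h <;> rcases pm b' with h' | h' <;> simp only [h, h', e, inv_inv]
      calc _ = a * b * (a⁻¹ * (b⁻¹ * ζ * b⁻¹⁻¹) * a⁻¹⁻¹) * a⁻¹ * b⁻¹ := by group
        _ = _ := by rw [k]; group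
    intro a ha
    have : σ a ∈ (commutator Γ).map σ := by
      rw [_root_.commutator_def, map_commutator, ← MonoidHom.range_eq_map, MonoidHom.range_eq_top.2 hs]
      exact ha
    obtain ⟨b, hb, e⟩ := this
    obtain ⟨i, hi⟩ := mem_zpowers_iff.1 (hker (b⁻¹ * a) (by rw [map_mul, map_inv, e, inv_mul_cancel]))
    have hb' := mem_centralizer_singleton_iff.1 (h1 hb)
    rw [show a = b * ζ ^ i by rw [hi]; group, mul_assoc, ← (Commute.refl ζ).zpow_right i, ← mul_assoc, hb',
      mul_assoc]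
  let N := ⁅Γ₀, Γ₀⁆
  have hN : N.Normal := commutator_normal _ _
  let q := QuotientGroup.mk' N
  have ζ3 : ζ ^ 3 = 1 := ext (by rw [map_pow]; simp [σ, ζ]) (by
    rw [map_pow, map_one, ← hz]; exact pow_orderOf_eq_one z)
  have cube : ∀ a ∈ Γ₀, q a ^ 3 = 1 := fun a ha => by
    have : σ a ∈ N.map σ := by rw [map_commutator, hΓ₀, hperf]; exact ha
    obtain ⟨b, hb, e⟩ := this
    obtain ⟨i, hi⟩ := mem_zpowers_iff.1 (hker (b⁻¹ * a) (by rw [map_mul, map_inv, e, inv_mul_cancel]))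
    rw [show a = b * ζ ^ i by rw [hi]; group, map_mul, show q b = 1 from (QuotientGroup.eq_one_iff _).2 hb,
      one_mul, ← map_pow, ← zpow_natCast, ← zpow_mul, mul_comm, zpow_mul, zpow_natCast, ζ3, one_zpow, map_one]
  have same : ∀ l m, 0 < l → l < k → 0 < m → m < k → wv x [l, m, l, m] = 1 → wv g [l, m, l, m] = 1 →
      q (y l) = q (y m) := fun l m h1 h2 h3 h4 h5 h6 => by
    have hk : ∀ j ∈ [l, m, l, m], j < k := by simp [h2, h4]
    have e1 : wv y [l, m, l, m] = 1 := ext (by rw [σw _ hk, h6, map_one]) (by rw [τw _ hk, h5, map_one])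
    have e2 := cube (y m * y l) (by
      show σ _ ∈ commutator G
      rw [map_mul, σy m h4, σy l h2]; exact hG m l h3 h4 h1 h2)
    have e3 : q (y m * y l) ^ 2 = 1 := by
      rw [← map_pow, show (y m * y l) ^ 2 = wv y [l, m, l, m] by simp [pow_two, mul_assoc], e1, map_one]
    rw [pow_succ, e3, one_mul, map_mul] at e2
    have e4 : q (y m) * q (y m) = 1 := by rw [← map_mul, ysq m h4, map_one]
    exact mul_left_cancel (e2.trans e4.symm)
  have hζ : ζ ∈ N := by
    have e1 : wv y W = ζ := ext (by rw [σw W fun l hl => (hW l hl).2, hg]; rfl)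
      (by rw [τw W fun l hl => (hW l hl).2, hx]; rfl)
    have e2 := wv_even_const (u := fun l => q (y l)) (v := q (y c))
      (by rw [← map_mul, ysq c hc.2, map_one]) (W := W) fun l hl => by
        obtain ⟨m, a1, a2, a3, a4, a5, a6⟩ := hcon l (hW l hl).1 (hW l hl).2
        exact (same l m (hW l hl).1 (hW l hl).2 a1 a2 a3 a4).trans (same m c a1 a2 hc.1 hc.2 a5 a6)
    rw [if_pos he, ← map_wv, e1] at e2
    exact (QuotientGroup.eq_one_iff _).1 e2
  have ζ0 : ζ ∈ Γ₀ := show σ ζ ∈ commutator G from one_mem _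
  let σ₀ : Γ₀ →* commutator G := (σ.comp Γ₀.subtype).codRestrict _ fun a => a.2
  have key := multDvd_of_central σ₀ (fun ⟨a, ha⟩ => by
      obtain ⟨b, rfl⟩ := hs a
      exact ⟨⟨b, ha⟩, rfl⟩) (fun a ha => by
      obtain ⟨i, hi⟩ := mem_zpowers_iff.1 (hker a (congrArg Subtype.val ha))
      rw [mem_center_iff]
      intro b
      refine Subtype.ext ?_
      rw [coe_mul, coe_mul, ← hi]
      exact (Commute.zpow_right (cen b b.2) i).eq) (zpowers ⟨ζ, ζ0⟩)
    (zpowers_le.2 (Subtype.ext rfl)) (zpowers_le.2 (by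
      have : N = (commutator Γ₀).map Γ₀.subtype := (map_subtype_commutator Γ₀).symm
      rw [this] at hζ
      obtain ⟨b, hb, e⟩ := hζ
      exact (Subtype.ext e : b = ⟨ζ, ζ0⟩) ▸ hb))
  rw [Nat.card_zpowers, ← orderOf_coe, ← orderOf_coe] at key
  rwa [show orderOf ((1 : G), z) = 3 by rw [Prod.orderOf_mk, orderOf_one, hz]; rfl] at key

/-- Letters with alternating marks. -/
noncomputable def altW (L : List ℕ) : Bool → List ℕ :=
  List.rec (fun _ => []) (fun l _ ih b => Bool.rec l (Nat.add l 16) b :: ih (!b)) L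

/-- Negation of the labels. -/
def lneg (n : ℕ) : Equiv.Perm (Fin n × ZMod 3) := Equiv.prodCongr (Equiv.refl _) (Equiv.neg _)

/-- The label planes of the marked letters. -/
noncomputable def dbl (K0 K1 : ℕ → ℕ) (l : ℕ) : ℕ := Bool.rec (K1 (Nat.sub l 16)) (K0 l) (Nat.blt l 16)

/-- The networks of the marked letters. -/
noncomputable def dblT (T : ℕ → Net) (l : ℕ) : Net := T (Nat.mod l 16)

/-- The twisted monomial permutation of a letter. -/
noncomputable def tprm (T : ℕ → Net) (K0 K1 : ℕ → ℕ) (n l : ℕ) : Equiv.Perm (Fin n × ZMod 3) :=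
  if l = 0 then 1 else lprm (dblT T) (dbl K0 K1) (dbl K1 K0) 3 n l * lneg n

section

variable {T : ℕ → Net} {K0 K1 : ℕ → ℕ} {n : ℕ}

theorem lneg_mul_self : lneg n * lneg n = 1 := Equiv.ext fun ⟨p, t⟩ => by simp [lneg]

theorem lneg_conj {l : ℕ} (hl : l < 16) :
    lneg n * lprm (dblT T) (dbl K0 K1) (dbl K1 K0) 3 n l * lneg n =
      lprm (dblT T) (dbl K0 K1) (dbl K1 K0) 3 n (l + 16) := Equiv.ext fun ⟨p, t⟩ => by
  have e1 : ∀ A B, dbl A B l = A l := fun A B => by
    rw [dbl, show Nat.blt l 16 = true by simpa using hl]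
  have e2 : ∀ A B, dbl A B (l + 16) = B l := fun A B => by
    rw [dbl, show Nat.blt (l + 16) 16 = false by rw [Bool.eq_false_iff]; simp]; rfl
  have e3 : prm (dblT T) n (l + 16) = prm (dblT T) n l := by
    simp only [prm, dblT]; congr 2; exact Nat.add_mod_right l 16
  show (prm (dblT T) n l p, -(-t + v2 3 (dbl K0 K1 l) (dbl K1 K0 l) p)) =
    (prm (dblT T) n (l + 16) p, t + v2 3 (dbl K0 K1 (l + 16)) (dbl K1 K0 (l + 16)) p)
  rw [e1, e1, e2, e2, e3, neg_add, neg_neg]
  congr 2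
  simp only [v2]
  cases (K0 l).testBit p <;> cases (K1 l).testBit p <;> decide

theorem wv_tprm : ∀ {L : List ℕ}, (∀ l ∈ L, 0 < l ∧ l < 16) → wv (tprm T K0 K1 n) L =
    wv (lprm (dblT T) (dbl K0 K1) (dbl K1 K0) 3 n) (altW L (decide (Even L.length))) *
      if Even L.length then 1 else lneg n
  | [], _ => by simp [altW]
  | l :: L, h => by
    obtain ⟨h1, h2⟩ := h l List.mem_cons_self
    rw [wv_cons, wv_tprm fun m hm => h m (List.mem_cons_of_mem _ hm), tprm, if_neg h1.ne',
      List.length_cons]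
    by_cases e : Even L.length
    · have e' : ¬ Even (L.length + 1) := by simpa [Nat.even_add_one] using e
      rw [if_pos e, if_neg e', decide_eq_true e, decide_eq_false e', mul_one, ← mul_assoc]; rfl
    · have e' : Even (L.length + 1) := by simpa [Nat.even_add_one] using e
      rw [if_pos e', if_neg e, decide_eq_true e', decide_eq_false e, mul_one, mul_assoc, ← mul_assoc (lneg n),
        lneg_conj h2]; rfl

theorem wv_altW {L : List ℕ} (h : ∀ l ∈ L, l < 16) : ∀ b, wv (prm (dblT T) n) (altW L b) = wv (prm T n) L := by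
  induction L with
  | nil => intro b; rfl
  | cons l L ih =>
    intro b
    have hl := h l List.mem_cons_self
    have e : altW (l :: L) b = Bool.rec l (l + 16) b :: altW L (!b) := rfl
    rw [e, wv_cons, wv_cons, ih fun m hm => h m (List.mem_cons_of_mem _ hm)]
    congr 1
    cases b <;> simp only [prm, dblT] <;> congr 2
    · exact Nat.mod_eq_of_lt hl
    · exact (Nat.add_mod_right l 16).trans (Nat.mod_eq_of_lt hl)

/-- Words of even length in the letters `1, …, 15`. -/
noncomputable def evenB (W : List (List ℕ)) : Bool :=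
  allL (fun r => band (decide (Even r.length)) (allL (fun l => band (Nat.blt 0 l) (Nat.blt l 16)) r)) W

theorem tw_of_chk (h : NetsOK T n) {W : List (List ℕ)} (hW : ∀ r ∈ W, wv (prm T n) r = 1)
    (he : evenB W = true) (a : ℕ)
    (hc : labChk add3 (dblT T) (dbl K0 K1) (dbl K1 K0) n (W.map (altW · true)) (W.map fun _ => a) = true) :
    ∀ r ∈ W, wv (tprm T K0 K1 n) r = ltr 3 n (Multiplicative.ofAdd (a : ZMod 3)) := by
  have h1 : ∀ r ∈ W, Even r.length ∧ ∀ l ∈ r, 0 < l ∧ l < 16 := fun r hr => by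
    have := allL_iff.1 he r hr
    simp only [band_eq, Bool.and_eq_true, decide_eq_true_eq, allL_iff, Nat.blt_eq] at this
    exact this
  have := labOK_of_chk add3 (T := dblT T) (fun l => h _) (fun r hr => by
    obtain ⟨r', hr', rfl⟩ := List.mem_map.1 hr
    rw [wv_altW fun l hl => ((h1 r' hr').2 l hl).2, hW r' hr']) hc
  rw [LabOK, List.map_map, List.forall₂_map_left_iff, List.forall₂_map_right_iff, List.forall₂_same] at this
  intro r hr
  rw [wv_tprm (h1 r hr).2, if_pos (h1 r hr).1, decide_eq_true (h1 r hr).1, mul_one]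
  exact this r hr

theorem tprm_conj {l : ℕ} (hl : 0 < l) (a : Multiplicative (ZMod 3)) :
    tprm T K0 K1 n l * ltr 3 n a * (tprm T K0 K1 n l)⁻¹ = (ltr 3 n a)⁻¹ := by
  rw [mul_inv_eq_iff_eq_mul, tprm, if_neg hl.ne', ← map_inv]
  refine Equiv.ext fun ⟨p, t⟩ => ?_
  show (_, -(t + a.toAdd) + _) = (_, -t + _ + -a.toAdd)
  congr 1
  abel

theorem orderOf_ltr (hn : 0 < n) : orderOf (ltr 3 n (Multiplicative.ofAdd ((1 : ℕ) : ZMod 3))) = 3 := by
  have e3 : Multiplicative.ofAdd ((1 : ℕ) : ZMod 3) ^ 3 = 1 := by decide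
  have : Fact (Nat.Prime 3) := ⟨by norm_num⟩
  refine orderOf_eq_prime (by rw [← map_pow, e3, map_one]) fun e => ?_
  have := congrArg (fun f : Equiv.Perm (Fin n × ZMod 3) => (f (⟨0, hn⟩, 0)).2) e
  revert this
  simp [ltr_apply]

end

end Cfsg.Lib.Known
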