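import Cfsg.Agent.Spor.HSAut

/-! Recognition of rank three groups from a model with the same point stabiliser. -/

set_option autoImplicit false

namespace Cfsg.Lib.Spor.R3

open MulAction SRG

theorem exists_orbMap {H H' A B : Type*} [Group H] [Group H'] [MulAction H A] [MulAction H' B]
    (e : H ≃* H') {x : A} {y : B} (h : ∀ g : H, g • x = x → e g • y = y) :
    ∃ f : A → B, ∀ g : H, f (g • x) = e g • y := by
  classical
  refine ⟨fun z => if hz : ∃ g : H, g • x = z then e hz.choose • y else y, fun g => ?_⟩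
  have hz : ∃ g' : H, g' • x = g • x := ⟨g, rfl⟩
  have h1 := h (g⁻¹ * hz.choose) (by rw [mul_smul, hz.choose_spec, inv_smul_smul])
  simp only [dif_pos hz]
  rw [map_mul, map_inv, mul_smul, inv_smul_eq_iff] at h1
  exact h1

variable {S Ω₀ G Ω : Type*} [Group S] [MulAction S Ω₀] [Group G] [MulAction G Ω]

/-- The set is invariant under the subgroup. -/
def InvS (K : Subgroup S) (Y : Set Ω₀) : Prop := ∀ g ∈ K, ∀ y ∈ Y, g • y ∈ Y

theorem InvS_eq_1 : type_of% @InvS.eq_1 := @InvS.eq_1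

/-- A rank three group with its invariant graph. -/
structure Mod (S : Type*) {Ω₀ : Type*} [Group S] [MulAction S Ω₀] (Γ : SimpleGraph Ω₀)
    (a b c : Ω₀) (k l : ℕ) : Prop where
  inv : ∀ (g : S) x y, Γ.Adj (g • x) (g • y) ↔ Γ.Adj x y
  adj : ∀ y, Γ.Adj a y ↔ y ∈ orbit (stabilizer S a) b
  nadj : ∀ y, (y ≠ a ∧ ¬ Γ.Adj a y) ↔ y ∈ orbit (stabilizer S a) c
  hk : (orbit (stabilizer S a) b).ncard = k
  hl : (orbit (stabilizer S a) c).ncard = l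
  card : Nat.card Ω₀ = 1 + k + l

theorem mod_orbGraph [Finite Ω] [IsPretransitive G Ω] {a b c : Ω} {k l : ℕ}
    (hk : (orbit (stabilizer G a) b).ncard = k) (hl : (orbit (stabilizer G a) c).ncard = l)
    (hk1 : k ≠ 1) (hl1 : l ≠ 1) (hkl : k ≠ l) (hn : Nat.card Ω = 1 + k + l) :
    Mod G (orbGraph G a b) a b c k l := by
  obtain ⟨h1, h2, h3, h4⟩ := rank3_cover hk hl hk1 hl1 hkl hn
  have h5 := orbGraph_adj_base h1 h4 (by omega)
  refine ⟨fun g _ _ => orbGraph_smul_iff g, h5, fun y => ⟨fun h => ?_, fun h => ⟨?_, fun h6 => ?_⟩⟩,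
    hk, hl, hn⟩
  · exact ((h4 y).resolve_left h.1).resolve_left fun h6 => h.2 ((h5 y).2 h6)
  · rintro rfl
    obtain ⟨g, hg⟩ := h
    exact h2 (by rw [← inv_smul_smul g c, show g • c = y from hg]; exact (g⁻¹).2)
  · exact Set.disjoint_left.1 h3 ((h5 y).1 h6) h

variable {Γ₀ : SimpleGraph Ω₀} {a₀ b₀ c₀ : Ω₀} {Γ : SimpleGraph Ω} {a b c : Ω} {k l : ℕ}

theorem Mod.change (M : Mod S Γ₀ a₀ b₀ c₀ k l) {b c : Ω₀} (hb : Γ₀.Adj a₀ b)
    (hc : c ≠ a₀ ∧ ¬ Γ₀.Adj a₀ c) : Mod S Γ₀ a₀ b c k l := by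
  have h1 := orbit_eq_iff.2 ((M.adj b).1 hb)
  have h2 := orbit_eq_iff.2 ((M.nadj c).1 hc)
  exact ⟨M.inv, h1 ▸ M.adj, h2 ▸ M.nadj, h1 ▸ M.hk, h2 ▸ M.hl, M.card⟩

theorem Mod.adj_b (M : Mod S Γ₀ a₀ b₀ c₀ k l) : Γ₀.Adj a₀ b₀ := (M.adj _).2 (mem_orbit_self _)

theorem Mod.nadj_c (M : Mod S Γ₀ a₀ b₀ c₀ k l) : c₀ ≠ a₀ ∧ ¬ Γ₀.Adj a₀ c₀ :=
  (M.nadj _).2 (mem_orbit_self _)

theorem card_map_stab (e : stabilizer G a ≃* stabilizer S a₀) (x : Ω) :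
    Nat.card (((stabilizer (stabilizer G a) x).map e.toMonoidHom).map (stabilizer S a₀).subtype) *
      (orbit (stabilizer G a) x).ncard = Nat.card (stabilizer S a₀) := by
  rw [Subgroup.card_map_of_injective Subtype.val_injective,
    Subgroup.card_map_of_injective e.injective, ← index_stabilizer, Subgroup.card_mul_index]
  exact Nat.card_congr e.toEquiv

/-- The stabiliser of a second point, transported. -/
theorem exists_fix (e : stabilizer G a ≃* stabilizer S a₀) (x : Ω) {Q : Ω₀ → Prop}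
    (h : ∀ J ≤ stabilizer S a₀, (∀ s ∈ J, ∃ g, g • x = x ∧ (e g : S) = s) →
      Nat.card J * (orbit (stabilizer G a) x).ncard = Nat.card (stabilizer S a₀) →
      ∃ y, Q y ∧ ∀ s ∈ J, s • y = y) : ∃ y, Q y ∧ ∀ g, g • x = x → e g • y = y := by
  obtain ⟨y, h1, h2⟩ := h _ (Subgroup.map_subtype_le _)
    (by rintro _ ⟨_, ⟨g, hg, rfl⟩, rfl⟩; exact ⟨g, hg, rfl⟩) (card_map_stab e x)
  exact ⟨y, h1, fun g hg => h2 _ ⟨_, ⟨g, hg, rfl⟩, rfl⟩⟩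

/-- The common neighbours of `a` and `c`, transported. -/
theorem exists_mu [Finite Ω] (M₀ : Mod S Γ₀ a₀ b₀ c₀ k l) (M : Mod G Γ a b c k l)
    (e : stabilizer G a ≃* stabilizer S a₀) (hb : ∀ g, g • b = b → e g • b₀ = b₀) :
    ∃ Y : Set Ω₀, (∀ y ∈ Y, Γ₀.Adj a₀ y) ∧ Y.ncard = {u | Γ.Adj a u ∧ Γ.Adj c u}.ncard ∧
      ∀ g, g • c = c → ∀ y ∈ Y, e g • y ∈ Y := by
  obtain ⟨f, hf⟩ := exists_orbMap e hb
  have h1 : f '' orbit (stabilizer G a) b = orbit (stabilizer S a₀) b₀ := by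
    ext y
    constructor
    · rintro ⟨_, ⟨g, rfl⟩, rfl⟩
      exact ⟨e g, (hf g).symm⟩
    · rintro ⟨g, rfl⟩
      exact ⟨_, ⟨e.symm g, rfl⟩, (hf _).trans (by simp)⟩
  have h2 := Set.injOn_of_ncard_image_eq (f := f) (s := orbit (stabilizer G a) b)
    (by rw [h1, M.hk, M₀.hk]) (Set.toFinite _)
  refine ⟨f '' {u | Γ.Adj a u ∧ Γ.Adj c u}, ?_, (h2.mono fun u hu => (M.adj u).1 hu.1).ncard_image, ?_⟩
  · rintro _ ⟨u, hu, rfl⟩
    rw [M₀.adj, ← h1]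
    exact ⟨u, (M.adj u).1 hu.1, rfl⟩
  · rintro g hg _ ⟨u, hu, rfl⟩
    obtain ⟨g', rfl⟩ := (M.adj u).1 hu.1
    refine ⟨g • g' • b, ⟨(M.adj _).2 ⟨g * g', mul_smul _ _ _⟩, ?_⟩, ?_⟩
    · rw [← hg]; exact (M.inv g.1 _ _).2 hu.2
    · rw [← mul_smul, hf, hf, map_mul, mul_smul]

theorem exists_equiv [Finite Ω] (M₀ : Mod S Γ₀ a₀ b₀ c₀ k l) (M : Mod G Γ a b c k l)
    (e : stabilizer G a ≃* stabilizer S a₀) (hb : ∀ g, g • b = b → e g • b₀ = b₀)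
    (hc : ∀ g, g • c = c → e g • c₀ = c₀) :
    ∃ φ : Ω ≃ Ω₀, φ a = a₀ ∧ (∀ g z, φ (g • z) = e g • φ z) ∧
      ∀ z, Γ.Adj a z ↔ Γ₀.Adj a₀ (φ z) := by
  classical
  obtain ⟨f, hf⟩ := exists_orbMap e hb
  obtain ⟨f', hf'⟩ := exists_orbMap e hc
  let φ : Ω → Ω₀ := fun z => if z = a then a₀ else if Γ.Adj a z then f z else f' z
  have h1 : φ a = a₀ := if_pos rfl
  have h2 : ∀ g : stabilizer G a, φ (g • b) = e g • b₀ := fun g => by
    have := (M.adj _).2 (mem_orbit b g)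
    simp only [φ, if_neg this.ne', if_pos this, hf]
  have h3 : ∀ g : stabilizer G a, φ (g • c) = e g • c₀ := fun g => by
    have := (M.nadj _).2 (mem_orbit c g)
    simp only [φ, if_neg this.1, if_neg this.2, hf']
  have h4 : ∀ z, z = a ∨ (∃ g : stabilizer G a, g • b = z) ∨ ∃ g : stabilizer G a, g • c = z :=
    fun z => by
      by_cases h5 : z = a
      · exact Or.inl h5
      by_cases h6 : Γ.Adj a z
      exacts [Or.inr (Or.inl ((M.adj z).1 h6)), Or.inr (Or.inr ((M.nadj z).1 ⟨h5, h6⟩))]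
  have h5 : Function.Surjective φ := fun y => by
    by_cases h5 : y = a₀
    · exact ⟨a, h5 ▸ h1⟩
    by_cases h6 : Γ₀.Adj a₀ y
    · obtain ⟨g, rfl⟩ := (M₀.adj y).1 h6
      exact ⟨_, (h2 (e.symm g)).trans (by simp)⟩
    · obtain ⟨g, rfl⟩ := (M₀.nadj y).1 ⟨h5, h6⟩
      exact ⟨_, (h3 (e.symm g)).trans (by simp)⟩
  refine ⟨Equiv.ofBijective φ ((Nat.bijective_iff_surjective_and_card φ).2
    ⟨h5, M.card.trans M₀.card.symm⟩), h1, fun g z => ?_, fun z => ?_⟩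
  · change φ _ = _ • φ z
    rcases h4 z with rfl | ⟨g', rfl⟩ | ⟨g', rfl⟩
    · rw [show g • z = z from g.2, h1]; exact (e g).2.symm
    · rw [← mul_smul, h2, h2, map_mul, mul_smul]
    · rw [← mul_smul, h3, h3, map_mul, mul_smul]
  · change _ ↔ Γ₀.Adj a₀ (φ z)
    rcases h4 z with rfl | ⟨g', rfl⟩ | ⟨g', rfl⟩
    · simp [h1]
    · rw [h2]
      exact iff_of_true ((M.adj _).2 (mem_orbit _ _)) ((M₀.adj _).2 (mem_orbit _ _))
    · rw [h3]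
      exact iff_of_false ((M.nadj _).2 (mem_orbit _ _)).2 ((M₀.nadj _).2 (mem_orbit _ _)).2

theorem exists_iso [Finite Ω] (M₀ : Mod S Γ₀ a₀ b₀ c₀ k l) (M : Mod G Γ a b c k l) {lam mu : ℕ}
    (hΓ : IsSRG Γ (1 + k + l) k lam mu) (e : stabilizer G a ≃* stabilizer S a₀) {b₁ c₁ : Ω₀}
    (hb₁ : Γ₀.Adj a₀ b₁) (hc₁ : c₁ ≠ a₀ ∧ ¬ Γ₀.Adj a₀ c₁)
    (hb : ∀ g, g • b = b → e g • b₁ = b₁) (hc : ∀ g, g • c = c → e g • c₁ = c₁)
    (h1 : ∀ Y : Set Ω₀, InvS (stabilizer S a₀ ⊓ stabilizer S b₀) Y → a₀ ∈ Y → b₀ ∉ Y → Y.ncard = k →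
      {y | Γ₀.Adj a₀ y ∧ y ∈ Y}.ncard = lam → ∀ y, y ∈ Y ↔ Γ₀.Adj b₀ y)
    (h2 : ∀ Y : Set Ω₀, InvS (stabilizer S a₀ ⊓ stabilizer S c₀) Y → a₀ ∉ Y → c₀ ∉ Y → Y.ncard = k →
      {y | Γ₀.Adj a₀ y ∧ y ∈ Y}.ncard = mu → ∀ y, y ∈ Y ↔ Γ₀.Adj c₀ y) : Nonempty (Γ ≃g Γ₀) := by
  obtain ⟨φ, e1, e2, e3⟩ := exists_equiv (M₀.change hb₁ hc₁) M e hb hc
  have e4 : ∀ (s : stabilizer S a₀) y, φ.symm (s • y) = e.symm s • φ.symm y := fun s y => by
    rw [Equiv.symm_apply_eq, e2]; simp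
  have i1 : ∀ v, InvS (stabilizer S a₀ ⊓ stabilizer S v) {y | Γ.Adj (φ.symm v) (φ.symm y)} := by
    intro v s hs y hy
    have h3 := e4 ⟨s, hs.1⟩ v
    rw [show (⟨s, hs.1⟩ : stabilizer S a₀) • v = v from hs.2] at h3
    change Γ.Adj _ (φ.symm ((⟨s, hs.1⟩ : stabilizer S a₀) • y))
    rw [e4, h3]
    exact (M.inv _ _ _).2 hy
  have i2 : ∀ v, {y | Γ.Adj (φ.symm v) (φ.symm y)}.ncard = k := fun v => by
    rw [← hΓ.deg (φ.symm v)]
    exact Set.ncard_preimage_of_injective_subset_range φ.symm.injective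
      fun u _ => φ.symm.surjective u
  have i3 : ∀ v, {y | Γ₀.Adj a₀ y ∧ y ∈ {y | Γ.Adj (φ.symm v) (φ.symm y)}}.ncard =
      {u | Γ.Adj a u ∧ Γ.Adj (φ.symm v) u}.ncard := fun v => by
    rw [← Set.ncard_preimage_of_injective_subset_range (f := φ.symm) φ.symm.injective (by simp)]
    congr 1
    ext y
    simp [e3]
  have e5 : φ.symm a₀ = a := by rw [← e1, Equiv.symm_apply_apply]
  have e6 : ∀ y, Γ.Adj a (φ.symm y) ↔ Γ₀.Adj a₀ y := fun y => by simp [e3]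
  have k1 := h1 _ (i1 b₀) (show Γ.Adj _ _ by rw [e5]; exact ((e6 _).2 M₀.adj_b).symm)
    (fun h => Γ.irrefl h) (i2 _) ((i3 _).trans (hΓ.adj _ _ ((e6 _).2 M₀.adj_b)))
  have k2 := h2 _ (i1 c₀) (show ¬ Γ.Adj _ _ by
      rw [e5]; exact fun h => M₀.nadj_c.2 ((e6 _).1 h.symm))
    (fun h => Γ.irrefl h) (i2 _) ((i3 _).trans (hΓ.nadj _ _
      (fun h => M₀.nadj_c.1 (by rw [← e1, h]; simp)) fun h => M₀.nadj_c.2 ((e6 _).1 h)))
  have k3 : ∀ v, (∀ y, Γ.Adj (φ.symm v) (φ.symm y) ↔ Γ₀.Adj v y) → ∀ s : stabilizer S a₀,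
      ∀ y, Γ.Adj (φ.symm (s • v)) (φ.symm y) ↔ Γ₀.Adj (s • v) y := fun v hv s y => by
    obtain ⟨y, rfl⟩ := MulAction.surjective s y
    rw [e4, e4]
    exact (M.inv _ _ _).trans ((hv y).trans (M₀.inv _ _ _).symm)
  refine ⟨SimpleGraph.Iso.symm ⟨φ.symm, fun {x y} => ?_⟩⟩
  by_cases h5 : x = a₀
  · rw [h5, e5]; exact e6 y
  by_cases h6 : Γ₀.Adj a₀ x
  · obtain ⟨g, rfl⟩ := (M₀.adj x).1 h6
    exact k3 _ k1 g y
  · obtain ⟨g, rfl⟩ := (M₀.nadj x).1 ⟨h5, h6⟩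
    exact k3 _ k2 g y

theorem equiv_of_iso [Finite S] [FaithfulSMul S Ω₀] [FaithfulSMul G Ω] (hs : IsSimpleGroup S)
    (h2 : 2 < Nat.card S) (h₀ : ∀ (g : S) x y, Γ₀.Adj (g • x) (g • y) ↔ Γ₀.Adj x y)
    (h : ∀ (g : G) x y, Γ.Adj (g • x) (g • y) ↔ Γ.Adj x y) (φ : Γ ≃g Γ₀) [Finite (Γ₀ ≃g Γ₀)]
    (hA : Nat.card (Γ₀ ≃g Γ₀) ≤ 2 * Nat.card S) (hG : Nat.card G = Nat.card S) :
    Nonempty (G ≃* S) := by
  have hf : Function.Injective ((autCongr φ).toMonoidHom.comp (toAut Γ h)) :=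
    (autCongr φ).injective.comp (toAut_injective Γ h)
  have e1 := MonoidHom.ofInjective hf
  have e2 := MonoidHom.ofInjective (toAut_injective Γ₀ h₀)
  generalize ((autCongr φ).toMonoidHom.comp (toAut Γ h)).range = U at e1
  generalize (toAut Γ₀ h₀).range = V at e2
  have h3 := U.index_mul_card
  have h4 := V.index_mul_card
  have h5 := Nat.card_congr e2.toEquiv
  rw [← Nat.card_congr e1.toEquiv, hG] at h3
  rw [← h5] at h4
  have h6 : U.index = V.index := Nat.eq_of_mul_eq_mul_right (by omega) (h3.trans h4.symm)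
  have h7 : V.index ≤ 2 := Nat.le_of_mul_le_mul_right (h4.trans_le hA) (by omega)
  have h8 : V.index ≠ 0 := Subgroup.index_ne_zero_of_finite
  have h9 : U = V := by
    rcases (by omega : V.index = 1 ∨ V.index = 2) with h | h
    · rw [Subgroup.index_eq_one.1 h, Subgroup.index_eq_one.1 (h6.trans h)]
    · exact eq_of_index_two h (h6.trans h) e2.symm.isSimpleGroup (h5 ▸ h2)
  exact ⟨e1.trans ((MulEquiv.subgroupCongr h9).trans e2.symm)⟩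

theorem card_eq_of_stab [IsPretransitive S Ω₀] [IsPretransitive G Ω]
    (e : stabilizer G a ≃* stabilizer S a₀) (h : Nat.card Ω = Nat.card Ω₀) :
    Nat.card G = Nat.card S := by
  rw [← (stabilizer G a).card_mul_index, ← (stabilizer S a₀).card_mul_index,
    index_stabilizer_of_transitive, index_stabilizer_of_transitive, h, Nat.card_congr e.toEquiv]

end Cfsg.Lib.Spor.R3
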