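import Cfsg.Agent.Spor.SzKit
import Cfsg.Agent.Spor.R3Abs

/-! Computations with an invariant graph in a bulk permutation model. -/

set_option autoImplicit false

namespace Cfsg.Lib.Spor.R3

open Cfsg.Lib.Spor.Bulk Cfsg.Lib.Spor.WM Cfsg.Lib.Spor.SzK Subgroup
open Cfsg.Lib.Known.PC (frc frc_eq brec_eq)

variable {G : Type*} [Group G] {n : ℕ} {ρ : G →* Equiv.Perm (Fin n)} {e : ℕ → G} {T : ℕ → Net}
  {w k : ℕ} {tb : ℕ → ℕ → ℕ} {bs : List ℕ}

/-- An invariant graph with the neighbours of a base point. -/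
structure Gr (ρ : G →* Equiv.Perm (Fin n)) (Γ : SimpleGraph (Fin n)) (a D : ℕ) : Prop where
  inv : ∀ (g : G) x y, Γ.Adj (ρ g x) (ρ g y) ↔ Γ.Adj x y
  adj : ∀ x y : Fin n, (x : ℕ) = a → (Γ.Adj x y ↔ D.testBit y = true)

theorem pull_iff (C : Ctx ρ e T w k tb bs) {W : List ℕ} (h : ltB k [W] = true) (M : ℕ) (p : Fin n) :
    (pullW T W M).testBit p = M.testBit (ρ (wv e W) p) := by
  rw [testBit_pullW C.nets, map_wv_of_lt C.hρ (lt_of_ltB h W List.mem_cons_self)]

theorem grow_orb (C : Ctx ρ e T w k tb bs) {K : Subgroup G} {Ws : List (List ℕ)}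
    (h : ltB k Ws = true) (hW : ∀ W ∈ Ws, wv e W ∈ K) (j : ℕ) (b : Fin n) :
    bset n (grow T Ws j (Nat.shiftLeft 1 b)) ⊆ orb ρ K b := by
  refine grow_sub C.nets (S := orb ρ K b) (fun W hW' q hq => ?_) j fun q hq => ⟨1, one_mem _, ?_⟩
  · obtain ⟨x, hx, e1⟩ := hq
    refine ⟨_, mul_mem (inv_mem (hW W hW')) hx, ?_⟩
    rw [map_mul, Equiv.Perm.mul_apply, e1, map_inv, map_wv_of_lt C.hρ (lt_of_ltB h W hW')]; simp
  · rw [bset, Set.mem_ofPred_eq, testBit_one_shl, decide_eq_true_eq, Fin.val_inj] at hq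
    simpa using hq

theorem orb_eq (C : Ctx ρ e T w k tb bs) {Ws : List (List ℕ)} (h : ltB k Ws = true) {j M : ℕ}
    {b : Fin n} (ho : orbB T Ws j b M = true) : orb ρ (gW e Ws) b = bset n M := by
  rw [← orbit_eq_of_orbB C.nets ho, show genW T n Ws = gW (prm T n) Ws from rfl, ← map_gW C.hρ h]
  ext q
  exact ⟨fun ⟨x, hx, e1⟩ => ⟨⟨_, x, hx, rfl⟩, e1⟩, fun ⟨⟨_, x, hx, rfl⟩, e1⟩ => ⟨x, hx, e1⟩⟩

variable {Γ : SimpleGraph (Fin n)} {a D : ℕ}

/-- The word takes `x` to the base point. -/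
noncomputable def toB (n k : ℕ) (tb : ℕ → ℕ → ℕ) (a x : ℕ) (W : List ℕ) : Bool :=
  band (Nat.blt x n) (band (ltB k [W]) (Nat.beq (ap tb W x) a))

theorem Gr.row (H : Gr ρ Γ a D) (C : Ctx ρ e T w k tb bs) {x : ℕ} {W : List ℕ}
    (h : toB n k tb a x W = true) :
    ∃ p : Fin n, (p : ℕ) = x ∧ ∀ y : Fin n, (pullW T W D).testBit y = true ↔ Γ.Adj p y := by
  simp only [toB, band_iff', Nat.blt_eq, Nat.beq_eq] at h
  refine ⟨⟨x, h.1⟩, rfl, fun y => ?_⟩
  rw [pull_iff C h.2.1, ← H.inv (wv e W), H.adj _ _ ((C.ap_eq W ⟨x, h.1⟩).symm.trans h.2.2)]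

/-! ### Orbits with neighbourhoods -/

/-- Pairs of a part of an orbit and the neighbourhood of one of its points. -/
def Parts (ρ : G →* Equiv.Perm (Fin n)) (Γ : SimpleGraph (Fin n)) (K : Subgroup G)
    (L : List (ℕ × ℕ)) : Prop :=
  ∀ q ∈ L, ∃ x : Fin n, bset n q.1 ⊆ orb ρ K x ∧ ∀ y : Fin n, q.2.testBit y = true ↔ Γ.Adj x y

theorem Parts_eq_1 : type_of% @Parts.eq_1 := @Parts.eq_1

theorem Parts.append {K : Subgroup G} {L L' : List (ℕ × ℕ)} (h : Parts ρ Γ K L)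
    (h' : Parts ρ Γ K L') : Parts ρ Γ K (L ++ L') := fun q hq =>
  (List.mem_append.1 hq).elim (h q) (h' q)

/-- Compute the parts. -/
noncomputable def prtK (T : ℕ → Net) (n k : ℕ) (tb : ℕ → ℕ → ℕ) (a D : ℕ) (Ws : List (List ℕ))
    (ps : List (ℕ × ℕ × List ℕ)) : (List (ℕ × ℕ) → Bool) → Bool :=
  List.rec (fun f => f []) (fun p _ ih f => band (toB n k tb a p.1 p.2.2)
    (frc (grow T Ws p.2.1 (Nat.shiftLeft 1 p.1)) fun O => frc (pullW T p.2.2 D) fun R =>
      ih fun L => f ((O, R) :: L))) ps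

theorem Gr.parts (H : Gr ρ Γ a D) (C : Ctx ρ e T w k tb bs) {K : Subgroup G} {Ws : List (List ℕ)}
    (h : ltB k Ws = true) (hW : ∀ W ∈ Ws, wv e W ∈ K) {ps : List (ℕ × ℕ × List ℕ)} :
    ∀ {f : List (ℕ × ℕ) → Bool}, prtK T n k tb a D Ws ps f = true →
      ∃ L, Parts ρ Γ K L ∧ f L = true := by
  induction ps with
  | nil => exact fun h => ⟨[], fun _ h => by simp at h, h⟩
  | cons p ps ih =>
    intro f hf
    obtain ⟨h1, h2⟩ := band_iff'.1 hf
    obtain ⟨L, h3, h4⟩ := ih h2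
    obtain ⟨x, h5, h6⟩ := H.row C h1
    exact ⟨_, List.forall_mem_cons.2 ⟨⟨x, h5 ▸ grow_orb C h hW _ x, h6⟩, h3⟩, h4⟩

/-- The union of the parts. -/
noncomputable def uni (L : List (ℕ × ℕ)) : ℕ := List.rec 0 (fun q _ r => Nat.lor q.1 r) L

theorem testBit_uni (L : List (ℕ × ℕ)) (y : ℕ) :
    (uni L).testBit y = true ↔ ∃ q ∈ L, q.1.testBit y = true := by
  induction L with
  | nil => simp [uni]
  | cons q L ih =>
    change (q.1 ||| uni L).testBit y = true ↔ _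
    simp [ih]

/-- The parts cover the mask. -/
noncomputable def covB (L : List (ℕ × ℕ)) (Z : ℕ) : Bool := Nat.beq (Nat.land Z (uni L)) Z

theorem covB_spec {L : List (ℕ × ℕ)} {Z : ℕ} (h : covB L Z = true) {y : ℕ}
    (hy : Z.testBit y = true) : ∃ q ∈ L, q.1.testBit y = true := by
  rw [← Nat.eq_of_beq_eq_true h] at hy
  change (Z &&& uni L).testBit y = true at hy
  rw [Nat.testBit_and, Bool.and_eq_true] at hy
  exact (testBit_uni L y).1 hy.2

/-- A property of all unions of parts. -/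
noncomputable def allSub (f : ℕ → Bool) (L : List (ℕ × ℕ)) : ℕ → Bool :=
  List.rec f (fun q _ ih A => band (ih A) (frc (Nat.lor A q.1) ih)) L

theorem Parts.sub_aux {K : Subgroup G} {Y : Set (Fin n)} (hY : ∀ g ∈ K, ∀ y ∈ Y, ρ g y ∈ Y)
    {f : ℕ → Bool} {L : List (ℕ × ℕ)} (h : Parts ρ Γ K L) : ∀ {A : ℕ}, allSub f L A = true →
      bset n A ⊆ Y → (∀ y ∈ Y, y ∈ bset n A ∨ ∃ q ∈ L, y ∈ bset n q.1) →
      ∃ M, bset n M = Y ∧ f M = true := by
  induction L with
  | nil => exact fun h1 h2 h3 => ⟨_, h2.antisymm fun y hy => by simpa using h3 y hy, h1⟩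
  | cons q L ih =>
    intro A h1 h2 h3
    obtain ⟨⟨x, hx, -⟩, h⟩ := List.forall_mem_cons.1 h
    obtain ⟨h4, h5⟩ := band_iff'.1 h1
    have e1 : ∀ y, y ∈ bset n (Nat.lor A q.1) ↔ y ∈ bset n A ∨ y ∈ bset n q.1 := fun y => by
      change (A ||| q.1).testBit y = true ↔ _
      simp [bset]
    by_cases h6 : x ∈ Y
    · refine ih h h5 (fun y hy => ((e1 y).1 hy).elim (h2 ·) fun h => ?_) fun y hy => ?_
      · obtain ⟨g, hg, rfl⟩ := hx h
        exact hY g hg x h6
      · rw [e1, or_assoc]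
        simpa only [List.exists_mem_cons_iff] using h3 y hy
    · refine ih h h4 h2 fun y hy => (h3 y hy).imp_right fun ⟨r, hr, h7⟩ => ?_
      rcases List.mem_cons.1 hr with rfl | hr
      · obtain ⟨g, hg, rfl⟩ := hx h7
        exact absurd (by simpa using hY _ (inv_mem hg) _ hy) h6
      · exact ⟨r, hr, h7⟩

theorem Parts.sub {K : Subgroup G} {L : List (ℕ × ℕ)} (h : Parts ρ Γ K L) {f : ℕ → Bool} {Z : ℕ}
    (hc : band (covB L Z) (allSub f L 0) = true) {Y : Set (Fin n)}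
    (hY : ∀ g ∈ K, ∀ y ∈ Y, ρ g y ∈ Y) (hZ : Y ⊆ bset n Z) : ∃ M, bset n M = Y ∧ f M = true :=
  h.sub_aux hY (band_iff'.1 hc).2 (fun y hy => by simp [bset] at hy)
    fun _ hy => Or.inr (covB_spec (band_iff'.1 hc).1 (hZ hy))

/-- The points with `t` neighbours in `M`. -/
noncomputable def lev (n w : ℕ) (L : List (ℕ × ℕ)) (t M : ℕ) : ℕ :=
  List.rec 0 (fun q _ r => Bool.rec r (Nat.lor q.1 r) (Nat.beq (cnt n w (Nat.land q.2 M)) t)) L

theorem testBit_lev (L : List (ℕ × ℕ)) (t M y : ℕ) : (lev n w L t M).testBit y = true ↔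
    ∃ q ∈ L, cnt n w (Nat.land q.2 M) = t ∧ q.1.testBit y = true := by
  induction L with
  | nil => simp [lev]
  | cons q L ih =>
    change (Bool.rec (motive := fun _ => ℕ) (lev n w L t M) (q.1 ||| lev n w L t M) _).testBit y
      = true ↔ _
    rw [brec_eq, List.exists_mem_cons_iff, ← ih]
    split_ifs with h <;> rw [Nat.beq_eq] at h
    · simp only [h, Nat.testBit_or, Bool.or_eq_true, true_and]
    · simp only [h, false_and, false_or]

theorem Gr.ncard_inv (H : Gr ρ Γ a D) {K : Subgroup G} {M : ℕ} (hM : Inv ρ K M) {g : G}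
    (hg : g ∈ K) (x : Fin n) : {u | Γ.Adj (ρ g x) u ∧ M.testBit u = true}.ncard =
      {u | Γ.Adj x u ∧ M.testBit u = true}.ncard := by
  rw [← Set.ncard_preimage_of_injective_subset_range (f := ρ g) (ρ g).injective
    fun u _ => (ρ g).surjective u]
  congr 1
  ext u
  simp only [Set.mem_preimage, Set.mem_ofPred_eq, H.inv, hM.iff hg]

theorem Gr.inv_lev (H : Gr ρ Γ a D) (hn : n ≤ 2 ^ w) {U K : Subgroup G} (hU : U ≤ K)
    {L : List (ℕ × ℕ)} (h : Parts ρ Γ U L) (hc : covB L (ones n) = true) (t : ℕ) {M : ℕ}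
    (hM : Inv ρ K M) : Inv ρ K (lev n w L t M) := by
  have k1 : ∀ q ∈ L, ∀ y : Fin n, q.1.testBit y = true →
      {u | Γ.Adj y u ∧ M.testBit u = true}.ncard = cnt n w (Nat.land q.2 M) := fun q hq y hy => by
    obtain ⟨x, h1, h2⟩ := h q hq
    obtain ⟨g, hg, rfl⟩ := h1 hy
    rw [H.ncard_inv hM (hU hg), cnt_eq hn]
    congr 1
    ext u
    change _ ↔ (q.2 &&& M).testBit u = true
    simp [h2]
  intro g hg y hy
  rw [testBit_lev] at hy ⊢
  obtain ⟨q, h1, h2, h3⟩ := hy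
  obtain ⟨r, h4, h5⟩ := covB_spec hc (y := ρ g y) (by simp [testBit_ones])
  exact ⟨r, h4, by rw [← k1 r h4 _ h5, H.ncard_inv hM hg, k1 q h1 y h3, h2], h5⟩

theorem fix_of_inv {K : Subgroup G} {c : Fin n} (h : Inv ρ K (Nat.shiftLeft 1 c)) {g : G}
    (hg : g ∈ K) : ρ g c = c := by
  have := h g hg c (by simp [testBit_one_shl])
  rw [testBit_one_shl, decide_eq_true_eq, Fin.val_inj] at this
  exact this.symm

theorem inv_of_bset {K : Subgroup G} {M : ℕ} {Y : Set (Fin n)} (h : bset n M = Y)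
    (hY : ∀ g ∈ K, ∀ y ∈ Y, ρ g y ∈ Y) : Inv ρ K M := fun g hg p hp => by
  subst h; exact hY g hg p hp

/-- Invariant sets with given data are neighbourhoods. -/
noncomputable def nbrB (T : ℕ → Net) (n w k : ℕ) (tb : ℕ → ℕ → ℕ) (a D : ℕ) (Ws : List (List ℕ))
    (ps : List (ℕ × ℕ × List ℕ)) (x : ℕ) (W : List ℕ) (s : Bool) (d m : ℕ) : Bool :=
  band (band (ltB k Ws) (toB n k tb a x W))
    (band (allL (fun V => band (Nat.beq (ap tb V a) a) (Nat.beq (ap tb V x) x)) Ws)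
      (frc (pullW T W D) fun R => prtK T n k tb a D Ws ps fun L => band (covB L (ones n))
        (allSub (fun M => orB (Nat.beq M R) (notB (band (band (Bool.rec (notB (bit M a)) (bit M a) s)
          (notB (bit M x))) (band (Nat.beq (cnt n w M) d) (Nat.beq (cnt n w (Nat.land D M)) m)))))
          L 0)))

theorem Gr.nbr (H : Gr ρ Γ a D) (C : Ctx ρ e T w k tb bs) {Ws : List (List ℕ)}
    {ps : List (ℕ × ℕ × List ℕ)} {x a₀ : Fin n} (ha : (a₀ : ℕ) = a) {W : List ℕ} {s : Bool} {d m : ℕ}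
    (h : nbrB T n w k tb a D Ws ps x W s d m = true) (Y : Set (Fin n))
    (hY : ∀ g, ρ g a₀ = a₀ → ρ g x = x → ∀ y ∈ Y, ρ g y ∈ Y) (h1 : a₀ ∈ Y ↔ s = true) (h2 : x ∉ Y)
    (h3 : Y.ncard = d) (h4 : {y | Γ.Adj a₀ y ∧ y ∈ Y}.ncard = m) (y : Fin n) :
    y ∈ Y ↔ Γ.Adj x y := by
  subst ha
  obtain ⟨c1, c2⟩ := band_iff'.1 h
  obtain ⟨c0, c1⟩ := band_iff'.1 c1
  obtain ⟨c2, c3⟩ := band_iff'.1 c2
  obtain ⟨p, e1, c6⟩ := H.row C c1
  obtain rfl := Fin.ext e1
  obtain ⟨L, c4, c3⟩ := H.parts C (K := fx ρ [a₀, p]) c0 (fun V hV => by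
    have := allL_iff.1 c2 V hV
    simp only [band_iff', Nat.beq_eq, C.ap_eq, Fin.val_inj] at this
    exact mem_fx_cons.2 ⟨this.1, mem_fx_cons.2 ⟨this.2, mem_fx_nil _⟩⟩) c3
  obtain ⟨M, rfl, c5⟩ := c4.sub c3 (fun g hg => hY g (mem_fx_cons.1 hg).1
    (mem_fx_cons.1 (mem_fx_cons.1 hg).2).1) fun y _ => by simp [bset, testBit_ones]
  rcases orB_iff.1 c5 with c5 | c5
  · rw [Nat.eq_of_beq_eq_true c5]; exact c6 y
  refine absurd ?_ (notB_iff.1 c5)
  simp only [band_iff', notB_iff, bit_eq, Nat.beq_eq, ← ncard_bset C.hn]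
  refine ⟨⟨?_, h2⟩, h3, h4 ▸ ?_⟩
  · cases s
    · exact notB_iff.2 fun h => by simpa using h1.1 h
    · exact h1.2 rfl
  · congr 1
    ext u
    change (D &&& M).testBit u = true ↔ _
    simp [H.adj a₀ u rfl, bset]

/-! ### The automorphism group -/

/-- The action of the automorphism group. -/
def autP (Γ : SimpleGraph (Fin n)) : (Γ ≃g Γ) →* Equiv.Perm (Fin n) where
  toFun g := g.toEquiv
  map_one' := rfl
  map_mul' _ _ := rfl

theorem autP_eq_1 : type_of% @autP.eq_1 := @autP.eq_1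

theorem autP_inj : Function.Injective (autP Γ) := RelIso.toEquiv_injective

/-- At most one bit is set. -/
noncomputable def one1 (X : ℕ) : Bool := Nat.beq (Nat.land X (Nat.pred X)) 0

theorem one1_spec {X p q : ℕ} (h : one1 X = true) (hp : X.testBit p = true)
    (hq : X.testBit q = true) : p = q := by
  have key : ∀ p q, p < q → X.testBit p = true → X.testBit q = true → False := fun p q h1 h2 h3 => by
    have h4 : X % 2 ^ q ≠ 0 := fun h5 => by
      have := Nat.testBit_mod_two_pow X q p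
      simp [h5, h1, h2] at this
    have h5 : (X - 1) / 2 ^ q = X / 2 ^ q := by
      have h6 := Nat.mod_lt X (Nat.two_pow_pos q)
      have h7 := Nat.div_add_mod X (2 ^ q)
      exact (Nat.div_eq_iff (Nat.two_pow_pos q)).2 (by rw [mul_comm]; omega)
    have h6 : (X &&& (X - 1)).testBit q = false := by
      rw [show X &&& (X - 1) = 0 from Nat.eq_of_beq_eq_true h]; simp
    rw [Nat.testBit_and, Nat.testBit_eq_decide_div_mod_eq (x := X - 1), h5,
      ← Nat.testBit_eq_decide_div_mod_eq, h3] at h6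
    cases h6
  rcases lt_trichotomy p q with h1 | h1 | h1
  exacts [(key p q h1 hp hq).elim, h1, (key q p h1 hq hp).elim]

/-- The masks separate the points. -/
noncomputable def sepB (Ms : List ℕ) : ℕ → Bool :=
  List.rec one1 (fun M _ ih X => Bool.rec
    (frc (Nat.land X M) fun A => band (ih A) (frc (Nat.xor X A) ih)) true (one1 X)) Ms

theorem sepB_spec {Ms : List ℕ} {p q : ℕ} (hM : ∀ M ∈ Ms, M.testBit p = M.testBit q) : ∀ {X : ℕ},
    sepB Ms X = true → X.testBit p = true → X.testBit q = true → p = q := by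
  induction Ms with
  | nil => exact one1_spec
  | cons M Ms ih =>
    intro X h hp hq
    obtain ⟨h1, h2⟩ := List.forall_mem_cons.1 hM
    change Bool.rec (motive := fun _ => Bool)
      (band (sepB Ms (X &&& M)) (sepB Ms (X ^^^ (X &&& M)))) true (one1 X) = true at h
    rw [brec_eq] at h
    split_ifs at h with h3
    · exact one1_spec h3 hp hq
    obtain ⟨h4, h5⟩ := band_iff'.1 h
    cases h6 : M.testBit q
    · exact ih h2 h5 (by simp [hp, h1, h6]) (by simp [hq, h6])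
    · exact ih h2 h4 (by simp [hp, h1, h6]) (by simp [hq, h6])

/-- Chain for the automorphism group. -/
noncomputable def autB (T : ℕ → Net) (n w k : ℕ) (tb : ℕ → ℕ → ℕ) (a D : ℕ)
    (ls : List (ℕ × ℕ × List ℕ)) : List ℕ → Bool :=
  List.rec (fun Ms => frc (ones n) (sepB Ms))
    (fun l _ ih Ms => band (band (toB n k tb a l.1 l.2.2)
      (Nat.ble (cnt n w (cut l.1 Ms (ones n))) l.2.1))
      (frc (pullW T l.2.2 D) fun R => frc (Nat.shiftLeft 1 l.1) fun s => ih (R :: (Ms ++ [s])))) ls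

theorem Gr.aut_aux (H : Gr ρ Γ a D) (C : Ctx ρ e T w k tb bs) {ls : List (ℕ × ℕ × List ℕ)} :
    ∀ {Ms prev : List ℕ}, autB T n w k tb a D ls Ms = true →
      (∀ M ∈ Ms, Inv (autP Γ) (⊤ ⊓ fx (autP Γ) prev) M) →
      Nat.card ↥(⊤ ⊓ fx (autP Γ) prev) ≤ (ls.map fun l => l.2.1).prod := by
  have key : ∀ {Ms prev : List ℕ}, (∀ M ∈ Ms, Inv (autP Γ) (⊤ ⊓ fx (autP Γ) prev) M) →
      ∀ b : Fin n, orb (autP Γ) (⊤ ⊓ fx (autP Γ) prev) b ⊆ bset n (cut b Ms (ones n)) := by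
    rintro Ms prev h b _ ⟨g, hg, rfl⟩
    exact testBit_cut (fun M hM => (h M hM).iff hg b) (by simp [testBit_ones])
  induction ls with
  | nil =>
    intro Ms prev h hM
    rw [show ⊤ ⊓ fx (autP Γ) prev = ⊥ from eq_bot_iff.2 fun g hg => autP_inj (Equiv.ext fun q => ?_)]
    · simp
    exact Fin.ext (sepB_spec (fun M h => (hM M h).iff hg q) h (by simp [testBit_ones])
      (by simp [testBit_ones]))
  | cons l ls ih =>
    intro Ms prev h hM
    obtain ⟨h1, h2⟩ := band_iff'.1 h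
    obtain ⟨h1, h3⟩ := band_iff'.1 h1
    obtain ⟨b, e1, h1⟩ := H.row C h1
    rw [← e1, Nat.ble_eq, ← ncard_bset C.hn] at h3
    rw [card_eq_orb _ b, List.map_cons, List.prod_cons]
    refine Nat.mul_le_mul ((Set.ncard_le_ncard (key hM b) (Set.toFinite _)).trans h3)
      (ih h2 (List.forall_mem_cons.2 ⟨fun g hg y hy => ?_, List.forall_mem_append.2
        ⟨fun M h => (hM M h).mono fun g hg => ⟨hg.1, (mem_fx_cons.1 hg.2).2⟩,
          List.forall_mem_singleton.2 fun g hg y hy => ?_⟩⟩))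
    · rw [h1] at hy ⊢
      rw [← (mem_fx_cons.1 hg.2).1]
      exact g.map_adj_iff.2 hy
    · rw [← e1, testBit_one_shl, decide_eq_true_eq, Fin.val_inj] at hy ⊢
      rw [← hy, (mem_fx_cons.1 hg.2).1]

theorem Gr.aut (H : Gr ρ Γ a D) (C : Ctx ρ e T w k tb bs) {ls : List (ℕ × ℕ × List ℕ)}
    (h : autB T n w k tb a D ls [] = true) :
    Nat.card (Γ ≃g Γ) ≤ (ls.map fun l => l.2.1).prod := by
  simpa [fx_nil] using H.aut_aux C (prev := []) h (by simp)

/-! ### Words in words, conjugation -/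

/-- The listed words with the given indices. -/
noncomputable def sel (gs : List (List ℕ)) (I : List ℕ) : List (List ℕ) := mapL (getN [] gs) I

theorem wl_sel {K : Subgroup G} {gs : List (List ℕ)} (h : ∀ V ∈ gs, wv e V ∈ K) (I : List ℕ) :
    wl e (sel gs I) ∈ K := by
  induction I with
  | nil => exact one_mem _
  | cons i I ih =>
    refine mul_mem ih ?_
    rw [getN_eq]
    by_cases hi : i < gs.length
    · rw [List.getD_eq_getElem _ _ hi]; exact h _ (List.getElem_mem hi)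
    · rw [List.getD_eq_default _ _ (by omega)]; exact one_mem _

/-- The words are products of the listed words. -/
noncomputable def exB (tb : ℕ → ℕ → ℕ) (bs : List ℕ) (gs : List (List ℕ))
    (cs : List (List ℕ × List ℕ)) : Bool := allL (fun c => eqB tb bs [c.1] (sel gs c.2)) cs

theorem mem_of_exB (C : Ctx ρ e T w k tb bs) {K : Subgroup G} {gs : List (List ℕ)}
    (h : ∀ V ∈ gs, wv e V ∈ K) {cs : List (List ℕ × List ℕ)} (hc : exB tb bs gs cs = true) :
    ∀ W ∈ cs.map Prod.fst, wv e W ∈ K := fun W hW => by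
  obtain ⟨c, h1, rfl⟩ := List.mem_map.1 hW
  have := C.eqB_iff.1 (allL_iff.1 hc c h1)
  rw [wl, wl, one_mul] at this
  exact this ▸ wl_sel h _

/-- A product of the listed words has order `p`. -/
noncomputable def ordB (tb : ℕ → ℕ → ℕ) (bs : List ℕ) (gs : List (List ℕ)) (p : ℕ) (I : List ℕ) :
    Bool :=
  band (eqB tb bs (Nat.rec [] (fun _ r => sel gs I ++ r) p) []) (notB (eqB tb bs (sel gs I) []))

theorem wl_append (A B : List (List ℕ)) : wl e (A ++ B) = wl e B * wl e A := by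
  induction A with
  | nil => simp [wl]
  | cons W A ih => simp [wl, ih, mul_assoc]

theorem dvd_of_ordB (C : Ctx ρ e T w k tb bs) {K : Subgroup G} {gs : List (List ℕ)}
    (h : ∀ V ∈ gs, wv e V ∈ K) {p : ℕ} (hp : p.Prime) {I : List ℕ}
    (hc : ordB tb bs gs p I = true) : p ∣ Nat.card K := by
  have := Fact.mk hp
  simp only [ordB, band_iff', notB_iff, C.eqB_iff, wl] at hc
  have h1 : ∀ m : ℕ, wl e (Nat.rec [] (fun _ r => sel gs I ++ r) m) = wl e (sel gs I) ^ m := by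
    intro m
    induction m with
    | zero => simp [wl]
    | succ m ih => rw [pow_succ, ← ih, ← wl_append]
  have h2 := K.orderOf_dvd_natCard (wl_sel h I)
  rwa [orderOf_eq_prime ((h1 p).symm.trans hc.1) hc.2] at h2

theorem exists_conj_sub [Finite G] {p m : ℕ} (hp : p.Prime) {H J Q : Subgroup G} (hJ : J ≤ H)
    (hd : p ^ m ∣ Nat.card J) (hH : ¬ p ^ (m + 1) ∣ Nat.card H) (hQ : Q ≤ H)
    (hQ' : IsPGroup p Q) : ∃ h ∈ H, ∃ J' : Subgroup G, Q ≤ J' ∧ J' ≤ H ∧
      Nat.card J' = Nat.card J ∧ ∀ s, s ∈ J' ↔ h * s * h⁻¹ ∈ J := by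
  have := Fact.mk hp
  obtain ⟨U, hU⟩ := Sylow.exists_subgroup_card_pow_prime p hd
  have h0 : U.map J.subtype ≤ H := (map_subtype_le U).trans hJ
  have h1 : Nat.card ((U.map J.subtype).subgroupOf H) = p ^ m := by
    rw [Nat.card_congr (subgroupOfEquivOfLe h0).toEquiv, card_map_of_injective J.subtype_injective, hU]
  let P : Sylow p H := (IsPGroup.of_card h1).toSylow fun h => hH (by
    rw [← ((U.map J.subtype).subgroupOf H).card_mul_index, h1, pow_succ]
    exact Nat.mul_dvd_mul_left _ h)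
  obtain ⟨P', hP'⟩ := (hQ'.comap_of_injective H.subtype H.subtype_injective).exists_le_sylow
  obtain ⟨h, hh⟩ := MulAction.exists_smul_eq H P' P
  refine ⟨h, h.2, J.comap (MulAut.conj (h : G)).toMonoidHom, fun q hq => ?_, fun s hs => ?_,
    ?_, fun s => Iff.rfl⟩
  · have h2 : h * ⟨q, hQ hq⟩ * h⁻¹ ∈ (P : Subgroup H) := by
      rw [← hh]; exact ⟨_, hP' (show (⟨q, hQ hq⟩ : H) ∈ Q.comap H.subtype from hq), rfl⟩
    exact map_subtype_le U h2
  · simpa [mul_assoc] using mul_mem (mul_mem (inv_mem h.2) (hJ hs)) h.2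
  · rw [comap_equiv_eq_map_symm', card_map_of_injective (MulEquiv.injective _)]

end Cfsg.Lib.Spor.R3
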