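import Cfsg.Agent.Spor.RuR3D

/-!
# A base for the rank three action of the Rudvalis group
-/

set_option autoImplicit false
set_option maxRecDepth 100000

namespace Cfsg.Lib.Spor.Ru.Rk

open Cfsg.Lib.Known Cfsg.Lib.Known.PC R3

theorem c_z1 : nall (fun i => frc (keyF (fun z => nb z.2) rZ1 i) fun k =>
    lall (fun e => Nat.beq k e.2 == Nat.beq i e.1) rZ3) 4060 = true := by decide +kernel
theorem c_z2 : distinct 2097152 (mapR (keyF (fun z => nb z.2) (rZ2 ++ rZ1)) 4060) 0 = true := by decide +kernel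

end Cfsg.Lib.Spor.Ru.Rk
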