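import Mathlib

/-! Poisson summation for Gaussians on `ℤⁿ` (by induction on `n` from the one-dimensional
formula `Complex.tsum_exp_neg_quadratic`). -/

set_option autoImplicit false

namespace Cfsg.Lib.Spor

open Matrix

/-- The real quadratic form of a matrix. -/
def qf {n : ℕ} (A : Matrix (Fin n) (Fin n) ℝ) (x : Fin n → ℝ) : ℝ := x ⬝ᵥ (A *ᵥ x)

theorem qf_smul {n : ℕ} (A : Matrix (Fin n) (Fin n) ℝ) (t : ℝ) (x : Fin n → ℝ) :
    qf A (t • x) = t ^ 2 * qf A x := by
  simp [qf, mulVec_smul, dotProduct_smul, smul_dotProduct]; ring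

theorem continuous_qf {n : ℕ} (A : Matrix (Fin n) (Fin n) ℝ) : Continuous (qf A) := by
  unfold qf
  simp only [dotProduct, mulVec]
  fun_prop

theorem exists_coercive {n : ℕ} (A : Matrix (Fin n) (Fin n) ℝ)
    (hA : ∀ x : Fin n → ℝ, x ≠ 0 → 0 < qf A x) :
    ∃ c : ℝ, 0 < c ∧ ∀ x : Fin n → ℝ, c * ∑ i, x i ^ 2 ≤ qf A x := by
  by_cases hne : (Metric.sphere (0 : Fin n → ℝ) 1).Nonempty
  · obtain ⟨z, hz, hmin⟩ := (isCompact_sphere (0 : Fin n → ℝ) 1).exists_isMinOn hne
      (continuous_qf A).continuousOn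
    have hz0 : z ≠ 0 := by
      rintro rfl
      simp at hz
    have hc := hA z hz0
    refine ⟨qf A z / (n + 1), by positivity, fun x => ?_⟩
    by_cases hx : x = 0
    · subst hx; simp [qf]
    · have hn : 0 < ‖x‖ := norm_pos_iff.mpr hx
      have h1 : (‖x‖⁻¹ • x) ∈ Metric.sphere (0 : Fin n → ℝ) 1 := by
        simp [norm_smul, hn.ne']
      have h2 : qf A z ≤ qf A (‖x‖⁻¹ • x) := hmin h1
      rw [qf_smul] at h2
      have h3 : ∑ i, x i ^ 2 ≤ (n + 1) * ‖x‖ ^ 2 := by
        calc ∑ i, x i ^ 2 ≤ ∑ _i : Fin n, ‖x‖ ^ 2 := by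
              refine Finset.sum_le_sum fun i _ => ?_
              have := norm_le_pi_norm x i
              rw [Real.norm_eq_abs] at this
              rw [← sq_abs]
              gcongr
          _ = n * ‖x‖ ^ 2 := by simp
          _ ≤ (n + 1) * ‖x‖ ^ 2 := by gcongr; linarith
      have h4 : qf A z * ‖x‖ ^ 2 ≤ qf A x := by
        have := mul_le_mul_of_nonneg_right h2 (sq_nonneg ‖x‖)
        rwa [mul_comm (‖x‖⁻¹ ^ 2), mul_assoc, ← mul_pow, inv_mul_cancel₀ hn.ne', one_pow,
          mul_one] at this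
      calc qf A z / (n + 1) * ∑ i, x i ^ 2 ≤ qf A z / (n + 1) * ((n + 1) * ‖x‖ ^ 2) := by
            gcongr
        _ = qf A z * ‖x‖ ^ 2 := by field_simp
        _ ≤ _ := h4
  · refine ⟨1, one_pos, fun x => ?_⟩
    by_cases hx : x = 0
    · subst hx; simp [qf]
    · exfalso
      have hn : 0 < ‖x‖ := norm_pos_iff.mpr hx
      exact hne ⟨‖x‖⁻¹ • x, by simp [norm_smul, hn.ne']⟩

theorem summable_gauss_one (c : ℝ) (hc : 0 < c) (r : ℝ) :
    Summable fun x : ℤ => Real.exp (-(c * ((x : ℝ) - r) ^ 2)) := by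
  have h := summable_pow_mul_jacobiTheta₂_term_bound (c * |r| / Real.pi)
    (T := c / Real.pi) (by positivity) 0
  refine Summable.of_nonneg_of_le (fun _ => by positivity) (fun x => ?_) h
  simp only [pow_zero, one_mul]
  refine Real.exp_le_exp.mpr ?_
  have hpi := Real.pi_pos
  have h1 : -Real.pi * (c / Real.pi * (x : ℝ) ^ 2 - 2 * (c * |r| / Real.pi) * |(x : ℝ)|) =
      -(c * ((x : ℝ) ^ 2 - 2 * |r| * |(x : ℝ)|)) := by field_simp
  push_cast
  rw [h1]
  have h2 : r * (x : ℝ) ≤ |r| * |(x : ℝ)| := by rw [← abs_mul]; exact le_abs_self _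
  nlinarith [sq_nonneg r, mul_le_mul_of_nonneg_left h2 hc.le, mul_nonneg hc.le (sq_nonneg r)]

theorem summable_gauss_pi (c : ℝ) (hc : 0 < c) (n : ℕ) (r : Fin n → ℝ) :
    Summable fun x : Fin n → ℤ => Real.exp (-(c * ∑ i, ((x i : ℝ) - r i) ^ 2)) := by
  induction n with
  | zero => exact Summable.of_finite
  | succ n ih =>
    rw [← (Fin.consEquiv (fun _ : Fin (n + 1) => ℤ)).summable_iff]
    have h := (summable_gauss_one c hc (r 0)).mul_of_nonneg (ih fun i => r i.succ)
      (fun _ => by positivity) (fun _ => by positivity)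
    refine h.congr fun p => ?_
    simp [Fin.sum_univ_succ, ← Real.exp_add, Fin.consEquiv]
    ring

theorem summable_gauss {n : ℕ} (A : Matrix (Fin n) (Fin n) ℝ)
    (hA : ∀ x : Fin n → ℝ, x ≠ 0 → 0 < qf A x) (t : ℝ) (ht : 0 < t) (r : Fin n → ℝ) :
    Summable fun x : Fin n → ℤ => Real.exp (-(t * qf A (fun i => (x i : ℝ) - r i))) := by
  obtain ⟨c, hc, h⟩ := exists_coercive A hA
  refine Summable.of_nonneg_of_le (fun _ => by positivity) (fun x => ?_)
    (summable_gauss_pi (t * c) (by positivity) n r)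
  refine Real.exp_le_exp.mpr ?_
  have := mul_le_mul_of_nonneg_left (h fun i => (x i : ℝ) - r i) ht.le
  linarith

theorem det_ne_zero_of_pos {n : ℕ} (A : Matrix (Fin n) (Fin n) ℝ)
    (hA : ∀ x : Fin n → ℝ, x ≠ 0 → 0 < qf A x) : A.det ≠ 0 := by
  intro h
  obtain ⟨v, hv, h0⟩ := Matrix.exists_mulVec_eq_zero_iff.mpr h
  have := hA v hv
  simp [qf, h0] at this

theorem qf_inv_mulVec {n : ℕ} (A : Matrix (Fin n) (Fin n) ℝ) (hd : A.det ≠ 0) (w : Fin n → ℝ) :
    qf A⁻¹ (A *ᵥ w) = qf A w := by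
  simp only [qf, mulVec_mulVec, nonsing_inv_mul A (Ne.isUnit hd), one_mulVec]
  exact dotProduct_comm _ _

theorem qf_inv_pos {n : ℕ} (A : Matrix (Fin n) (Fin n) ℝ)
    (hA : ∀ x : Fin n → ℝ, x ≠ 0 → 0 < qf A x) (x : Fin n → ℝ) (hx : x ≠ 0) : 0 < qf A⁻¹ x := by
  have hd := det_ne_zero_of_pos A hA
  have h1 : A *ᵥ (A⁻¹ *ᵥ x) = x := by
    rw [mulVec_mulVec, mul_nonsing_inv A (Ne.isUnit hd), one_mulVec]
  rw [← h1, qf_inv_mulVec A hd]
  refine hA _ fun h0 => hx ?_
  rw [← h1, h0, mulVec_zero]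

/-- The Schur complement of the corner entry. -/
noncomputable def schurC {n : ℕ} (A : Matrix (Fin (n + 1)) (Fin (n + 1)) ℝ) :
    Matrix (Fin n) (Fin n) ℝ :=
  Matrix.of fun i j => A i.succ j.succ - A 0 i.succ * A 0 j.succ / A 0 0

theorem schurC_isSymm {n : ℕ} (A : Matrix (Fin (n + 1)) (Fin (n + 1)) ℝ) (hs : A.IsSymm) :
    (schurC A).IsSymm := by
  ext i j
  simp only [schurC, transpose_apply, of_apply]
  rw [hs.apply i.succ j.succ]; ring

theorem qf_cons {n : ℕ} (A : Matrix (Fin (n + 1)) (Fin (n + 1)) ℝ) (hs : A.IsSymm)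
    (x : Fin (n + 1) → ℝ) :
    qf A x = A 0 0 * x 0 ^ 2 + 2 * x 0 * (∑ i : Fin n, A 0 i.succ * x i.succ) +
      (∑ i : Fin n, A 0 i.succ * x i.succ) ^ 2 / A 0 0 + qf (schurC A) (fun i => x i.succ) := by
  have h1 : qf (schurC A) (fun i => x i.succ) =
      ∑ i : Fin n, x i.succ * ∑ j : Fin n, A i.succ j.succ * x j.succ -
        (∑ i : Fin n, A 0 i.succ * x i.succ) ^ 2 / A 0 0 := by
    simp only [qf, dotProduct, mulVec, schurC, of_apply, sub_mul, Finset.sum_sub_distrib, mul_sub]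
    congr 1
    rw [sq, Finset.sum_mul_sum, Finset.sum_div]
    refine Finset.sum_congr rfl fun i _ => ?_
    rw [Finset.mul_sum, Finset.sum_div]
    refine Finset.sum_congr rfl fun j _ => ?_
    ring
  rw [h1]
  simp only [qf, dotProduct, mulVec, Fin.sum_univ_succ, mul_add, Finset.sum_add_distrib]
  have h2 : ∑ i : Fin n, x i.succ * (A i.succ 0 * x 0) =
      x 0 * ∑ i : Fin n, A 0 i.succ * x i.succ := by
    rw [Finset.mul_sum]
    refine Finset.sum_congr rfl fun i _ => ?_
    rw [hs.apply 0 i.succ]; ring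
  rw [h2]
  ring

theorem corner_pos {n : ℕ} (A : Matrix (Fin (n + 1)) (Fin (n + 1)) ℝ)
    (hA : ∀ x, x ≠ 0 → 0 < qf A x) : 0 < A 0 0 := by
  have := hA (Pi.single 0 1) (by simp)
  simpa [qf] using this

theorem schurC_pos {n : ℕ} (A : Matrix (Fin (n + 1)) (Fin (n + 1)) ℝ) (hs : A.IsSymm)
    (hA : ∀ x, x ≠ 0 → 0 < qf A x) (x : Fin n → ℝ) (hx : x ≠ 0) : 0 < qf (schurC A) x := by
  have h0 := corner_pos A hA
  have h1 := hA (Fin.cons (-(∑ i : Fin n, A 0 i.succ * x i) / A 0 0) x) (by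
    intro h
    apply hx
    ext i
    simpa using congrFun h i.succ)
  rw [qf_cons A hs] at h1
  simp only [Fin.cons_zero, Fin.cons_succ] at h1
  convert h1 using 1
  field_simp
  ring

theorem qf_inv_cons {n : ℕ} (A : Matrix (Fin (n + 1)) (Fin (n + 1)) ℝ) (hs : A.IsSymm)
    (hA : ∀ x, x ≠ 0 → 0 < qf A x) (z : Fin (n + 1) → ℝ) :
    qf A⁻¹ z = z 0 ^ 2 / A 0 0 +
      qf (schurC A)⁻¹ (fun i => z i.succ - z 0 * A 0 i.succ / A 0 0) := by
  have h0 := corner_pos A hA
  have hd := det_ne_zero_of_pos A hA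
  have hd' := det_ne_zero_of_pos _ (schurC_pos A hs hA)
  obtain ⟨w, rfl⟩ : ∃ w, z = A *ᵥ w :=
    ⟨A⁻¹ *ᵥ z, by rw [mulVec_mulVec, mul_nonsing_inv A (Ne.isUnit hd), one_mulVec]⟩
  have h1 : (fun i : Fin n => (A *ᵥ w) i.succ - (A *ᵥ w) 0 * A 0 i.succ / A 0 0) =
      schurC A *ᵥ fun i => w i.succ := by
    ext i
    simp only [mulVec, dotProduct, Fin.sum_univ_succ, schurC, of_apply, sub_mul,
      Finset.sum_sub_distrib]
    rw [hs.apply 0 i.succ]
    have : ∑ j : Fin n, A 0 i.succ * A 0 j.succ / A 0 0 * w j.succ =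
        (∑ j : Fin n, A 0 j.succ * w j.succ) * A 0 i.succ / A 0 0 := by
      rw [Finset.sum_mul, Finset.sum_div]
      refine Finset.sum_congr rfl fun j _ => ?_
      ring
    rw [this]
    field_simp
    ring
  rw [h1, qf_inv_mulVec A hd, qf_inv_mulVec _ hd', qf_cons A hs]
  simp only [mulVec, dotProduct, Fin.sum_univ_succ]
  field_simp
  ring

theorem one_div_mul_cpow_half (a : ℂ) (ha : a ≠ 0) (t : ℝ) (ht : 0 < t) :
    1 / (a * t) ^ (1 / 2 : ℂ) = 1 / (t : ℂ) ^ (1 / 2 : ℂ) * (1 / a ^ (1 / 2 : ℂ)) := by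
  have ht' : (t : ℂ) ≠ 0 := by exact_mod_cast ht.ne'
  rw [Complex.cpow_def_of_ne_zero (mul_ne_zero ha ht'), Complex.cpow_def_of_ne_zero ha,
    Complex.cpow_def_of_ne_zero ht', Complex.log_mul_ofReal t ht a ha, add_mul, Complex.exp_add,
    Complex.ofReal_log ht.le]
  field_simp

theorem norm_gauss_term (a : ℂ) (q s : ℝ) :
    ‖Complex.exp (-Real.pi * a * q + 2 * Real.pi * Complex.I * s)‖ =
      Real.exp (-(Real.pi * a.re * q)) := by
  rw [Complex.norm_exp]
  simp

theorem norm_gauss_term' (a : ℂ) (q : ℝ) :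
    ‖Complex.exp (-Real.pi / a * q)‖ = Real.exp (-(Real.pi * a⁻¹.re * q)) := by
  rw [Complex.norm_exp, div_eq_mul_inv]
  congr 1
  simp only [neg_mul, Complex.neg_re, Complex.mul_re, Complex.ofReal_re, Complex.ofReal_im,
    zero_mul, sub_zero, mul_zero]

theorem inv_re_pos {a : ℂ} (ha : 0 < a.re) : 0 < a⁻¹.re := by
  rw [Complex.inv_re]
  have : a ≠ 0 := by rintro rfl; simp at ha
  exact div_pos ha (Complex.normSq_pos.mpr this)

/-- Poisson summation for a Gaussian on `ℤⁿ`, up to a constant depending on the form only. -/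
theorem gauss_poisson (n : ℕ) : ∀ (A : Matrix (Fin n) (Fin n) ℝ), A.IsSymm →
    (∀ x, x ≠ 0 → 0 < qf A x) → ∃ ρ : ℂ, ∀ a : ℂ, 0 < a.re → ∀ r : Fin n → ℝ,
      ∑' x : Fin n → ℤ, Complex.exp (-Real.pi * a * (qf A fun i => (x i : ℝ)) +
        2 * Real.pi * Complex.I * (∑ i, r i * (x i : ℝ) : ℝ)) =
      ρ * (1 / a ^ (1 / 2 : ℂ)) ^ n *
        ∑' y : Fin n → ℤ, Complex.exp (-Real.pi / a * (qf A⁻¹ fun i => (y i : ℝ) - r i)) := by
  induction n with
  | zero =>
    intro A _ _
    refine ⟨1, fun a _ r => ?_⟩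
    simp [qf]
  | succ n ih =>
    intro A hs hA
    obtain ⟨ρ, hρ⟩ := ih (schurC A) (schurC_isSymm A hs) (schurC_pos A hs hA)
    have h0 := corner_pos A hA
    set α := A 0 0 with hα
    refine ⟨ρ * (1 / (α : ℂ) ^ (1 / 2 : ℂ)), fun a ha r => ?_⟩
    have ha0 : a ≠ 0 := by rintro rfl; simp at ha
    have hα0 : (α : ℂ) ≠ 0 := by exact_mod_cast h0.ne'
    have hpi := Real.pi_pos
    let e := Fin.consEquiv (fun _ : Fin (n + 1) => ℤ)
    let β : (Fin n → ℤ) → ℝ := fun x => ∑ i : Fin n, A 0 i.succ * (x i : ℝ)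
    -- the mixed family
    let F : ℤ → (Fin n → ℤ) → ℂ := fun y x =>
      Complex.exp (-Real.pi / a * ((((y : ℝ) - r 0) ^ 2 / α : ℝ))) *
        Complex.exp (-Real.pi * a * (qf (schurC A) fun i => (x i : ℝ)) +
          2 * Real.pi * Complex.I *
            (∑ i, (r i.succ + ((y : ℝ) - r 0) * A 0 i.succ / α) * (x i : ℝ) : ℝ))
    have hF : Summable (Function.uncurry F) := by
      apply Summable.of_norm
      have h1 := (summable_gauss_one (Real.pi * a⁻¹.re / α)
        (div_pos (mul_pos hpi (inv_re_pos ha)) h0) (r 0)).mul_of_nonneg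
        (summable_gauss (schurC A) (schurC_pos A hs hA) (Real.pi * a.re) (by positivity) 0)
        (fun _ => by positivity) (fun _ => by positivity)
      refine h1.congr fun p => ?_
      simp only [Function.uncurry, F, norm_mul, norm_gauss_term, norm_gauss_term', Pi.zero_apply,
        sub_zero]
      congr 2
      ring
    have hL : Summable fun p : ℤ × (Fin n → ℤ) =>
        Complex.exp (-Real.pi * a * (qf A fun i => (e p i : ℝ)) +
          2 * Real.pi * Complex.I * (∑ i, r i * (e p i : ℝ) : ℝ)) := by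
      apply Summable.of_norm
      have h1 := (e.summable_iff (f := fun x : Fin (n + 1) → ℤ =>
        Real.exp (-(Real.pi * a.re * qf A fun i => (x i : ℝ) - (0 : Fin (n + 1) → ℝ) i)))).mpr
        (summable_gauss A hA (Real.pi * a.re) (by positivity) 0)
      refine h1.congr fun p => ?_
      simp only [norm_gauss_term, Function.comp, Pi.zero_apply, sub_zero]
    have hR : Summable fun p : ℤ × (Fin n → ℤ) =>
        Complex.exp (-Real.pi / a * (qf A⁻¹ fun i => (e p i : ℝ) - r i)) := by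
      apply Summable.of_norm
      have h1 := (e.summable_iff (f := fun x : Fin (n + 1) → ℤ =>
        Real.exp (-(Real.pi * a⁻¹.re * qf A⁻¹ fun i => (x i : ℝ) - r i)))).mpr
        (summable_gauss A⁻¹ (qf_inv_pos A hA) (Real.pi * a⁻¹.re)
          (mul_pos hpi (inv_re_pos ha)) r)
      refine h1.congr fun p => ?_
      simp only [norm_gauss_term', Function.comp]
    rw [← e.tsum_eq, ← e.tsum_eq (fun y : Fin (n + 1) → ℤ =>
      Complex.exp (-Real.pi / a * (qf A⁻¹ fun i => (y i : ℝ) - r i))), hR.tsum_prod,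
      ← (Equiv.prodComm _ _).tsum_eq]
    simp only [Equiv.prodComm_apply]
    rw [hL.prod_symm.tsum_prod]
    have step1 : ∀ x : Fin n → ℤ, ∑' x0 : ℤ,
        Complex.exp (-Real.pi * a * (qf A fun i => (e (x0, x) i : ℝ)) +
          2 * Real.pi * Complex.I * (∑ i, r i * (e (x0, x) i : ℝ) : ℝ)) =
        1 / (a * α) ^ (1 / 2 : ℂ) * ∑' y : ℤ, F y x := by
      intro x
      have h1 := Complex.tsum_exp_neg_quadratic (a := a * α) (by simpa using mul_pos ha h0)
        (Complex.I * r 0 - a * β x)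
      let K : ℂ := Complex.exp (-Real.pi * a * ((β x ^ 2 / α +
        qf (schurC A) fun i => (x i : ℝ) : ℝ)) +
          2 * Real.pi * Complex.I * (∑ i, r i.succ * (x i : ℝ) : ℝ))
      calc _ = ∑' x0 : ℤ, Complex.exp (-Real.pi * (a * α) * x0 ^ 2 +
              2 * Real.pi * (Complex.I * r 0 - a * β x) * x0) * K := by
            refine tsum_congr fun x0 => ?_
            rw [qf_cons A hs, ← Complex.exp_add]
            congr 1
            simp only [e, Fin.consEquiv, Equiv.coe_fn_mk, Fin.cons_zero, Fin.cons_succ,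
              Fin.sum_univ_succ, β, ← hα]
            push_cast
            ring
        _ = _ := by
            rw [tsum_mul_right, h1, mul_assoc, ← tsum_mul_right]
            congr 1
            refine tsum_congr fun y => ?_
            simp only [F, K, ← Complex.exp_add]
            congr 1
            have h2 : (∑ i, (r i.succ + ((y : ℝ) - r 0) * A 0 i.succ / α) * (x i : ℝ) : ℝ) =
                (∑ i, r i.succ * (x i : ℝ) : ℝ) + ((y : ℝ) - r 0) * β x / α := by
              simp only [β, add_mul, Finset.sum_add_distrib, Finset.mul_sum, Finset.sum_div]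
              congr 1
              refine Finset.sum_congr rfl fun i _ => ?_
              ring
            rw [h2]
            push_cast
            field_simp
            ring_nf
            simp only [Complex.I_sq, Complex.I_pow_three, Complex.I_pow_four]
            ring
    have step2 : ∀ y0 : ℤ, ∑' x : Fin n → ℤ, F y0 x = ρ * (1 / a ^ (1 / 2 : ℂ)) ^ n *
        ∑' y : Fin n → ℤ,
          Complex.exp (-Real.pi / a * (qf A⁻¹ fun i => (e (y0, y) i : ℝ) - r i)) := by
      intro y0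
      simp only [F]
      rw [tsum_mul_left, hρ a ha, mul_left_comm, ← tsum_mul_left]
      congr 1
      refine tsum_congr fun y => ?_
      rw [← Complex.exp_add, qf_inv_cons A hs hA]
      congr 1
      simp only [e, Fin.consEquiv, Equiv.coe_fn_mk, Fin.cons_zero, Fin.cons_succ, ← hα, sub_sub]
      push_cast
      ring
    simp only [Prod.swap, step1]
    rw [tsum_mul_left, hF.tsum_comm]
    simp only [step2]
    rw [tsum_mul_left, one_div_mul_cpow_half a ha0 α h0]
    ring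

end Cfsg.Lib.Spor
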